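import Cfsg.Agent.BrauerPairs.Nil.Step
import Cfsg.Agent.Brauer.ProjVec
import Mathlib.LinearAlgebra.Trace

/-!
Characters as linear forms on the complex group algebra: corners of idempotents of rank one, the
dimension of two-sided translates, values of idempotents over the local ring.
-/

set_option autoImplicit false
set_option linter.style.haveILetI false
set_option linter.unusedSectionVars false

namespace Cfsg.Agent.BlockCount.CharAlg

open MonoidAlgebra Cfsg Cfsg.Agent.Block
open scoped ComplexConjugate Classical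

universe u

section Rank

variable {V : Type*} [AddCommGroup V] [Module ℂ V] [FiniteDimensional ℂ V]

theorem trace_idem {E : Module.End ℂ V} (hE : IsIdempotentElem E) :
    LinearMap.trace ℂ V E = (Module.finrank ℂ (LinearMap.range E) : ℂ) :=
  (LinearMap.IsIdempotentElem.isProj_range _ hE).trace

/-- Operators in the corner of an idempotent of trace one are scalars. -/
theorem eq_trace_smul {E A : Module.End ℂ V} (hE : IsIdempotentElem E)
    (h1 : LinearMap.trace ℂ V E = 1) (hA : E * A * E = A) :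
    A = LinearMap.trace ℂ V A • E := by
  have hr : Module.finrank ℂ (LinearMap.range E) = 1 := by
    rw [trace_idem hE] at h1
    exact_mod_cast h1
  obtain ⟨w, hw0, hw⟩ := finrank_eq_one_iff'.1 hr
  obtain ⟨v, hv⟩ := w.2
  have hEw : E (w : V) = w := by rw [← hv, ← Module.End.mul_apply, hE.eq]
  obtain ⟨c, hc⟩ := hw ⟨E (A w), ⟨_, rfl⟩⟩
  have hc' : E (A (w : V)) = c • (w : V) := (congrArg Subtype.val hc).symm
  have hAeq : A = c • E := by
    refine LinearMap.ext fun x => ?_
    obtain ⟨d, hd⟩ := hw ⟨E x, ⟨_, rfl⟩⟩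
    have hd' : E x = d • (w : V) := (congrArg Subtype.val hd).symm
    conv_lhs => rw [← hA]
    rw [Module.End.mul_apply, Module.End.mul_apply, hd', map_smul, map_smul, hc', LinearMap.smul_apply,
      hd', smul_smul, smul_smul, mul_comm]
  conv_rhs => rw [hAeq, map_smul, h1, smul_eq_mul, mul_one]
  exact hAeq

theorem eq_zero_of_trace_zero {E : Module.End ℂ V} (hE : IsIdempotentElem E)
    (h0 : LinearMap.trace ℂ V E = 0) : E = 0 := by
  rw [trace_idem hE, Nat.cast_eq_zero, Submodule.finrank_eq_zero] at h0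
  exact LinearMap.range_eq_bot.1 h0

end Rank

variable {G : Type u} [Group G]

theorem charLin_mul_comm {χ : G → ℂ} (hχ : IsCharacter G χ) (a b : MonoidAlgebra ℂ G) :
    charLin χ (a * b) = charLin χ (b * a) := by
  obtain ⟨n, ρ, rfl⟩ := hχ
  rw [Brauer.ProjVec.charLin_eq_trace, Brauer.ProjVec.charLin_eq_trace,
    map_mul ρ.asAlgebraHom, map_mul ρ.asAlgebraHom, LinearMap.trace_mul_comm]

/-- A character with value one at an idempotent is multiplicative on its corner. -/
theorem charLin_mul_corner {χ : G → ℂ} (hχ : IsCharacter G χ) {E a : MonoidAlgebra ℂ G}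
    (hE : E * E = E) (h1 : charLin χ E = 1) (ha : E * a * E = a) (x : MonoidAlgebra ℂ G) :
    charLin χ (x * a) = charLin χ (E * x * E) * charLin χ a := by
  obtain ⟨n, ρ, rfl⟩ := hχ
  simp only [Brauer.ProjVec.charLin_eq_trace] at h1 ⊢
  set φ := ρ.asAlgebraHom
  have hEi : IsIdempotentElem (φ E) := by rw [IsIdempotentElem, ← map_mul, hE]
  have h := eq_trace_smul (A := φ a) hEi h1 (by rw [← map_mul, ← map_mul, ha])
  rw [map_mul φ]
  conv_lhs => rw [h]
  rw [mul_smul_comm, map_smul, smul_eq_mul, mul_comm]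
  congr 1
  rw [map_mul φ, map_mul φ, LinearMap.trace_mul_comm ℂ (φ E * φ x), ← mul_assoc, hEi.eq,
    LinearMap.trace_mul_comm]

theorem charLin_corner_eq_zero {χ : G → ℂ} (hχ : IsCharacter G χ) {E a : MonoidAlgebra ℂ G}
    (hE : E * E = E) (h0 : charLin χ E = 0) (ha : E * a * E = a) (x : MonoidAlgebra ℂ G) :
    charLin χ (x * a) = 0 := by
  obtain ⟨n, ρ, rfl⟩ := hχ
  simp only [Brauer.ProjVec.charLin_eq_trace] at h0 ⊢
  have hEi : IsIdempotentElem (ρ.asAlgebraHom E) := by rw [IsIdempotentElem, ← map_mul, hE]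
  have h := eq_zero_of_trace_zero hEi h0
  rw [← ha, map_mul ρ.asAlgebraHom, map_mul ρ.asAlgebraHom, map_mul ρ.asAlgebraHom, h, zero_mul,
    zero_mul, mul_zero, map_zero]

variable [Fintype G]

theorem card_mul_coeff_one (a : MonoidAlgebra ℂ G) :
    (Nat.card G : ℂ) * a.coeff 1 =
      ∑ χ : IrrCharacter G, (χ : G → ℂ) 1 * charLin (χ : G → ℂ) a := by
  simp only [charLin_eq_sum, Finset.mul_sum]
  rw [Finset.sum_comm]
  have hone : ∀ χ : IrrCharacter G, (χ : G → ℂ) 1 = conj ((χ : G → ℂ) 1) := fun χ => by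
    rw [← Char.irr_inv χ.2, inv_one]
  have h : ∀ x : G, ∑ χ : IrrCharacter G, (χ : G → ℂ) 1 * (a.coeff x * (χ : G → ℂ) x) =
      if x = 1 then (Nat.card G : ℂ) * a.coeff x else 0 := by
    intro x
    have h1 : ∑ χ : IrrCharacter G, (χ : G → ℂ) 1 * (a.coeff x * (χ : G → ℂ) x) =
        a.coeff x * ∑ χ : IrrCharacter G, (χ : G → ℂ) x * conj ((χ : G → ℂ) 1) := by
      rw [Finset.mul_sum]
      exact Finset.sum_congr rfl fun χ _ => by rw [← hone]; ring
    rw [h1, Char.sum_irr_mul_conj]
    by_cases hx : x = 1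
    · subst hx
      rw [if_pos (IsConj.refl _), if_pos rfl, show Subgroup.centralizer ({1} : Set G) = ⊤ by
        rw [Subgroup.eq_top_iff']
        intro y
        simp [Subgroup.mem_centralizer_iff], Subgroup.card_top, mul_comm]
    · rw [if_neg fun hc => hx (isConj_one_left.1 hc), if_neg hx, mul_zero]
  simp only [h, Finset.sum_ite_eq', Finset.mem_univ, if_true]

theorem eq_zero_of_charLin {a : MonoidAlgebra ℂ G}
    (h : ∀ χ : IrrCharacter G, ∀ x, charLin (χ : G → ℂ) (x * a) = 0) : a = 0 := by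
  refine groupAlgebra_ext fun g => ?_
  have h1 := card_mul_coeff_one (single g⁻¹ 1 * a)
  simp only [h, mul_zero, Finset.sum_const_zero, coeff_mul_sum', mul_eq_zero,
    Nat.cast_eq_zero] at h1
  have h2 := h1.resolve_left Nat.card_pos.ne'
  have h3 : (single g⁻¹ (1 : ℂ) * a).coeff 1 = a.coeff g := by
    rw [MonoidAlgebra.coeff_single_mul_apply, inv_inv, mul_one, one_mul]
  rw [← h3]
  simpa [coeff_mul_sum'] using h2

/-- The dimension of the image of an idempotent translate. -/
theorem finrank_range_mul_mul {a b : MonoidAlgebra ℂ G} (ha : a * a = a) (hb : b * b = b) :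
    (Module.finrank ℂ (LinearMap.range (LinearMap.mulLeft ℂ a ∘ₗ LinearMap.mulRight ℂ b)) : ℂ) =
      ∑ χ : IrrCharacter G, charLin (χ : G → ℂ) a * charLin (χ : G → ℂ) b := by
  haveI : FiniteDimensional ℂ (MonoidAlgebra ℂ G) := Module.Finite.of_surjective
    (coeffLinearEquiv ℂ).symm.toLinearMap (LinearEquiv.surjective _)
  set T : Module.End ℂ (MonoidAlgebra ℂ G) := LinearMap.mulLeft ℂ a ∘ₗ LinearMap.mulRight ℂ b
  have hT : IsIdempotentElem T := LinearMap.ext fun x => by
    show a * (a * (x * b) * b) = a * (x * b)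
    rw [← mul_assoc, ← mul_assoc a a, ha, mul_assoc, mul_assoc x b b, hb]
  rw [← trace_idem hT, LinearMap.trace_eq_matrix_trace ℂ (MonoidAlgebra.basis G ℂ)]
  simp only [Matrix.trace, Matrix.diag_apply, LinearMap.toMatrix_apply]
  have hdiag : ∀ g : G, ((MonoidAlgebra.basis G ℂ).repr (T (MonoidAlgebra.basis G ℂ g))) g =
      ∑ u : G, a.coeff u * b.coeff (g⁻¹ * u⁻¹ * g) := by
    intro g
    rw [show (MonoidAlgebra.basis G ℂ).repr (T (MonoidAlgebra.basis G ℂ g)) =
      (a * (single g 1 * b)).coeff from rfl, coeff_mul_sum]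
    refine Finset.sum_congr rfl fun u _ => ?_
    rw [MonoidAlgebra.coeff_single_mul_apply, one_mul, mul_assoc]
  simp only [hdiag]
  simp only [charLin_eq_sum, Finset.sum_mul_sum]
  rw [Finset.sum_comm, Finset.sum_comm (γ := IrrCharacter G)]
  refine Finset.sum_congr rfl fun u _ => ?_
  rw [Finset.sum_comm (γ := IrrCharacter G), ← Finset.mul_sum]
  have h : ∀ v : G, ∑ χ : IrrCharacter G, a.coeff u * (χ : G → ℂ) u * (b.coeff v * (χ : G → ℂ) v) =
      a.coeff u * (b.coeff v * if IsConj u v⁻¹ then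
        (Nat.card (Subgroup.centralizer ({u} : Set G)) : ℂ) else 0) := by
    intro v
    refine Eq.trans ?_ (congrArg (fun t => a.coeff u * (b.coeff v * t))
      (show ∑ χ : IrrCharacter G, (χ : G → ℂ) u * conj ((χ : G → ℂ) v⁻¹) = _ by
        convert Char.sum_irr_mul_conj u v⁻¹))
    rw [Finset.mul_sum, Finset.mul_sum]
    refine Finset.sum_congr rfl fun χ _ => ?_
    rw [show conj ((χ : G → ℂ) v⁻¹) = (χ : G → ℂ) v by rw [← Char.irr_inv χ.2, inv_inv]]
    ring
  simp only [h, ← Finset.mul_sum]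
  congr 1
  -- count the elements conjugating `u⁻¹` to `v`
  rw [← Finset.sum_fiberwise Finset.univ (fun g : G => g⁻¹ * u⁻¹ * g)
    (fun g => b.coeff (g⁻¹ * u⁻¹ * g))]
  refine Finset.sum_congr rfl fun v _ => ?_
  rw [Finset.sum_congr rfl fun g hg => by rw [(Finset.mem_filter.1 hg).2], Finset.sum_const,
    nsmul_eq_mul, mul_comm]
  congr 1
  split_ifs with hconj
  · obtain ⟨c, hc⟩ := isConj_iff.1 hconj
    rw [Nat.cast_inj, Nat.card_eq_fintype_card, ← Finset.card_univ]
    refine Finset.card_bij' (fun g _ => (⟨g * c, ?_⟩ : Subgroup.centralizer ({u} : Set G)))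
      (fun d _ => (d : G) * c⁻¹) (fun g _ => Finset.mem_univ _) (fun d _ => ?_)
      (fun g _ => by simp) (fun d _ => Subtype.ext (by simp))
    · rename_i hg
      have hg' := (Finset.mem_filter.1 hg).2
      rw [Subgroup.mem_centralizer_singleton_iff]
      have h2 : c⁻¹ * v⁻¹ * c = u := by rw [← hc]; group
      have h3 : g⁻¹ * u * g = v⁻¹ := by rw [← hg']; group
      calc g * c * u = g * c * (c⁻¹ * v⁻¹ * c) := by rw [h2]
        _ = g * v⁻¹ * c := by group
        _ = g * (g⁻¹ * u * g) * c := by rw [h3]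
        _ = u * (g * c) := by group
    · refine Finset.mem_filter.2 ⟨Finset.mem_univ _, ?_⟩
      have h3 := Subgroup.mem_centralizer_singleton_iff.1 d.2
      have h4 : (d : G)⁻¹ * u⁻¹ * d = u⁻¹ := by
        rw [mul_assoc, inv_mul_eq_iff_eq_mul, inv_mul_eq_iff_eq_mul, ← mul_assoc, ← h3,
          mul_inv_cancel_right]
      have h5 : c * u⁻¹ * c⁻¹ = v := by
        rw [← inv_inv v, ← hc]; group
      calc ((d : G) * c⁻¹)⁻¹ * u⁻¹ * ((d : G) * c⁻¹) = c * ((d : G)⁻¹ * u⁻¹ * d) * c⁻¹ := by group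
        _ = v := by rw [h4, h5]
  · rw [Nat.cast_eq_zero, Finset.card_eq_zero, Finset.filter_eq_empty_iff]
    intro g _ hg
    refine hconj (isConj_iff.2 ⟨g⁻¹, ?_⟩)
    rw [← hg]
    group

section Local

variable {p : ℕ} [Fact p.Prime] {M : Ideal AlgInt} [M.IsPrime] [CharP (ResF M) p]

/-- The values of an idempotent only depend on the regular elements. -/
theorem ev_eq_regular (hM : IsPModular p M) {f : MonoidAlgebra (localRing M) G} (hf : f * f = f)
    {φ : G → ℂ} (hφ : IsClassFunction G φ) :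
    Brauer.ProjVec.ev φ f =
      ∑ y ∈ Finset.univ.filter (fun y : G => ¬ p ∣ orderOf y), (f.coeff y : ℂ) * φ y := by
  rw [Brauer.ProjVec.ev_apply, charLin_eq_sum]
  simp only [coeff_mapR]
  rw [← Finset.sum_filter_add_sum_filter_not Finset.univ (fun y : G => p ∣ orderOf y)]
  have h := BrauerPairs.Nil.sum_singular_eq_zero hM hf (BrauerPairs.suppIn_top f) (g := φ)
    fun h _ y _ => hφ y h
  simp only [Subgroup.mem_top, true_and] at h
  simp only [Subring.coe_subtype]
  rw [h, zero_add]

/-- The values of an idempotent are orthogonal to the characters on the singular elements. -/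
theorem sum_ev_mul_eq_zero (hM : IsPModular p M) {f : MonoidAlgebra (localRing M) G}
    (hf : f * f = f) {y : G} (hy : p ∣ orderOf y) :
    ∑ χ : IrrCharacter G, Brauer.ProjVec.ev (χ : G → ℂ) f * conj ((χ : G → ℂ) y) = 0 := by
  rw [Brauer.ProjVec.sum_class_coeff_eq]
  refine mul_eq_zero_of_right _ ?_
  have hcl : IsClassFunction G (fun x : G => if IsConj y x then (1 : ℂ) else 0) := fun x z => by
    have hc : IsConj x (z * x * z⁻¹) := isConj_iff.2 ⟨z, rfl⟩
    exact if_congr ⟨fun k => k.trans hc.symm, fun k => k.trans hc⟩ rfl rfl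
  have h := BrauerPairs.Nil.sum_singular_eq_zero hM hf (BrauerPairs.suppIn_top f)
    (g := fun x : G => if IsConj y x then (1 : ℂ) else 0) fun h _ x _ => hcl x h
  simp only [Subgroup.mem_top, true_and, mul_ite, mul_one, mul_zero, ← Finset.sum_filter,
    Finset.filter_filter] at h
  refine (Finset.sum_congr (Finset.filter_congr fun x _ => ?_) fun _ _ => rfl).trans h
  refine ⟨fun hx => ⟨?_, hx⟩, fun hx => hx.2⟩
  obtain ⟨c, rfl⟩ := isConj_iff.1 hx
  rwa [← MulAut.conj_apply, MulEquiv.orderOf_eq]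

end Local

end Cfsg.Agent.BlockCount.CharAlg
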