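import Mathlib.GroupTheory.GroupAction.Quotient
import Mathlib.GroupTheory.Coset.Card
import Mathlib.Algebra.BigOperators.Group.Finset.Basic
import Mathlib.Algebra.Ring.Basic
import Mathlib.Algebra.Ring.Hom.Defs
import Mathlib.Algebra.Group.Units.Hom
import Mathlib.Algebra.Module.Basic
import Mathlib.Tactic.Group
import Mathlib.Algebra.BigOperators.Ring.Finset

/-!
Relative traces for a finite group acting additively.
-/

set_option autoImplicit false
set_option linter.style.haveILetI false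
set_option linter.unusedSectionVars false

namespace Cfsg.Agent.BlockCount.RelTrace

open scoped Classical

universe u v

variable {G : Type u} [Group G] [Fintype G]

section

variable {A : Type v} [AddCommGroup A] (ρ : G →* AddMonoid.End A)

/-- Fixed by a subgroup. -/
def FixedBy (D : Subgroup G) (x : A) : Prop := ∀ d ∈ D, ρ d x = x

theorem act_mul (g h : G) (x : A) : ρ (g * h) x = ρ g (ρ h x) := by rw [map_mul]; rfl

/-- The relative trace from a subgroup. -/
noncomputable def rTr (D : Subgroup G) (x : A) : A :=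
  letI := Fintype.ofFinite (G ⧸ D)
  ∑ c : G ⧸ D, ρ c.out x

theorem rTr_eq_sum (D : Subgroup G) [Fintype (G ⧸ D)] (x : A) :
    rTr ρ D x = ∑ c : G ⧸ D, ρ c.out x := by
  unfold rTr
  exact Finset.sum_congr (by ext; simp) fun _ _ => rfl

theorem apply_eq_of_mk_eq {D : Subgroup G} {x : A} (hx : FixedBy ρ D x) {g h : G}
    (he : (g : G ⧸ D) = (h : G ⧸ D)) : ρ g x = ρ h x := by
  rw [QuotientGroup.eq] at he
  conv_rhs => rw [show h = g * (g⁻¹ * h) by group, act_mul, hx _ he]

theorem apply_out {D : Subgroup G} {x : A} (hx : FixedBy ρ D x) (g : G) :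
    ρ (g : G ⧸ D).out x = ρ g x :=
  apply_eq_of_mk_eq ρ hx (QuotientGroup.out_eq' _)

/-- The part of the trace over an invariant set of cosets is invariant. -/
theorem apply_sum_cosets {D : Subgroup G} [Fintype (G ⧸ D)] {x : A} (hx : FixedBy ρ D x)
    (S : Finset (G ⧸ D)) {g : G} (hS : ∀ c, g • c ∈ S ↔ c ∈ S) :
    ρ g (∑ c ∈ S, ρ c.out x) = ∑ c ∈ S, ρ c.out x := by
  rw [map_sum]
  refine Finset.sum_bij' (fun c _ => g • c) (fun c _ => g⁻¹ • c) (fun c hc => (hS c).2 hc)
    (fun c hc => (hS _).1 (by rwa [smul_inv_smul]))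
    (fun c _ => inv_smul_smul g c) (fun c _ => smul_inv_smul g c) fun c _ => ?_
  rw [← act_mul]
  refine apply_eq_of_mk_eq ρ hx ?_
  rw [QuotientGroup.out_eq', ← smul_eq_mul, ← MulAction.Quotient.smul_mk, QuotientGroup.out_eq']

theorem rTr_fixed {D : Subgroup G} {x : A} (hx : FixedBy ρ D x) (g : G) :
    ρ g (rTr ρ D x) = rTr ρ D x := by
  letI := Fintype.ofFinite (G ⧸ D)
  rw [rTr_eq_sum]
  exact apply_sum_cosets ρ hx Finset.univ fun c => by simp

/-- The trace is transitive. -/
theorem rTr_trans {D L : Subgroup G} (hDL : D ≤ L) [Fintype L] {x : A} (hx : FixedBy ρ D x) :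
    rTr ρ D x = rTr ρ L (rTr (ρ.comp L.subtype) (D.subgroupOf L) x) := by
  letI := Fintype.ofFinite (G ⧸ D)
  letI := Fintype.ofFinite (G ⧸ L)
  letI := Fintype.ofFinite (L ⧸ D.subgroupOf L)
  rw [rTr_eq_sum, rTr_eq_sum, rTr_eq_sum]
  simp only [map_sum]
  rw [← Fintype.sum_prod_type']
  have hf : ∀ h : G ⧸ L, ((h.out : G) : G ⧸ L) = h := QuotientGroup.out_eq'
  refine (Fintype.sum_equiv (Subgroup.quotientEquivProdOfLE' hDL Quotient.out hf).symm _ _
    fun q => ?_).symm
  obtain ⟨c, l⟩ := q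
  obtain ⟨l, rfl⟩ := QuotientGroup.mk_surjective l
  show ρ c.out (ρ ((l : L ⧸ D.subgroupOf L).out : L) x) = _
  have h1 : ρ (((l : L ⧸ D.subgroupOf L).out : L) : G) x = ρ (l : G) x := by
    refine apply_eq_of_mk_eq ρ hx ?_
    have h := QuotientGroup.out_eq' (l : L ⧸ D.subgroupOf L)
    rw [QuotientGroup.eq, Subgroup.mem_subgroupOf] at h
    rw [QuotientGroup.eq]
    exact h
  rw [h1, ← act_mul]
  refine (apply_eq_of_mk_eq ρ hx ?_).symm
  rw [QuotientGroup.out_eq']
  rfl

theorem fixedBy_comp_rTr {D L : Subgroup G} [Fintype L] {x : A} (hx : FixedBy ρ D x) :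
    FixedBy ρ L (rTr (ρ.comp L.subtype) (D.subgroupOf L) x) := fun l hl =>
  rTr_fixed (ρ.comp L.subtype) (fun d hd => hx d (Subgroup.mem_subgroupOf.1 hd)) ⟨l, hl⟩

/-- The full trace through a subgroup. -/
theorem sum_eq_rTr (D : Subgroup G) [Fintype D] (y : A) :
    ∑ g : G, ρ g y = rTr ρ D (∑ d : D, ρ d y) := by
  letI := Fintype.ofFinite (G ⧸ D)
  rw [rTr_eq_sum]
  simp only [map_sum, ← act_mul]
  rw [← Fintype.sum_prod_type']
  refine Fintype.sum_bijective (fun g : G => ((g : G ⧸ D), (⟨(g : G ⧸ D).out⁻¹ * g,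
    QuotientGroup.eq.1 (QuotientGroup.out_eq' _)⟩ : D))) ?_ _ _ fun g => ?_
  · refine ⟨fun g h he => ?_, fun q => ?_⟩
    · simp only [Prod.mk.injEq, Subtype.mk.injEq] at he
      rw [he.1] at he
      exact mul_left_cancel he.2
    · refine ⟨q.1.out * q.2, ?_⟩
      have h1 : ((q.1.out * (q.2 : G) : G) : G ⧸ D) = q.1 := by
        rw [QuotientGroup.mk_mul_of_mem _ q.2.2, QuotientGroup.out_eq']
      refine Prod.ext h1 (Subtype.ext ?_)
      show ((q.1.out * (q.2 : G) : G) : G ⧸ D).out⁻¹ * (q.1.out * q.2) = q.2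
      rw [h1, inv_mul_cancel_left]
  · simp only [mul_inv_cancel_left]

/-- A sum over a free orbit set is a full trace. -/
theorem exists_sum_of_free {D : Subgroup G} [Fintype (G ⧸ D)] (P : Subgroup G) [Fintype P] {x : A}
    (hx : FixedBy ρ D x) (S : Finset (G ⧸ D)) (hS : ∀ u ∈ P, ∀ c ∈ S, u • c ∈ S)
    (hfree : ∀ u ∈ P, ∀ c ∈ S, u • c = c → u = 1) :
    ∃ y, ∑ c ∈ S, ρ c.out x = ∑ u : P, ρ u y := by
  induction hn : S.card using Nat.strong_induction_on generalizing S with
  | _ n ih =>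
  subst hn
  rcases S.eq_empty_or_nonempty with rfl | ⟨c, hc⟩
  · exact ⟨0, by simp⟩
  set O := Finset.univ.image fun u : P => (u : G) • c with hO
  have hsub : O ⊆ S := by
    intro d hd
    obtain ⟨u, -, rfl⟩ := Finset.mem_image.1 hd
    exact hS u u.2 c hc
  obtain ⟨y, hy⟩ := ih (S \ O).card (Finset.card_lt_card
      (Finset.sdiff_ssubset hsub ⟨_, Finset.mem_image.2 ⟨1, Finset.mem_univ _, rfl⟩⟩)) (S \ O)
    (fun u hu d hd => by
      obtain ⟨hd1, hd2⟩ := Finset.mem_sdiff.1 hd
      refine Finset.mem_sdiff.2 ⟨hS u hu d hd1, fun h => hd2 ?_⟩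
      obtain ⟨w, -, hw⟩ := Finset.mem_image.1 h
      refine Finset.mem_image.2 ⟨⟨u, hu⟩⁻¹ * w, Finset.mem_univ _, ?_⟩
      rw [Subgroup.coe_mul, mul_smul, hw, Subgroup.coe_inv, inv_smul_smul])
    (fun u hu d hd => hfree u hu d (Finset.mem_sdiff.1 hd).1) rfl
  refine ⟨ρ c.out x + y, ?_⟩
  rw [← Finset.sum_sdiff hsub, hy, hO, Finset.sum_image]
  · rw [add_comm, ← Finset.sum_add_distrib]
    refine Finset.sum_congr rfl fun u _ => ?_
    rw [map_add, ← act_mul]
    refine congrArg (· + _) (apply_eq_of_mk_eq ρ hx ?_)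
    rw [QuotientGroup.out_eq', ← smul_eq_mul, ← MulAction.Quotient.smul_mk, QuotientGroup.out_eq']
  · intro u _ w _ h
    have h1 := hfree ((w : G)⁻¹ * u) (P.mul_mem (P.inv_mem w.2) u.2) c hc (by
      rw [mul_smul, show (u : G) • c = (w : G) • c from h, inv_smul_smul])
    exact Subtype.ext (inv_mul_eq_one.1 h1).symm

end

section Conj

variable {R : Type v} [Ring R]

/-- Conjugation through a homomorphism into a ring. -/
noncomputable def conjAct (f : G →* R) : G →* AddMonoid.End R where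
  toFun g := (AddMonoidHom.mulLeft (f g)).comp (AddMonoidHom.mulRight (f g⁻¹))
  map_one' := AddMonoidHom.ext fun x => by
    show f 1 * (x * f 1⁻¹) = x
    simp
  map_mul' a b := AddMonoidHom.ext fun x => by
    show f (a * b) * (x * f (a * b)⁻¹) = f a * ((f b * (x * f b⁻¹)) * f a⁻¹)
    simp only [mul_inv_rev, map_mul, mul_assoc]

theorem conjAct_apply (f : G →* R) (g : G) (x : R) : conjAct f g x = f g * x * f g⁻¹ :=
  (mul_assoc _ _ _).symm

theorem map_inv_mul (f : G →* R) (g : G) : f g⁻¹ * f g = 1 := by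
  rw [← map_mul, inv_mul_cancel, map_one]

theorem map_mul_inv (f : G →* R) (g : G) : f g * f g⁻¹ = 1 := by
  rw [← map_mul, mul_inv_cancel, map_one]

theorem conjAct_eq_self_iff (f : G →* R) (g : G) (x : R) :
    conjAct f g x = x ↔ f g * x = x * f g := by
  rw [conjAct_apply]
  constructor
  · intro h
    calc f g * x = f g * x * (f g⁻¹ * f g) := by rw [map_inv_mul, mul_one]
      _ = x * f g := by rw [← mul_assoc, h]
  · intro h
    rw [h, mul_assoc, map_mul_inv, mul_one]

theorem fixedBy_of_commute {f : G →* R} {D : Subgroup G} {x : R}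
    (h : ∀ d ∈ D, f d * x = x * f d) : FixedBy (conjAct f) D x :=
  fun d hd => (conjAct_eq_self_iff f d x).2 (h d hd)

theorem commute_rTr {f : G →* R} {D : Subgroup G} {x : R} (hx : FixedBy (conjAct f) D x) (g : G) :
    f g * rTr (conjAct f) D x = rTr (conjAct f) D x * f g :=
  (conjAct_eq_self_iff f g _).1 (rTr_fixed _ hx g)

/-- An element commuting with the group moves into the trace. -/
theorem rTr_mul {f : G →* R} (D : Subgroup G) (x z : R) (hz : ∀ g, f g * z = z * f g) :
    rTr (conjAct f) D (x * z) = rTr (conjAct f) D x * z := by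
  letI := Fintype.ofFinite (G ⧸ D)
  rw [rTr_eq_sum, rTr_eq_sum, Finset.sum_mul]
  refine Finset.sum_congr rfl fun c _ => ?_
  rw [conjAct_apply, conjAct_apply, mul_assoc (f c.out * x), hz, ← mul_assoc]
  simp only [mul_assoc]

theorem map_rTr {S : Type*} [Ring S] (φ : R →+* S) (f : G →* R) (D : Subgroup G) (x : R) :
    φ (rTr (conjAct f) D x) = rTr (conjAct ((φ : R →* S).comp f)) D (φ x) := by
  letI := Fintype.ofFinite (G ⧸ D)
  rw [rTr_eq_sum, rTr_eq_sum, map_sum]
  exact Finset.sum_congr rfl fun c _ => by simp [conjAct_apply]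

theorem conjAct_comp_subtype (f : G →* R) (L : Subgroup G) :
    (conjAct f).comp L.subtype = conjAct (f.comp L.subtype) :=
  MonoidHom.ext fun _ => AddMonoidHom.ext fun _ => rfl

end Conj

end Cfsg.Agent.BlockCount.RelTrace
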