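import Cfsg.Agent.BlockCount.CyclicForm
import Cfsg.Agent.BlockCount.CharAlgebra
import Cfsg.Agent.BlockCount.RelTrace
import Cfsg.Agent.Brauer.ProjLattice

/-!
A block with cyclic defect group: the corner of a primitive idempotent of the nilpotent block at
the subgroup of order `p` is the group algebra of the defect group over the local ring.
-/

set_option autoImplicit false
set_option linter.style.haveILetI false
set_option linter.unusedSectionVars false

namespace Cfsg.Agent.BlockCount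

open MonoidAlgebra Cfsg
open Cfsg.Agent.BrauerPairs Cfsg.Agent.BrauerPairs.Nil
open Cfsg.Agent.Block (toC toF idemF idemS charLin)
open Cfsg.Agent.Brauer.ProjVec (ev)
open scoped ComplexConjugate Classical

universe u

variable {p : ℕ} [hp : Fact p.Prime] {M : Ideal AlgInt} [M.IsPrime] [CharP (Block.ResF M) p]

namespace CycData

variable {H : Type u} [Group H] [Fintype H] (K : CycData p M H)

theorem regular_eq {η θ : IrrCharacter K.C1} (hη : η ∈ K.loc.B.1) (hθ : θ ∈ K.loc.B.1) {y : K.C1}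
    (hy : ¬ p ∣ orderOf y) : (η : K.C1 → ℂ) y = (θ : K.C1 → ℂ) y := by
  obtain ⟨χ, hχ, h0⟩ := BlockVal.exists_height_zero (p := p) (Block.pBlock_nonempty K.loc.B.2)
  obtain ⟨Φ, hΦ⟩ := K.loc.exists_equiv hχ h0
  have e : ∀ ψ : K.loc.B.1, ((ψ : IrrCharacter K.C1) : K.C1 → ℂ) y = (χ : K.C1 → ℂ) y := by
    intro ψ
    rw [hΦ ψ y hy, ← (BlockVal.irr_one_eq_charDegree (Φ ψ)).1,
      CharInd.irr_one_of_comm K.comm_P (Φ ψ).2, one_mul]
  rw [e ⟨η, hη⟩, e ⟨θ, hθ⟩]

theorem vanish_sum {g : K.C1} (hg : p ∣ orderOf g) :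
    ∑ η ∈ Finset.univ.filter (· ∈ K.loc.B.1), (η : K.C1 → ℂ) g = 0 := by
  have h := Brauer.weakOrth_of_integral K.isPModular K.loc.B.1
    (Block.blockCoeff_memLocalRing K.loc.B.2) (x := 1) (by simpa using hp.out.one_lt.ne') hg
  rw [finsum_mem_eq_toFinset_sum,
    show K.loc.B.1.toFinset = Finset.univ.filter (· ∈ K.loc.B.1) by ext; simp] at h
  rw [Finset.sum_congr rfl fun η hη => by
    rw [K.degree_eq (Finset.mem_filter.1 hη).2 K.θ₀_mem], ← Finset.mul_sum, ← map_sum,
    mul_eq_zero] at h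
  exact (starRingEnd ℂ).injective (by
    rw [h.resolve_left (Char.irr_one_ne_zero K.θ₀.2), map_zero])

/-- A primitive idempotent of the local block. -/
theorem exists_eps : ∃ ε : MonoidAlgebra (Block.localRing M) K.C1, ε * ε = ε ∧
    Brauer.PrimIdem.IsPrim (toF M ε) ∧ idemF M K.loc.B.1 * toF M ε = toF M ε ∧
    (∀ η : IrrCharacter K.C1, ev (η : K.C1 → ℂ) ε = if η ∈ K.loc.B.1 then 1 else 0) ∧
    ∀ a : MonoidAlgebra (Block.ResF M) K.C1, Brauer.PrimIdem.IsPrim a →
      Brauer.PrimIdem.Below a (idemF M K.loc.B.1) →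
        Brauer.PrimIdem.Equivalent a (toF M ε) := by
  haveI : IsAlgClosed (Block.ResF M) := Brauer.isAlgClosed_resF K.isPModular.2.1
  have hB := K.loc.B.2
  obtain ⟨r, d, e, he, hprim, hev, hout, hind, hgen, -⟩ :=
    Brauer.ProjVec.exists_system K.isPModular hB
  -- the values do not depend on the character
  have hconst : ∀ j, ∀ η ∈ K.loc.B.1, d j η = d j K.θ₀ := by
    intro j η hη
    have h := CharAlg.ev_eq_regular K.isPModular (he j).eq (Char.irr_isClassFunction η.2)
    rw [Finset.sum_congr rfl fun y hy => by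
      rw [K.regular_eq hη K.θ₀_mem (Finset.mem_filter.1 hy).2],
      ← CharAlg.ev_eq_regular K.isPModular (he j).eq (Char.irr_isClassFunction K.θ₀.2), hev,
      hev] at h
    exact_mod_cast h
  -- one of them
  let Ψ : K.C1 → ℂ := ∑ η ∈ Finset.univ.filter (· ∈ K.loc.B.1), (η : K.C1 → ℂ)
  obtain ⟨n, hn⟩ := Brauer.ProjVec.exists_int_combination K.isPModular hB hgen (Ψ := Ψ)
    (Char.isGeneralizedCharacter_sum _ fun η _ => Char.isGeneralizedCharacter_of_irr η.2)
    (fun x hx => by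
      simp only [Ψ, Finset.sum_apply]
      exact K.vanish_sum hx)
  have h1 := hn K.θ₀ K.θ₀_mem
  rw [show classInner (K.θ₀ : K.C1 → ℂ) Ψ = 1 by
    rw [Char.classInner_sum_right, Finset.sum_eq_single K.θ₀]
    · exact Char.classInner_irr_self K.θ₀.2
    · intro η _ hne
      rw [Char.classInner_irrCharacter, if_neg (Ne.symm hne)]
    · intro h; exact absurd (Finset.mem_filter.2 ⟨Finset.mem_univ _, K.θ₀_mem⟩) h] at h1
  have h1' : (1 : ℤ) = ∑ j, n j * (d j K.θ₀ : ℤ) := by exact_mod_cast h1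
  have hval : ∀ j, ∀ η, (d j η : ℤ) = if η ∈ K.loc.B.1 then (d j K.θ₀ : ℤ) else 0 := by
    intro j η
    split_ifs with hη
    · rw [hconst j η hη]
    · rw [hout j η hη]; rfl
  have huniq : ∀ i j : Fin r, i = j := by
    intro i j
    by_contra hij
    have h2 := hind (fun l => if l = i then (d j K.θ₀ : ℤ) else if l = j then -(d i K.θ₀ : ℤ) else 0)
      fun η => by
        rw [Finset.sum_eq_add i j hij (fun l _ hl => by simp [hl.1, hl.2]) (by simp) (by simp),
          if_pos rfl, if_neg (Ne.symm hij), if_pos rfl, hval i η, hval j η]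
        split_ifs <;> ring
    have hj0 : (d j K.θ₀ : ℤ) = 0 := by simpa using congrFun h2 i
    have h3 := hind (fun l => if l = j then 1 else 0) fun η => by
      rw [Finset.sum_eq_single j (fun l _ hl => by rw [if_neg hl, zero_mul]) (by simp), if_pos rfl,
        one_mul, hval j η, hj0]
      exact ite_self _
    simpa using congrFun h3 j
  obtain ⟨j₀⟩ : Nonempty (Fin r) := by
    by_contra hne
    haveI := not_nonempty_iff.1 hne
    simp at h1'
  rw [Finset.sum_eq_single j₀ (fun j _ hj => absurd (huniq j j₀) hj) (by simp)] at h1'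
  have hd1 : d j₀ K.θ₀ = 1 := by
    have := Int.eq_one_of_mul_eq_one_left (Int.natCast_nonneg _) h1'.symm
    exact_mod_cast this
  have hev' : ∀ η : IrrCharacter K.C1,
      ev (η : K.C1 → ℂ) (e j₀) = if η ∈ K.loc.B.1 then 1 else 0 := by
    intro η
    rw [hev]
    split_ifs with hη
    · rw [hconst j₀ η hη, hd1, Nat.cast_one]
    · rw [hout j₀ η hη, Nat.cast_zero]
  refine ⟨e j₀, (he j₀).eq, (hprim j₀).1, (hprim j₀).2, hev', fun a ha hab => ?_⟩
  obtain ⟨f, hf, hfb, hfa⟩ := Brauer.ProjVec.exists_lift_below (e := idemS M K.loc.B.1)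
    (Block.idemS_mul_self hB) ha.1 (show Brauer.PrimIdem.Below a (toF M (idemS M K.loc.B.1)) from hab)
  obtain ⟨c, hc⟩ := hgen f hf hfb.1
  obtain ⟨τ, hτs, hτ1, hτ2⟩ := Brauer.PrimIdem.exists_traceFun (Block.ResF M) ha
  have h0 := Brauer.ProjVec.map_toF_eq_zero (f - c j₀ • e j₀) (fun η => by
    rw [map_sub, map_nsmul, hev, hc, Finset.sum_eq_single j₀ (fun j _ hj => absurd (huniq j j₀) hj)
      (by simp), nsmul_eq_mul, sub_self]) τ hτs
  rw [map_sub, map_sub, map_nsmul, map_nsmul, hfa, hτ1, sub_eq_zero] at h0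
  refine hτ2 _ (hprim j₀).1 1 fun hz => ?_
  rw [one_mul] at hz
  rw [hz, smul_zero] at h0
  exact one_ne_zero h0

/-- The idempotent. -/
noncomputable def eps : MonoidAlgebra (Block.localRing M) K.C1 := K.exists_eps.choose

theorem eps_mul_self : K.eps * K.eps = K.eps := K.exists_eps.choose_spec.1

theorem eps_prim : Brauer.PrimIdem.IsPrim (toF M K.eps) := K.exists_eps.choose_spec.2.1

theorem idemF_mul_eps : idemF M K.loc.B.1 * toF M K.eps = toF M K.eps :=
  K.exists_eps.choose_spec.2.2.1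

theorem eps_mul_idemF : toF M K.eps * idemF M K.loc.B.1 = toF M K.eps := by
  rw [← (Block.isCentralElt_commute (Block.idemF_isCentralElt (M := M) K.loc.B.1) _ :
    idemF M K.loc.B.1 * toF M K.eps = toF M K.eps * idemF M K.loc.B.1), K.idemF_mul_eps]

theorem ev_eps (η : IrrCharacter K.C1) :
    ev (η : K.C1 → ℂ) K.eps = if η ∈ K.loc.B.1 then 1 else 0 :=
  K.exists_eps.choose_spec.2.2.2.1 η

theorem equivalent_eps {a : MonoidAlgebra (Block.ResF M) K.C1} (ha : Brauer.PrimIdem.IsPrim a)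
    (hab : Brauer.PrimIdem.Below a (idemF M K.loc.B.1)) :
    Brauer.PrimIdem.Equivalent a (toF M K.eps) :=
  K.exists_eps.choose_spec.2.2.2.2 a ha hab

/-- The block idempotent lies in the two-sided ideal of the idempotent. -/
theorem exists_cover : ∃ (N : ℕ) (a c : Fin N → MonoidAlgebra (Block.ResF M) K.C1),
    ∑ l, a l * toF M K.eps * c l = idemF M K.loc.B.1 := by
  haveI : IsAlgClosed (Block.ResF M) := Brauer.isAlgClosed_resF K.isPModular.2.1
  refine Brauer.PrimIdem.induction_prim (Block.ResF M)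
    (P := fun z => Brauer.PrimIdem.Below z (idemF M K.loc.B.1) →
      ∃ (N : ℕ) (a c : Fin N → MonoidAlgebra (Block.ResF M) K.C1),
        ∑ l, a l * toF M K.eps * c l = z) ?_ ?_ ?_
    (Block.idemF_mul_self K.loc.B.2) ⟨Block.idemF_mul_self K.loc.B.2, Block.idemF_mul_self K.loc.B.2⟩
  · exact fun _ => ⟨0, Fin.elim0, Fin.elim0, by simp⟩
  · intro z hz hzb
    obtain ⟨x, y, hx, hy, hxy, -⟩ := K.equivalent_eps hz hzb
    exact ⟨1, fun _ => z * x, fun _ => y, by rw [Fin.sum_univ_one, hx, hxy]⟩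
  · intro z f hz hf hfz ih1 ih2 hzb
    obtain ⟨hzf, hzfb, -, -⟩ := Brauer.PrimIdem.below_sub hz hf hfz
    obtain ⟨N1, a1, c1, h1⟩ := ih1 (hfz.trans hzb)
    obtain ⟨N2, a2, c2, h2⟩ := ih2 (hzfb.trans hzb)
    refine ⟨N1 + N2, Fin.append a1 a2, Fin.append c1 c2, ?_⟩
    rw [Fin.sum_univ_add]
    simp only [Fin.append_left, Fin.append_right, h1, h2]
    abel

theorem toC_eps_mul_self : toC M K.eps * toC M K.eps = toC M K.eps := by
  rw [← map_mul, K.eps_mul_self]

theorem charLin_eps (η : IrrCharacter K.C1) :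
    charLin (η : K.C1 → ℂ) (toC M K.eps) = if η ∈ K.loc.B.1 then 1 else 0 := K.ev_eps η

/-- Elements of the corner are determined by the characters of the block. -/
theorem corner_ext {a b : MonoidAlgebra ℂ K.C1} (ha : toC M K.eps * a * toC M K.eps = a)
    (hb : toC M K.eps * b * toC M K.eps = b)
    (h : ∀ η ∈ K.loc.B.1, charLin (η : K.C1 → ℂ) a = charLin (η : K.C1 → ℂ) b) : a = b := by
  rw [← sub_eq_zero]
  refine CharAlg.eq_zero_of_charLin fun η x => ?_
  have hab : toC M K.eps * (a - b) * toC M K.eps = a - b := by rw [mul_sub, sub_mul, ha, hb]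
  by_cases hη : η ∈ K.loc.B.1
  · rw [CharAlg.charLin_mul_corner (Char.isCharacter_of_irr η.2) K.toC_eps_mul_self
      (by rw [K.charLin_eps, if_pos hη]) hab, map_sub, h η hη, sub_self, mul_zero]
  · exact CharAlg.charLin_corner_eq_zero (Char.isCharacter_of_irr η.2) K.toC_eps_mul_self
      (by rw [K.charLin_eps, if_neg hη]) hab x

theorem charLin_mul {η : IrrCharacter K.C1} (hη : η ∈ K.loc.B.1) {a b : MonoidAlgebra ℂ K.C1}
    (ha : toC M K.eps * a * toC M K.eps = a) (hb : toC M K.eps * b * toC M K.eps = b) :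
    charLin (η : K.C1 → ℂ) (a * b) =
      charLin (η : K.C1 → ℂ) a * charLin (η : K.C1 → ℂ) b := by
  rw [CharAlg.charLin_mul_corner (Char.isCharacter_of_irr η.2) K.toC_eps_mul_self
    (by rw [K.charLin_eps, if_pos hη]) hb, ha]

theorem charLin_corner_of_notMem {η : IrrCharacter K.C1} (hη : η ∉ K.loc.B.1)
    {a : MonoidAlgebra ℂ K.C1} (ha : toC M K.eps * a * toC M K.eps = a) :
    charLin (η : K.C1 → ℂ) a = 0 := by
  have h := CharAlg.charLin_corner_eq_zero (Char.isCharacter_of_irr η.2) K.toC_eps_mul_self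
    (by rw [K.charLin_eps, if_neg hη]) ha 1
  rwa [one_mul] at h

theorem factorization_card_C1 :
    (charDegree (K.θ₀ : K.C1 → ℂ)).factorization p + K.b =
      (Nat.card K.C1).factorization p := by
  have h1 : Nat.card K.loc.P = p ^ blockDefect p K.loc.B.1 :=
    Block.card_isDefectGroup K.isPModular K.loc.B.2 ((isDefectGroup_iff _ _).2 K.loc.maxPair.isDef)
  have h2 := Nat.pow_right_injective hp.out.two_le (K.card_P.symm.trans h1)
  have h3 := BlockVal.blockDefect_eq (p := p) K.θ₀_mem (K.height_zero K.θ₀_mem)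
  have h4 := BlockVal.factorization_degree_le p K.θ₀
  have := K.hb
  omega

/-- The factor of the symmetric form. -/
noncomputable def kappa : ℂ :=
  (Nat.card K.C1 : ℂ) / ((p ^ K.b : ℕ) * (K.θ₀ : K.C1 → ℂ) 1)

theorem memLocalRing_kappa :
    MemLocalRing M K.kappa ∧ MemLocalRing M K.kappa⁻¹ := by
  obtain ⟨h1, h2⟩ := BlockVal.irr_one_eq_charDegree (K.θ₀)
  have hn : p ^ K.b * charDegree (K.θ₀ : K.C1 → ℂ) ≠ 0 :=
    mul_ne_zero (pow_ne_zero _ hp.out.ne_zero) h2
  have hf : (p ^ K.b * charDegree (K.θ₀ : K.C1 → ℂ)).factorization p =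
      (Nat.card K.C1).factorization p := by
    rw [Nat.factorization_mul (pow_ne_zero _ hp.out.ne_zero) h2, Finsupp.add_apply,
      hp.out.factorization_pow, Finsupp.single_eq_same, ← K.factorization_card_C1, add_comm]
  have e : K.kappa = (Nat.card K.C1 : ℂ) / ((p ^ K.b * charDegree (K.θ₀ : K.C1 → ℂ) : ℕ) : ℂ) := by
    rw [kappa, h1]; push_cast; rfl
  refine ⟨?_, ?_⟩
  · rw [e]
    exact (Block.memLocalRing_natCast_div_iff K.isPModular Nat.card_pos.ne' hn).2 hf.le
  · rw [e, inv_div]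
    exact (Block.memLocalRing_natCast_div_iff K.isPModular hn Nat.card_pos.ne').2 hf.ge

/-- The element acting on the characters of the block through the defect group. -/
theorem exists_w (j : ZMod (p ^ K.b)) : ∃ w : MonoidAlgebra (Block.localRing M) K.C1,
    K.eps * w * K.eps = w ∧ ∀ η ∈ K.loc.B.1,
      ev (η : K.C1 → ℂ) w = ZMod.stdAddChar (j * K.expo η K.θ₀) := by
  obtain ⟨S⟩ := K.loc.nonempty_src K.θ₀_mem (K.height_zero K.θ₀_mem)
  set f : K.C1 →* MonoidAlgebra (Block.localRing M) K.C1 :=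
    MonoidAlgebra.of (Block.localRing M) K.C1 with hf
  set u := K.pt j with hu
  have hfix : RelTrace.FixedBy (RelTrace.conjAct f) K.loc.P (f (u : K.C1) * S.i) := by
    refine RelTrace.fixedBy_of_commute fun d hd => ?_
    have h1 : f d * f (u : K.C1) = f (u : K.C1) * f d := by
      rw [← map_mul, ← map_mul]
      exact congrArg f (congrArg Subtype.val (K.comm_P ⟨d, hd⟩ u))
    have h2 : f d * S.i = S.i * f d :=
      commute_single_of_fixed (S.fixed.mono (Subgroup.zpowers_le.2 hd)) 1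
    rw [← mul_assoc, h1, mul_assoc, h2, mul_assoc]
  set W := RelTrace.rTr (RelTrace.conjAct f) K.loc.P (f (u : K.C1) * S.i) with hW
  have hWc : Block.IsCentralElt W := Block.isCentralElt_of_commute fun g => by
    show Commute W (single g 1)
    exact (RelTrace.commute_rTr hfix g).symm
  haveI := Fintype.ofFinite (K.C1 ⧸ K.loc.P)
  set m := Nat.card (K.C1 ⧸ K.loc.P) with hm
  have hmq : m * p ^ K.b = Nat.card K.C1 := by
    rw [hm, ← K.card_P, ← Subgroup.card_eq_card_quotient_mul_card_subgroup]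
  have hWval : ∀ η : IrrCharacter K.C1, charLin (η : K.C1 → ℂ) (toC M W) =
      (m : ℂ) * K.loc.F S.i (η : K.C1 → ℂ) u := by
    intro η
    rw [hW, RelTrace.rTr_eq_sum, map_sum, map_sum, hm, Nat.card_eq_fintype_card,
      ← Finset.card_univ, ← nsmul_eq_mul, ← Finset.sum_const]
    refine Finset.sum_congr rfl fun c _ => ?_
    rw [RelTrace.conjAct_apply, map_mul, CharAlg.charLin_mul_comm (Char.isCharacter_of_irr η.2),
      ← map_mul, ← mul_assoc, ← map_mul f, inv_mul_cancel, map_one, one_mul, map_mul,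
      NilData.F]
    congr 2
    simp [hf]
  set F₀ := K.loc.F S.i (K.θ₀ : K.C1 → ℂ) u with hF₀
  have hFm : MemLocalRing M F₀ := Block.memLocalRing_of_isIntegral
    (Char.isCharacter_isIntegral (K.loc.isCharacter_F S.idem S.fixed K.θ₀) u)
  have hFu : ¬ MemLocalIdeal M F₀ := K.loc.F_unit S u
  obtain ⟨hθ, hθ0⟩ := BlockVal.irr_one_eq_charDegree K.θ₀
  have hm0 : m ≠ 0 := fun h => Nat.card_pos.ne' (hmq.symm.trans (by rw [h, zero_mul]))
  have hs : MemLocalRing M ((K.θ₀ : K.C1 → ℂ) 1 / (m : ℂ) * F₀⁻¹) := by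
    refine (Block.localRing M).mul_mem ?_ (Block.memLocalRing_inv hFm hFu)
    rw [hθ]
    refine (Block.memLocalRing_natCast_div_iff K.isPModular hθ0 hm0).2 (le_of_eq ?_)
    have h := congrArg (fun n => n.factorization p) hmq
    simp only [Nat.factorization_mul hm0 (pow_ne_zero _ hp.out.ne_zero), Finsupp.add_apply,
      hp.out.factorization_pow, Finsupp.single_eq_same] at h
    have := K.factorization_card_C1
    omega
  refine ⟨(⟨_, hs⟩ : Block.localRing M) • (K.eps * W * K.eps), ?_, fun η hη => ?_⟩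
  · rw [mul_smul_comm, smul_mul_assoc]
    congr 1
    simp only [mul_assoc]
    rw [K.eps_mul_self, ← mul_assoc K.eps K.eps, K.eps_mul_self]
  · rw [Brauer.ProjVec.ev_apply, Block.mapR_smul, map_smul, smul_eq_mul, map_mul (toC M),
      map_mul (toC M),
      mul_assoc, CharAlg.charLin_mul_comm (Char.isCharacter_of_irr η.2), mul_assoc,
      K.toC_eps_mul_self, Block.charLin_central_mul η.2 (hWc.mapR _), K.charLin_eps, if_pos hη,
      mul_one, Block.omega_apply, hWval η, K.degree_eq hη K.θ₀_mem,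
      K.loc.F_eq_of_prop S.idem S.fixed S.trunc_eq (Char.irr_isClassFunction η.2)
        (Char.irr_isClassFunction K.θ₀.2) (K.prop_lam hη K.θ₀_mem j),
      ← hF₀, K.lam_eq hη K.θ₀_mem]
    show (K.θ₀ : K.C1 → ℂ) 1 / (m : ℂ) * F₀⁻¹ * _ = _
    have : F₀ ≠ 0 := fun h => hFu (h ▸ Block.memLocalIdeal_zero)
    have := Char.irr_one_ne_zero K.θ₀.2
    have : (m : ℂ) ≠ 0 := Nat.cast_ne_zero.2 hm0
    field_simp

/-- The image of the defect group in the corner. -/
noncomputable def wel (j : ZMod (p ^ K.b)) : MonoidAlgebra (Block.localRing M) K.C1 :=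
  (K.exists_w j).choose

theorem eps_wel_eps (j : ZMod (p ^ K.b)) : K.eps * K.wel j * K.eps = K.wel j :=
  (K.exists_w j).choose_spec.1

theorem toC_wel (j : ZMod (p ^ K.b)) :
    toC M K.eps * toC M (K.wel j) * toC M K.eps = toC M (K.wel j) := by
  rw [← map_mul, ← map_mul, K.eps_wel_eps]

theorem charLin_wel (j : ZMod (p ^ K.b)) {η : IrrCharacter K.C1} (hη : η ∈ K.loc.B.1) :
    charLin (η : K.C1 → ℂ) (toC M (K.wel j)) = ZMod.stdAddChar (j * K.expo η K.θ₀) :=
  (K.exists_w j).choose_spec.2 η hη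

theorem eps_mul_wel (j : ZMod (p ^ K.b)) : K.eps * K.wel j = K.wel j := by
  rw [← K.eps_wel_eps j, ← mul_assoc, ← mul_assoc, K.eps_mul_self]

theorem wel_mul_eps (j : ZMod (p ^ K.b)) : K.wel j * K.eps = K.wel j := by
  rw [← K.eps_wel_eps j, mul_assoc _ K.eps K.eps, K.eps_mul_self]

theorem wel_mul (i j : ZMod (p ^ K.b)) : K.wel i * K.wel j = K.wel (i + j) := by
  apply Block.toC_injective M
  rw [map_mul]
  refine K.corner_ext ?_ (K.toC_wel _) fun η hη => ?_
  · rw [← map_mul, ← map_mul, ← map_mul, ← mul_assoc, K.eps_mul_wel, mul_assoc, K.wel_mul_eps]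
  · rw [K.charLin_mul hη (K.toC_wel i) (K.toC_wel j), K.charLin_wel i hη, K.charLin_wel j hη,
      K.charLin_wel _ hη, ← AddChar.map_add_eq_mul, add_mul]

theorem wel_zero : K.wel 0 = K.eps := by
  apply Block.toC_injective M
  refine K.corner_ext (K.toC_wel _) (by rw [K.toC_eps_mul_self, K.toC_eps_mul_self]) fun η hη => ?_
  rw [K.charLin_wel 0 hη, K.charLin_eps, if_pos hη, zero_mul, AddChar.map_zero_eq_one]

theorem sum_expo (f : ZMod (p ^ K.b) → ℂ) :
    ∑ η ∈ Finset.univ.filter (· ∈ K.loc.B.1), f (K.expo η K.θ₀) = ∑ i, f i := by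
  refine Finset.sum_bij (fun η _ => K.expo η K.θ₀) (fun _ _ => Finset.mem_univ _)
    (fun a ha b hb h => K.expo_injective (Finset.mem_filter.1 ha).2 (Finset.mem_filter.1 hb).2
      K.θ₀_mem h) (fun i _ => ?_) (fun _ _ => rfl)
  obtain ⟨η, hη, he⟩ := K.exists_expo_eq K.θ₀_mem i
  exact ⟨η, Finset.mem_filter.2 ⟨Finset.mem_univ _, hη⟩, he⟩

theorem expo_θ₀ : K.expo K.θ₀ K.θ₀ = 0 := by
  have h := K.expo_trans K.θ₀_mem K.θ₀_mem K.θ₀_mem (η := K.θ₀)
  simpa using h

/-- The corner is spanned by the image of the defect group. -/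
theorem exists_expand (a : MonoidAlgebra (Block.localRing M) K.C1) :
    ∃ c : ZMod (p ^ K.b) → Block.localRing M, K.eps * a * K.eps = ∑ i, c i • K.wel i ∧
      ((∑ i, c i : Block.localRing M) : ℂ) =
        charLin (K.θ₀ : K.C1 → ℂ) (toC M (K.eps * a * K.eps)) := by
  set a' := toC M (K.eps * a * K.eps) with ha'
  have hcor : toC M K.eps * a' * toC M K.eps = a' := by
    rw [ha', ← map_mul, ← map_mul]
    congr 1
    simp only [mul_assoc]
    rw [K.eps_mul_self, ← mul_assoc K.eps K.eps, K.eps_mul_self]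
  set q : ℂ := ((p ^ K.b : ℕ) : ℂ) with hq
  have hq0 : q ≠ 0 := Nat.cast_ne_zero.2 (pow_ne_zero _ hp.out.ne_zero)
  let cC : ZMod (p ^ K.b) → ℂ := fun i => q⁻¹ * ∑ η ∈ Finset.univ.filter (· ∈ K.loc.B.1),
    charLin (η : K.C1 → ℂ) a' * ZMod.stdAddChar (-i * K.expo η K.θ₀)
  have hc : ∀ i, MemLocalRing M (cC i) := by
    intro i
    have h1 : (Nat.card K.C1 : ℂ) * (a' * toC M (K.wel (-i))).coeff 1 =
        (K.θ₀ : K.C1 → ℂ) 1 * (q * cC i) := by
      rw [CharAlg.card_mul_coeff_one, ← mul_assoc q, mul_inv_cancel₀ hq0, one_mul, Finset.mul_sum,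
        Finset.sum_filter]
      refine Finset.sum_congr rfl fun η _ => ?_
      split_ifs with hη
      · rw [K.charLin_mul hη hcor (K.toC_wel _), K.charLin_wel _ hη, K.degree_eq hη K.θ₀_mem]
      · rw [K.charLin_corner_of_notMem hη ?_, mul_zero]
        rw [← mul_assoc (toC M K.eps), show toC M K.eps * a' = a' by
          conv_lhs => rw [← hcor]
          rw [← mul_assoc, ← mul_assoc, K.toC_eps_mul_self, hcor], mul_assoc,
          show toC M (K.wel (-i)) * toC M K.eps = toC M (K.wel (-i)) by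
            rw [← map_mul, K.wel_mul_eps]]
    have h2 : cC i = K.kappa * (a' * toC M (K.wel (-i))).coeff 1 := by
      have := Char.irr_one_ne_zero K.θ₀.2
      rw [kappa, ← hq, div_mul_eq_mul_div, eq_div_iff (mul_ne_zero hq0 this)]
      linear_combination -h1
    rw [h2, ha', ← map_mul, Block.coeff_mapR]
    exact (Block.localRing M).mul_mem K.memLocalRing_kappa.1 (Subtype.prop _)
  refine ⟨fun i => ⟨cC i, hc i⟩, ?_, ?_⟩
  · apply Block.toC_injective M
    refine K.corner_ext hcor ?_ fun η hη => ?_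
    · rw [map_sum, Finset.mul_sum, Finset.sum_mul]
      refine Finset.sum_congr rfl fun i _ => ?_
      rw [Block.mapR_smul, mul_smul_comm, smul_mul_assoc, K.toC_wel]
    · rw [map_sum, map_sum]
      simp only [Block.mapR_smul, map_smul, smul_eq_mul, K.charLin_wel _ hη]
      show _ = ∑ i, cC i * ZMod.stdAddChar (i * K.expo η K.θ₀)
      simp only [cC, Finset.mul_sum, Finset.sum_mul, mul_assoc, ← AddChar.map_add_eq_mul]
      rw [Finset.sum_comm]
      have e : ∀ ξ : IrrCharacter K.C1, ∀ i : ZMod (p ^ K.b),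
          -i * K.expo ξ K.θ₀ + i * K.expo η K.θ₀ = i * (K.expo η K.θ₀ - K.expo ξ K.θ₀) :=
        fun _ _ => by ring
      simp only [e, ← Finset.mul_sum, CyclicColumns.sum_stdAddChar, sub_eq_zero]
      rw [Finset.mul_sum, Finset.sum_eq_single η]
      · rw [if_pos rfl, ← hq, mul_left_comm, inv_mul_cancel₀ hq0, mul_one, ha', mul_assoc K.eps]
      · intro ξ hξ hne
        rw [if_neg fun h => hne (K.expo_injective (Finset.mem_filter.1 hξ).2 hη K.θ₀_mem h.symm),
          mul_zero, mul_zero]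
      · intro h
        exact absurd (Finset.mem_filter.2 ⟨Finset.mem_univ _, hη⟩) h
  · rw [AddSubmonoidClass.coe_finsetSum]
    show ∑ i, cC i = _
    simp only [cC, Finset.mul_sum]
    rw [Finset.sum_comm]
    have e : ∀ (ξ : IrrCharacter K.C1) (i : ZMod (p ^ K.b)),
        -i * K.expo ξ K.θ₀ = i * (-K.expo ξ K.θ₀) := fun _ _ => by ring
    simp only [e, ← Finset.mul_sum, CyclicColumns.sum_stdAddChar, neg_eq_zero]
    rw [Finset.mul_sum, Finset.sum_eq_single K.θ₀]
    · rw [K.expo_θ₀, if_pos rfl, ← hq, mul_left_comm, inv_mul_cancel₀ hq0, mul_one]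
    · intro ξ hξ hne
      rw [if_neg fun h => hne (K.expo_injective (Finset.mem_filter.1 hξ).2 K.θ₀_mem K.θ₀_mem
        (by rw [h, K.expo_θ₀])), mul_zero, mul_zero]
    · intro h
      exact absurd (Finset.mem_filter.2 ⟨Finset.mem_univ _, K.θ₀_mem⟩) h

/-- The element of the character fixed. -/
noncomputable def theta : MonoidAlgebra (Block.localRing M) K.C1 :=
  Block.ofFn fun g => ⟨(K.θ₀ : K.C1 → ℂ) g⁻¹, Block.char_memLocalRing K.θ₀.2 _⟩

theorem theta_central : Block.IsCentralElt K.theta := fun g h => by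
  rw [theta, Block.coeff_ofFn, Block.coeff_ofFn]
  refine Subtype.ext ?_
  show (K.θ₀ : K.C1 → ℂ) (h * g * h⁻¹)⁻¹ = (K.θ₀ : K.C1 → ℂ) g⁻¹
  rw [show (h * g * h⁻¹)⁻¹ = h * g⁻¹ * h⁻¹ by group, Char.irr_isClassFunction K.θ₀.2 g⁻¹ h]

theorem eps_mul_theta :
    K.eps * K.theta = (⟨K.kappa, K.memLocalRing_kappa.1⟩ : Block.localRing M) •
      ∑ j, K.wel j := by
  apply Block.toC_injective M
  rw [Block.mapR_smul, map_sum]
  refine K.corner_ext ?_ ?_ fun η hη => ?_
  · rw [← map_mul, ← map_mul]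
    congr 1
    rw [← mul_assoc, K.eps_mul_self, mul_assoc,
      Block.isCentralElt_commute K.theta_central K.eps, ← mul_assoc, K.eps_mul_self]
  · rw [mul_smul_comm, smul_mul_assoc, Finset.mul_sum, Finset.sum_mul]
    simp only [K.toC_wel]
  · rw [map_smul, map_sum, map_mul, CharAlg.charLin_mul_comm (Char.isCharacter_of_irr η.2),
      Block.charLin_central_mul η.2 (K.theta_central.mapR _), K.charLin_eps, if_pos hη, mul_one,
      smul_eq_mul, Finset.sum_congr rfl fun j _ => K.charLin_wel j hη,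
      CyclicColumns.sum_stdAddChar, Block.omega_apply]
    have h1 : charLin (η : K.C1 → ℂ) (toC M K.theta) =
        (Nat.card K.C1 : ℂ) * classInner (η : K.C1 → ℂ) (K.θ₀ : K.C1 → ℂ) := by
      rw [← Char.sum_mul_conj_eq_card_mul_classInner, Block.charLin_eq_sum]
      refine Finset.sum_congr rfl fun g _ => ?_
      rw [Block.coeff_mapR, theta, Block.coeff_ofFn, ← Char.irr_inv K.θ₀.2]
      exact mul_comm _ _
    rw [h1, Char.classInner_irrCharacter]
    by_cases h : η = K.θ₀
    · subst h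
      rw [if_pos rfl, mul_one, if_pos K.expo_θ₀]
      have := Char.irr_one_ne_zero K.θ₀.2
      have hq : ((p ^ K.b : ℕ) : ℂ) ≠ 0 := Nat.cast_ne_zero.2 (pow_ne_zero _ hp.out.ne_zero)
      show _ = K.kappa * _
      unfold CycData.kappa
      field_simp
    · rw [if_neg h, if_neg fun he => h (K.expo_injective hη K.θ₀_mem K.θ₀_mem
        (by rw [he, K.expo_θ₀])), mul_zero, mul_zero, zero_div]

end CycData

end Cfsg.Agent.BlockCount
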