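import Mathlib.LinearAlgebra.Dimension.Finrank
import Mathlib.LinearAlgebra.FiniteDimensional.Lemmas
import Mathlib.LinearAlgebra.Dual.Lemmas
import Mathlib.FieldTheory.IsAlgClosed.Basic
import Mathlib.RingTheory.RootsOfUnity.AlgebraicallyClosed
import Mathlib.RingTheory.Polynomial.Basic
import Mathlib.Algebra.Polynomial.AlgebraMap
import Mathlib.FieldTheory.IsSepClosed
import Mathlib.Tactic.Module
import Mathlib.Tactic.NoncommRing

/-!
A nilpotent operator normalized by an operator of finite order prime to the characteristic: if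
among any two complementary equivariant projections one has its socle in the image of the norm,
the socle is at most one larger than that image.
-/

set_option autoImplicit false
set_option linter.style.haveILetI false
set_option linter.unusedSectionVars false

namespace Cfsg.Agent.BlockCount.Strings

open Polynomial
open scoped Classical

variable {k : Type*} [Field k] {V : Type*} [AddCommGroup V] [Module k V]

/-- The socle of the image lies in the image of `N`. -/
def Good (Y N π : Module.End k V) : Prop := ∀ v, Y v = 0 → π v = v → v ∈ LinearMap.range N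

theorem pow_apply_eq_zero {Y : Module.End k V} {h i : ℕ} {v : V} (hv : (Y ^ h) v = 0)
    (hi : h ≤ i) : (Y ^ i) v = 0 := by
  obtain ⟨j, rfl⟩ := Nat.exists_eq_add_of_le hi
  rw [add_comm, pow_add, Module.End.mul_apply, hv, map_zero]

theorem mul_aeval_eq {τ Y : Module.End k V} {P : k[X]} (h : τ * Y = aeval Y P * τ) (Q : k[X]) :
    τ * aeval Y Q = aeval Y (Q.comp P) * τ := by
  induction Q using Polynomial.induction_on' with
  | add a b ha hb => rw [map_add, mul_add, ha, hb, add_comp, map_add, add_mul]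
  | monomial i c =>
    have hpow : ∀ i : ℕ, τ * Y ^ i = aeval Y P ^ i * τ := by
      intro i
      induction i with
      | zero => rw [pow_zero, pow_zero, mul_one, one_mul]
      | succ i ih => rw [pow_succ, ← mul_assoc, ih, mul_assoc, h, ← mul_assoc, ← pow_succ]
    rw [aeval_monomial, monomial_comp, map_mul, aeval_C, map_pow, ← mul_assoc,
      ← Algebra.commutes, mul_assoc, hpow, mul_assoc]

theorem exists_pow_mul_eq {τ Y : Module.End k V} {P : k[X]} (h : τ * Y = aeval Y P * τ) :
    ∀ m : ℕ, ∀ Q : k[X], ∃ R : k[X], τ ^ m * aeval Y Q = aeval Y R * τ ^ m := by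
  intro m
  induction m with
  | zero => exact fun Q => ⟨Q, by rw [pow_zero, one_mul, mul_one]⟩
  | succ m ih =>
    intro Q
    obtain ⟨R, hR⟩ := ih (Q.comp P)
    exact ⟨R, by rw [pow_succ, mul_assoc, mul_aeval_eq h, ← mul_assoc, hR, mul_assoc, ← pow_succ]⟩

theorem mul_pow_eq {E τ : Module.End k V} (h : τ * E = τ) {m : ℕ} (hm : m ≠ 0) :
    τ ^ m * E = τ ^ m := by
  obtain ⟨m, rfl⟩ := Nat.exists_eq_succ_of_ne_zero hm
  rw [pow_succ, mul_assoc, h]

variable [IsAlgClosed k] [FiniteDimensional k V]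

/-- An eigenvector with non-zero image under the given operator. -/
theorem exists_eigen {τ L ρ : Module.End k V} {e : ℕ} (he : (e : k) ≠ 0) (hcomm : Commute ρ τ)
    (hτe : τ ^ e * ρ = ρ) {w : V} (hρw : ρ w = w) (hL : L w ≠ 0) :
    ∃ (v : V) (c : k), c ≠ 0 ∧ ρ v = v ∧ τ v = c • v ∧ L v ≠ 0 := by
  haveI : NeZero (e : k) := ⟨he⟩
  haveI : NeZero e := NeZero.of_neZero_natCast k
  obtain ⟨ζ, hζ⟩ := HasEnoughRootsOfUnity.exists_primitiveRoot k e
  have he0 : 0 < e := Nat.pos_of_ne_zero (NeZero.ne e)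
  have hζ0 : ζ ≠ 0 := hζ.ne_zero he0.ne'
  let v : ℕ → V := fun l => ∑ m ∈ Finset.range e, (ζ⁻¹) ^ (l * m) • (τ ^ m) w
  have hwe : (τ ^ e) w = w := by
    conv_lhs => rw [← hρw, ← Module.End.mul_apply, hτe, hρw]
  have hv : ∀ l, τ (v l) = ζ ^ l • v l := by
    intro l
    have hshift : ∑ m ∈ Finset.range e, (ζ⁻¹) ^ (l * (m + 1)) • (τ ^ (m + 1)) w = v l := by
      have h1 := Finset.sum_range_succ' (fun m => (ζ⁻¹) ^ (l * m) • (τ ^ m) w) e
      have h2 := Finset.sum_range_succ (fun m => (ζ⁻¹) ^ (l * m) • (τ ^ m) w) e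
      rw [h2] at h1
      have h3 : (ζ⁻¹) ^ (l * e) • (τ ^ e) w = (ζ⁻¹) ^ (l * 0) • (τ ^ 0) w := by
        rw [hwe, mul_zero, pow_zero, pow_zero, Module.End.one_apply, mul_comm, pow_mul, inv_pow,
          hζ.pow_eq_one, inv_one, one_pow]
      rw [h3] at h1
      exact (add_right_cancel h1).symm
    conv_rhs => rw [← hshift, Finset.smul_sum]
    simp only [v, map_sum, map_smul]
    refine Finset.sum_congr rfl fun m _ => ?_
    rw [smul_smul, pow_succ' τ, Module.End.mul_apply, mul_add, mul_one, pow_add, inv_pow ζ l,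
      mul_comm ((ζ⁻¹) ^ (l * m)), ← mul_assoc, mul_inv_cancel₀ (pow_ne_zero _ hζ0), one_mul]
  have hρv : ∀ l, ρ (v l) = v l := by
    intro l
    simp only [v, map_sum, map_smul]
    refine Finset.sum_congr rfl fun m _ => ?_
    rw [← Module.End.mul_apply, (hcomm.pow_right m).eq, Module.End.mul_apply, hρw]
  have hsum : ∑ l ∈ Finset.range e, v l = (e : k) • w := by
    simp only [v]
    rw [Finset.sum_comm]
    simp only [← Finset.sum_smul]
    rw [Finset.sum_eq_single 0]
    · simp
    · intro m hm hm0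
      have hm' := Finset.mem_range.1 hm
      have hne : (ζ⁻¹) ^ m ≠ 1 := by
        rw [inv_pow, ne_eq, inv_eq_one]
        exact hζ.pow_ne_one_of_pos_of_lt hm0 hm'
      have h1 : ((ζ⁻¹) ^ m) ^ e = 1 := by
        rw [← pow_mul, mul_comm, pow_mul, inv_pow, hζ.pow_eq_one, inv_one, one_pow]
      have hz : ∑ l ∈ Finset.range e, (ζ⁻¹) ^ (l * m) = 0 := by
        have h2 := geom_sum_mul ((ζ⁻¹) ^ m) e
        rw [h1, sub_self, mul_eq_zero] at h2
        rw [← h2.resolve_right (sub_ne_zero.2 hne)]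
        exact Finset.sum_congr rfl fun l _ => by rw [← pow_mul, mul_comm]
      rw [hz, zero_smul]
    · intro h
      exact absurd (Finset.mem_range.2 he0) h
  obtain ⟨l, -, hl⟩ : ∃ l ∈ Finset.range e, L (v l) ≠ 0 := by
    by_contra h
    push Not at h
    apply hL
    have h1 : L ((e : k) • w) = 0 := by
      rw [← hsum, map_sum]
      exact Finset.sum_eq_zero h
    rw [map_smul, smul_eq_zero] at h1
    exact h1.resolve_left he
  exact ⟨v l, ζ ^ l, pow_ne_zero _ hζ0, hρv l, hv l, hl⟩

/-- An equivariant projection onto the string through a vector. -/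
theorem exists_string {E Y τ ρ : Module.End k V} {h e : ℕ} {P : k[X]} (he : (e : k) ≠ 0)
    (hEρ : E * ρ = ρ) (hρE : ρ * E = ρ) (hEY : E * Y = Y) (hEτ : E * τ = τ)
    (hτe : τ ^ e = E) (hτY : τ * Y = aeval Y P * τ)
    (hρρ : ρ * ρ = ρ) (hρY : Commute ρ Y) (hρτ : Commute ρ τ) (hh : Y ^ (h + 1) * ρ = 0)
    {v : V} {c : k} (hρv : ρ v = v) (hτv : τ v = c • v) (hv : (Y ^ h) v ≠ 0) :
    ∃ π : Module.End k V, π * π = π ∧ ρ * π = π ∧ π * ρ = π ∧ Commute π Y ∧ Commute π τ ∧
      π ((Y ^ h) v) = (Y ^ h) v ∧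
      ∀ w, π w ∈ Submodule.span k (Set.range fun i : Fin (h + 1) => (Y ^ (i : ℕ)) v) := by
  have hvh : (Y ^ (h + 1)) v = 0 := by
    rw [← hρv, ← Module.End.mul_apply, hh, LinearMap.zero_apply]
  set s : Fin (h + 1) → V := fun i => (Y ^ (i : ℕ)) v with hs
  have hli : LinearIndependent k s := by
    rw [Fintype.linearIndependent_iff]
    intro g hg
    by_contra hne
    push Not at hne
    have hne' : (Finset.univ.filter fun i : Fin (h + 1) => g i ≠ 0).Nonempty := by
      obtain ⟨i, hi⟩ := hne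
      exact ⟨i, Finset.mem_filter.2 ⟨Finset.mem_univ _, hi⟩⟩
    set i₀ := (Finset.univ.filter fun i : Fin (h + 1) => g i ≠ 0).min' hne'
    have hgi₀ : g i₀ ≠ 0 := (Finset.mem_filter.1 (Finset.min'_mem _ hne')).2
    have h1 := congrArg (Y ^ (h - i₀)) hg
    have hlt := i₀.isLt
    rw [map_sum, map_zero, Finset.sum_eq_single i₀] at h1
    · simp only [s, map_smul] at h1
      rw [← Module.End.mul_apply, ← pow_add, Nat.sub_add_cancel (by omega)] at h1
      exact hgi₀ ((smul_eq_zero.1 h1).resolve_right hv)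
    · intro i _ hi
      simp only [s, map_smul]
      rcases lt_or_gt_of_ne hi with hl | hg'
      · have : g i = 0 := by
          by_contra h0
          exact absurd (Finset.min'_le (Finset.univ.filter fun i : Fin (h + 1) => g i ≠ 0) i
            (Finset.mem_filter.2 ⟨Finset.mem_univ _, h0⟩)) (not_le.2 hl)
        rw [this, zero_smul]
      · have hgt : (i₀ : ℕ) < i := hg'
        rw [← Module.End.mul_apply, ← pow_add, pow_apply_eq_zero hvh (by omega), smul_zero]
    · simp
  -- the functional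
  obtain ⟨ξ, hξ⟩ : ∃ ξ : V →ₗ[k] k, ∀ i : Fin (h + 1), ξ (s i) = if (i : ℕ) = h then 1 else 0 := by
    let T : (Fin (h + 1) → k) →ₗ[k] V := Fintype.linearCombination k s
    have hT : LinearMap.ker T = ⊥ := LinearMap.ker_eq_bot'.2 fun g hg => funext fun i =>
      Fintype.linearIndependent_iff.1 hli g (by simpa [T, Fintype.linearCombination_apply] using hg) i
    obtain ⟨S, hS⟩ := T.exists_leftInverse_of_injective hT
    refine ⟨(LinearMap.proj (Fin.last h)).comp S, fun i => ?_⟩
    have h1 : T (Pi.single i 1) = s i := by simp [T, Fintype.linearCombination_apply_single]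
    have h2 := LinearMap.congr_fun hS (Pi.single i 1)
    rw [LinearMap.comp_apply, h1, LinearMap.id_apply] at h2
    rw [LinearMap.comp_apply, h2, LinearMap.proj_apply, Pi.single_apply]
    simp [Fin.ext_iff, eq_comm]
  let π₁ : Module.End k V :=
    ∑ i : Fin (h + 1), LinearMap.smulRight ((ξ.comp (Y ^ (h - (i : ℕ)))).comp ρ) (s i)
  have hπ₁apply : ∀ w, π₁ w = ∑ i : Fin (h + 1), ξ ((Y ^ (h - (i : ℕ))) (ρ w)) • s i := by
    intro w
    simp only [π₁, LinearMap.coe_sum, Finset.sum_apply, LinearMap.smulRight_apply,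
      LinearMap.comp_apply]
  have hρs : ∀ i, ρ (s i) = s i := fun i => by
    simp only [s]
    rw [← Module.End.mul_apply, (hρY.pow_right _).eq, Module.End.mul_apply, hρv]
  set W := Submodule.span k (Set.range s) with hW
  have hπ₁mem : ∀ w, π₁ w ∈ W := fun w => by
    rw [hπ₁apply]
    exact W.sum_mem fun i _ => W.smul_mem _ (Submodule.subset_span ⟨i, rfl⟩)
  have hπ₁s : ∀ l, π₁ (s l) = s l := by
    intro l
    rw [hπ₁apply, Finset.sum_eq_single l]
    · rw [hρs]
      simp only [s]
      rw [← Module.End.mul_apply, ← pow_add, Nat.sub_add_cancel (by omega)]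
      have := hξ (Fin.last h)
      simp only [s, Fin.val_last, if_pos] at this
      rw [this, one_smul]
    · intro i _ hi
      rw [hρs]
      simp only [s]
      rw [← Module.End.mul_apply, ← pow_add]
      rcases Nat.lt_or_ge (h - (i : ℕ) + l) (h + 1) with hlt | hge
      · have := hξ ⟨h - (i : ℕ) + l, hlt⟩
        simp only [s] at this
        rw [this, if_neg, zero_smul]
        intro hh'
        exact hi (Fin.ext (by omega))
      · rw [pow_apply_eq_zero hvh hge, map_zero, zero_smul]
    · simp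
  have hπ₁ρ : π₁ * ρ = π₁ := LinearMap.ext fun w => by
    rw [Module.End.mul_apply, hπ₁apply, hπ₁apply, ← Module.End.mul_apply ρ ρ, hρρ]
  have hπ₁Y : Commute π₁ Y := LinearMap.ext fun w => by
    rw [Module.End.mul_apply, Module.End.mul_apply, hπ₁apply, hπ₁apply, map_sum]
    have hρY' : ∀ n : ℕ, (Y ^ n) (ρ (Y w)) = (Y ^ (n + 1)) (ρ w) := by
      intro n
      rw [pow_succ, Module.End.mul_apply (Y ^ n) Y, ← Module.End.mul_apply ρ Y, hρY.eq,
        Module.End.mul_apply]
    simp only [hρY', map_smul]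
    rw [Fin.sum_univ_succ, Fin.sum_univ_castSucc (f := fun i => ξ ((Y ^ (h - (i : ℕ))) (ρ w)) • Y (s i))]
    have hz : (Y ^ (h + 1)) (ρ w) = 0 := by rw [← Module.End.mul_apply, hh, LinearMap.zero_apply]
    have hlast : Y (s (Fin.last h)) = 0 := by
      simp only [s, Fin.val_last]
      rw [← Module.End.mul_apply, ← pow_succ']
      exact hvh
    simp only [Fin.val_zero, Nat.sub_zero, hz, map_zero, zero_smul, zero_add, hlast, smul_zero,
      add_zero]
    refine Finset.sum_congr rfl fun i _ => ?_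
    simp only [s, Fin.val_succ, Fin.val_castSucc]
    rw [← Module.End.mul_apply Y, ← pow_succ', show h - ((i : ℕ) + 1) + 1 = h - (i : ℕ) by
      have := i.isLt; omega]
  have hWτ : ∀ w ∈ W, τ w ∈ W := by
    intro w hw
    induction hw using Submodule.span_induction with
    | mem x hx =>
      obtain ⟨i, rfl⟩ := hx
      simp only [s]
      rw [← aeval_X_pow (R := k) Y, ← Module.End.mul_apply, mul_aeval_eq hτY, Module.End.mul_apply,
        hτv, map_smul]
      refine W.smul_mem _ ?_
      rw [aeval_eq_sum_range, LinearMap.coe_sum, Finset.sum_apply]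
      refine W.sum_mem fun j _ => ?_
      rw [LinearMap.smul_apply]
      refine W.smul_mem _ ?_
      by_cases hj : j < h + 1
      · exact Submodule.subset_span ⟨⟨j, hj⟩, rfl⟩
      · rw [pow_apply_eq_zero hvh (not_lt.1 hj)]
        exact W.zero_mem
    | zero => rw [map_zero]; exact W.zero_mem
    | add x y _ _ hx hy => rw [map_add]; exact W.add_mem hx hy
    | smul a x _ hx => rw [map_smul]; exact W.smul_mem _ hx
  have hWτm : ∀ (m : ℕ), ∀ w ∈ W, (τ ^ m) w ∈ W := by
    intro m
    induction m with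
    | zero => intro w hw; simpa using hw
    | succ m ih => intro w hw; rw [pow_succ', Module.End.mul_apply]; exact hWτ _ (ih w hw)
  have hWρ : ∀ w ∈ W, ρ w = w := by
    intro w hw
    induction hw using Submodule.span_induction with
    | mem x hx => obtain ⟨i, rfl⟩ := hx; exact hρs i
    | zero => rw [map_zero]
    | add x y _ _ hx hy => rw [map_add, hx, hy]
    | smul a x _ hx => rw [map_smul, hx]
  have hWπ₁ : ∀ w ∈ W, π₁ w = w := by
    intro w hw
    induction hw using Submodule.span_induction with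
    | mem x hx => obtain ⟨i, rfl⟩ := hx; exact hπ₁s i
    | zero => rw [map_zero]
    | add x y _ _ hx hy => rw [map_add, hx, hy]
    | smul a x _ hx => rw [map_smul, hx]
  -- the average
  have he0 : e ≠ 0 := fun h0 => he (by rw [h0, Nat.cast_zero])
  let t : ℕ → Module.End k V := fun m => τ ^ m * π₁ * τ ^ (e - m)
  let π : Module.End k V := (e : k)⁻¹ • ∑ m ∈ Finset.range e, t m
  have hπmem : ∀ w, π w ∈ W := fun w => by
    simp only [π, t, LinearMap.smul_apply, LinearMap.coe_sum, Finset.sum_apply,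
      Module.End.mul_apply]
    exact W.smul_mem _ (W.sum_mem fun m _ => hWτm m _ (hπ₁mem _))
  have hπW : ∀ w ∈ W, π w = w := by
    intro w hw
    simp only [π, t, LinearMap.smul_apply, LinearMap.coe_sum, Finset.sum_apply,
      Module.End.mul_apply]
    rw [Finset.sum_congr rfl fun m hm => by
      rw [hWπ₁ _ (hWτm _ w hw), ← Module.End.mul_apply, ← pow_add,
        Nat.add_sub_of_le (Finset.mem_range.1 hm).le, hτe, ← hWρ w hw, ← Module.End.mul_apply,
        hEρ, hWρ w hw]]
    rw [Finset.sum_const, Finset.card_range, ← Nat.cast_smul_eq_nsmul k, smul_smul,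
      inv_mul_cancel₀ he, one_smul]
  have hπ₁E : π₁ * E = π₁ := by
    conv_lhs => rw [← hπ₁ρ, mul_assoc, hρE, hπ₁ρ]
  have hEπ₁ : E * π₁ = π₁ := LinearMap.ext fun w => by
    rw [Module.End.mul_apply, ← hWρ _ (hπ₁mem w), ← Module.End.mul_apply, hEρ]
  refine ⟨π, LinearMap.ext fun w => ?_, LinearMap.ext fun w => ?_, ?_, ?_, ?_, ?_, hπmem⟩
  · rw [Module.End.mul_apply, hπW _ (hπmem w)]
  · rw [Module.End.mul_apply, hWρ _ (hπmem w)]
  · simp only [π, t, smul_mul_assoc, Finset.sum_mul]
    refine congrArg _ (Finset.sum_congr rfl fun m _ => ?_)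
    rw [mul_assoc (τ ^ m * π₁), ← (hρτ.pow_right _).eq, ← mul_assoc, mul_assoc (τ ^ m) π₁, hπ₁ρ]
  · refine Commute.smul_left (Commute.sum_left _ _ _ fun m hm => ?_) _
    have hm' := Finset.mem_range.1 hm
    obtain ⟨Q, hQ⟩ := exists_pow_mul_eq hτY (e - m) X
    obtain ⟨R, hR⟩ := exists_pow_mul_eq hτY m Q
    rw [aeval_X] at hQ
    have hcQ : π₁ * aeval Y Q = aeval Y Q * π₁ := by
      clear hQ hR
      induction Q using Polynomial.induction_on' with
      | add a b ha hb => rw [map_add, mul_add, ha, hb, add_mul]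
      | monomial i a =>
        rw [aeval_monomial, ← mul_assoc, ← Algebra.commutes, mul_assoc, (hπ₁Y.pow_right i).eq,
          ← mul_assoc]
    have hRE : aeval Y R * E = Y := by
      have h1 : τ ^ e * Y = aeval Y R * τ ^ e := by
        rw [show e = m + (e - m) by omega, pow_add, mul_assoc, hQ, ← mul_assoc, hR, mul_assoc]
      rw [hτe, hEY] at h1
      exact h1.symm
    have hem : E * τ ^ m * π₁ = τ ^ m * π₁ := by
      rcases eq_or_ne m 0 with rfl | hm0
      · rw [pow_zero, mul_one, one_mul, hEπ₁]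
      · obtain ⟨m', rfl⟩ := Nat.exists_eq_succ_of_ne_zero hm0
        rw [pow_succ', ← mul_assoc E, hEτ]
    show t m * Y = Y * t m
    simp only [t]
    rw [mul_assoc, hQ, ← mul_assoc, mul_assoc (τ ^ m), hcQ, ← mul_assoc, hR,
      mul_assoc (aeval Y R), ← hem, show aeval Y R * (E * τ ^ m * π₁) =
        aeval Y R * E * (τ ^ m * π₁) by noncomm_ring, hRE, mul_assoc Y, hem]
  · refine Commute.smul_left ?_ _
    show (∑ m ∈ Finset.range e, t m) * τ = τ * ∑ m ∈ Finset.range e, t m
    obtain ⟨e', rfl⟩ := Nat.exists_eq_succ_of_ne_zero he0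
    rw [Finset.sum_mul, Finset.mul_sum, Finset.sum_range_succ', Finset.sum_range_succ]
    congr 1
    · refine Finset.sum_congr rfl fun m hm => ?_
      have := Finset.mem_range.1 hm
      simp only [t]
      rw [mul_assoc _ _ τ, ← pow_succ, show e' + 1 - (m + 1) + 1 = e' + 1 - m by omega,
        ← mul_assoc τ, ← mul_assoc τ, ← pow_succ']
    · simp only [t, pow_zero, one_mul, Nat.sub_zero]
      rw [hτe, hπ₁E, ← mul_assoc τ, ← mul_assoc τ, ← pow_succ', hτe, hEπ₁,
        show e'.succ - e' = 1 by omega, pow_one]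
  · exact hπW _ (Submodule.subset_span ⟨Fin.last h, by simp [s]⟩)

/-- The dimension of the socle. -/
theorem finrank_socle_le {E Y τ : Module.End k V} {q e : ℕ} {P : k[X]} (hq : q ≠ 0)
    (he : (e : k) ≠ 0) (hE : E * E = E) (hEY : E * Y = Y) (hYE : Y * E = Y) (hEτ : E * τ = τ)
    (hτE : τ * E = τ) (hYq : Y ^ q = 0) (hτe : τ ^ e = E) (hτY : τ * Y = aeval Y P * τ)
    (hdich : ∀ π : Module.End k V, π * π = π → E * π = π → π * E = π → Commute π Y →
      Commute π τ → Good Y (Y ^ (q - 1) * E) π ∨ Good Y (Y ^ (q - 1) * E) (E - π)) :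
    Module.finrank k (LinearMap.range E ⊓ LinearMap.ker Y : Submodule k V) ≤
      Module.finrank k (LinearMap.range (Y ^ (q - 1) * E)) + 1 := by
  set N := Y ^ (q - 1) * E with hN
  suffices H : ∀ (d : ℕ) (ρ : Module.End k V), Module.finrank k (LinearMap.range ρ) = d →
      ρ * ρ = ρ → E * ρ = ρ → ρ * E = ρ → Commute ρ Y → Commute ρ τ →
      (∀ π : Module.End k V, π * π = π → ρ * π = π → π * ρ = π → Commute π Y → Commute π τ →
        Good Y N π ∨ Good Y N (ρ - π)) →
      Module.finrank k (LinearMap.range ρ ⊓ LinearMap.ker Y : Submodule k V) ≤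
        Module.finrank k (LinearMap.range (N * ρ)) + 1 by
    have := H _ E rfl hE hE hE (by rw [Commute, SemiconjBy, hEY, hYE])
      (by rw [Commute, SemiconjBy, hEτ, hτE]) hdich
    rwa [hN, mul_assoc, hE, ← hN] at this
  intro d
  induction d using Nat.strong_induction_on with
  | _ d ih =>
  intro ρ hd hρρ hEρ hρE hρY hρτ hdρ
  by_cases hρ0 : ρ = 0
  · subst hρ0
    rw [LinearMap.range_zero, bot_inf_eq, finrank_bot]
    exact Nat.zero_le _
  -- the height
  have hex : ∃ h, Y ^ (h + 1) * ρ = 0 := ⟨q - 1, by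
    rw [Nat.sub_add_cancel (Nat.one_le_iff_ne_zero.2 hq), hYq, zero_mul]⟩
  set h := Nat.find hex with hh
  have hhq : h ≤ q - 1 := Nat.find_min' hex (by
    rw [Nat.sub_add_cancel (Nat.one_le_iff_ne_zero.2 hq), hYq, zero_mul])
  obtain ⟨w, hw⟩ : ∃ w, (Y ^ h) (ρ w) ≠ 0 := by
    by_contra hcon
    push Not at hcon
    have h1 : Y ^ h * ρ = 0 := LinearMap.ext fun w => by
      rw [Module.End.mul_apply, hcon, LinearMap.zero_apply]
    rcases Nat.eq_zero_or_pos h with h0 | h0
    · exact hρ0 (by rwa [h0, pow_zero, one_mul] at h1)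
    · exact Nat.find_min hex (show h - 1 < h by omega) (by rwa [Nat.sub_add_cancel h0])
  obtain ⟨v, c, -, hρv, hτv, hv⟩ := exists_eigen (τ := τ) (L := Y ^ h) (ρ := ρ) he hρτ
    (by rw [hτe, hEρ]) (w := ρ w) (by rw [← Module.End.mul_apply, hρρ]) hw
  obtain ⟨π, hππ, hρπ, hπρ, hπY, hπτ, hπv, hπmem⟩ := exists_string he hEρ hρE hEY hEτ hτe
    hτY hρρ hρY hρτ (Nat.find_spec hex) hρv hτv hv
  have hvh : (Y ^ (h + 1)) v = 0 := by
    rw [← hρv, ← Module.End.mul_apply, Nat.find_spec hex, LinearMap.zero_apply]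
  set u := (Y ^ h) v with hu
  have hYu : Y u = 0 := by rw [hu, ← Module.End.mul_apply, ← pow_succ']; exact hvh
  have hsoc : ∀ w, π w = w → Y w = 0 → w ∈ Submodule.span k {u} := by
    intro w hw hYw
    obtain ⟨g, hg⟩ := (Submodule.mem_span_range_iff_exists_fun k).1 (hw ▸ hπmem w)
    have hg0 : ∀ i : Fin (h + 1), (i : ℕ) < h → g i = 0 := by
      intro i
      induction hi : (i : ℕ) using Nat.strong_induction_on generalizing i with
      | _ n ihn =>
      subst hi
      intro hlt
      have h1 : (Y ^ (h - 1 - (i : ℕ) + 1)) (∑ j : Fin (h + 1), g j • (Y ^ (j : ℕ)) v) = 0 := by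
        rw [hg, pow_succ, Module.End.mul_apply, hYw, map_zero]
      rw [map_sum, Finset.sum_eq_single i] at h1
      · rw [map_smul, ← Module.End.mul_apply, ← pow_add,
          show h - 1 - (i : ℕ) + 1 + i = h by omega, smul_eq_zero] at h1
        exact h1.resolve_right hv
      · intro j _ hj
        rw [map_smul]
        rcases lt_or_gt_of_ne hj with hl | hg'
        · have hl' : (j : ℕ) < i := hl
          rw [ihn j hl' j rfl (by omega), zero_smul]
        · have hgt : (i : ℕ) < j := hg'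
          rw [← Module.End.mul_apply, ← pow_add, pow_apply_eq_zero hvh (by omega), smul_zero]
      · simp
    rw [← hg, Finset.sum_eq_single (Fin.last h)]
    · rw [Fin.val_last]
      exact Submodule.smul_mem _ _ (Submodule.mem_span_singleton_self _)
    · intro j _ hj
      rw [hg0 j (lt_of_le_of_ne (Nat.lt_succ_iff.1 j.isLt) fun h' => hj (Fin.ext h')), zero_smul]
    · simp
  set ρ' := ρ - π with hρ'
  have hρ'2 : ρ' * ρ' = ρ' := by
    rw [hρ', sub_mul, mul_sub, mul_sub, hρρ, hρπ, hπρ, hππ, sub_self, sub_zero]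
  have hπρ' : π * ρ' = 0 := by rw [hρ', mul_sub, hπρ, hππ, sub_self]
  have hρ'π : ρ' * π = 0 := by rw [hρ', sub_mul, hρπ, hππ, sub_self]
  have hρρ' : ρ * ρ' = ρ' := by rw [hρ', mul_sub, hρρ, hρπ]
  have hρ'ρ : ρ' * ρ = ρ' := by rw [hρ', sub_mul, hρρ, hπρ]
  have hEπ : E * π = π := by rw [← hρπ, ← mul_assoc, hEρ]
  have hπE : π * E = π := by rw [← hπρ, mul_assoc, hρE]
  have hNY : Commute π N := by
    rw [hN]
    exact (hπY.pow_right _).mul_right (by rw [Commute, SemiconjBy, hπE, hEπ])
  have hsub : (LinearMap.range ρ ⊓ LinearMap.ker Y : Submodule k V) ≤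
      Submodule.span k {u} ⊔ (LinearMap.range ρ' ⊓ LinearMap.ker Y) := by
    rintro w ⟨⟨w', rfl⟩, hYw⟩
    have hYw' : Y (ρ w') = 0 := hYw
    have : ρ w' = π (ρ w') + ρ' (ρ w') := by
      rw [hρ', LinearMap.sub_apply, ← Module.End.mul_apply ρ ρ, hρρ, add_sub_cancel]
    rw [this]
    refine Submodule.add_mem_sup (hsoc _ (by rw [← Module.End.mul_apply, hππ]) ?_) ⟨⟨_, rfl⟩, ?_⟩
    · rw [← Module.End.mul_apply, ← hπY.eq, Module.End.mul_apply, hYw', map_zero]
    · show Y (ρ' (ρ w')) = 0
      rw [← Module.End.mul_apply, ← (show Commute ρ' Y from hρY.sub_left hπY).eq,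
        Module.End.mul_apply, hYw', map_zero]
  have hdim : Module.finrank k (LinearMap.range ρ ⊓ LinearMap.ker Y : Submodule k V) ≤
      1 + Module.finrank k (LinearMap.range ρ' ⊓ LinearMap.ker Y : Submodule k V) := by
    refine (Submodule.finrank_mono hsub).trans ((Submodule.finrank_add_le_finrank_add_finrank _ _).trans ?_)
    refine Nat.add_le_add_right ?_ _
    exact le_of_eq (finrank_span_singleton hv)
  rcases eq_or_lt_of_le hhq with heq | hlt
  · -- a free string
    have hu0 : u ∈ LinearMap.range (N * ρ) := ⟨v, by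
      rw [Module.End.mul_apply, hρv, hN, Module.End.mul_apply]
      conv_lhs => rw [← hρv, ← Module.End.mul_apply E ρ, hEρ, hρv]
      rw [hu, heq]⟩
    have hlt' : Module.finrank k (LinearMap.range ρ') < d := by
      rw [← hd]
      refine Submodule.finrank_lt_finrank_of_lt (lt_of_le_of_ne ?_ fun heqr => ?_)
      · rintro _ ⟨w, rfl⟩
        exact ⟨ρ' w, by rw [← Module.End.mul_apply, hρρ']⟩
      · obtain ⟨w, hw'⟩ : u ∈ LinearMap.range ρ' := heqr ▸ ⟨u, by
          rw [← hπv, ← Module.End.mul_apply, hρπ]⟩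
        apply hv
        rw [← hπv, ← hw', ← Module.End.mul_apply, hπρ', LinearMap.zero_apply]
    have h1 := ih _ hlt' ρ' rfl hρ'2 (by rw [← hρρ', ← mul_assoc, hEρ])
      (by rw [← hρ'ρ, mul_assoc, hρE]) (hρY.sub_left hπY) (hρτ.sub_left hπτ) ?_
    · have hdisj : Submodule.span k {u} ⊓ LinearMap.range (N * ρ') = ⊥ := by
        rw [Submodule.eq_bot_iff]
        rintro x ⟨hx1, ⟨y, hy⟩⟩
        obtain ⟨a, rfl⟩ := Submodule.mem_span_singleton.1 hx1
        have : π (a • u) = a • u := by rw [map_smul, hπv]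
        rw [← this, ← hy, ← Module.End.mul_apply, ← mul_assoc, hNY.eq, mul_assoc, hπρ', mul_zero,
          LinearMap.zero_apply]
      have hle : Submodule.span k {u} ⊔ LinearMap.range (N * ρ') ≤ LinearMap.range (N * ρ) := by
        refine sup_le ?_ ?_
        · exact (Submodule.span_singleton_le_iff_mem _ _).2 hu0
        · rintro _ ⟨y, rfl⟩
          exact ⟨ρ' y, by rw [← Module.End.mul_apply, mul_assoc, hρρ']⟩
      have h2 := Submodule.finrank_mono hle
      have h3 := Submodule.finrank_sup_add_finrank_inf_eq (Submodule.span k {u})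
        (LinearMap.range (N * ρ'))
      rw [hdisj, finrank_bot, finrank_span_singleton hv] at h3
      omega
    · intro π' hπ'2 hρ'π' hπ'ρ' hπ'Y hπ'τ
      have hρπ' : ρ * π' = π' := by rw [← hρ'π', ← mul_assoc, hρρ']
      have hπ'ρ : π' * ρ = π' := by rw [← hπ'ρ', mul_assoc, hρ'ρ]
      rcases hdρ π' hπ'2 hρπ' hπ'ρ hπ'Y hπ'τ with hg | hg
      · exact Or.inl hg
      · refine Or.inr fun w hYw hw' => hg w hYw ?_
        have hπ'w : π' w = 0 := by
          rw [← hw', ← Module.End.mul_apply, mul_sub, hπ'ρ', hπ'2, sub_self, LinearMap.zero_apply]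
        have hρw : ρ' w = w := by
          calc ρ' w = ρ' w - π' w := by rw [hπ'w, sub_zero]
            _ = (ρ' - π') w := rfl
            _ = w := hw'
        rw [LinearMap.sub_apply, hπ'w, sub_zero, ← hρw, ← Module.End.mul_apply, hρρ']
  · -- a short string
    have hNρ : N * ρ = 0 := by
      rw [hN, mul_assoc, hEρ, show q - 1 = (q - 1 - (h + 1)) + (h + 1) by omega, pow_add, mul_assoc,
        Nat.find_spec hex, mul_zero]
    have hNker : ∀ w, ρ w = w → w ∈ LinearMap.range N → w = 0 := by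
      rintro w hw ⟨x, rfl⟩
      have hc' : Commute ρ N := by
        rw [hN]
        exact (hρY.pow_right _).mul_right (by rw [Commute, SemiconjBy, hρE, hEρ])
      rw [← hw, ← Module.End.mul_apply, hc'.eq, hNρ, LinearMap.zero_apply]
    have hπu : ρ u = u := by rw [← hπv, ← Module.End.mul_apply, hρπ]
    have hgood : Good Y N ρ' := (hdρ π hππ hρπ hπρ hπY hπτ).resolve_left fun hg =>
      hv (hNker u hπu (hg u hYu hπv))
    have hbot : (LinearMap.range ρ' ⊓ LinearMap.ker Y : Submodule k V) = ⊥ := by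
      rw [Submodule.eq_bot_iff]
      rintro w ⟨⟨w', rfl⟩, hYw⟩
      have hfix : ρ' (ρ' w') = ρ' w' := by rw [← Module.End.mul_apply, hρ'2]
      exact hNker _ (by rw [← Module.End.mul_apply, hρρ']) (hgood _ hYw hfix)
    rw [hbot, finrank_bot] at hdim
    omega

end Cfsg.Agent.BlockCount.Strings
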