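import Cfsg.Agent.BlockCount.CyclicInertia
import Cfsg.Agent.BlockCount.CyclicStrings

/-!
A block with cyclic defect group: on a module whose endomorphisms are scalars up to nilpotents, the
socle of the restriction to the corner is at most one larger than the image of the norm.
-/

set_option autoImplicit false
set_option linter.style.haveILetI false
set_option linter.unusedSectionVars false

namespace Cfsg.Agent.BlockCount

open MonoidAlgebra Cfsg
open Cfsg.Agent.BrauerPairs Cfsg.Agent.BrauerPairs.Nil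
open Cfsg.Agent.Block (toF idemF incl)
open scoped Classical

universe u v

theorem RelTrace.sum_filter_trans {G : Type u} [Group G] [Fintype G] {A : Type v} [AddCommGroup A]
    (ρ : G →* AddMonoid.End A) {D L : Subgroup G} (hDL : D ≤ L) [Fintype L] [Fintype (G ⧸ D)]
    [Fintype (G ⧸ L)] {x : A} (hx : RelTrace.FixedBy ρ D x) (P : G → Prop)
    (hP : ∀ g, ∀ l ∈ L, P (g * l) ↔ P g) :
    ∑ c ∈ Finset.univ.filter (fun c : G ⧸ D => P c.out), ρ c.out x =
      ∑ c ∈ Finset.univ.filter (fun c : G ⧸ L => P c.out),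
        ρ c.out (RelTrace.rTr (ρ.comp L.subtype) (D.subgroupOf L) x) := by
  letI := Fintype.ofFinite (L ⧸ D.subgroupOf L)
  have hPout : ∀ g : G, P (g : G ⧸ D).out ↔ P g := by
    intro g
    have h := QuotientGroup.out_eq' (g : G ⧸ D)
    rw [QuotientGroup.eq] at h
    conv_rhs => rw [show g = (g : G ⧸ D).out * ((g : G ⧸ D).out⁻¹ * g) by group, hP _ _ (hDL h)]
  rw [Finset.sum_filter, Finset.sum_filter]
  simp only [RelTrace.rTr_eq_sum, map_sum, Finset.ite_sum_zero]
  rw [← Fintype.sum_prod_type']
  have hf : ∀ h : G ⧸ L, ((h.out : G) : G ⧸ L) = h := QuotientGroup.out_eq'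
  refine (Fintype.sum_equiv (Subgroup.quotientEquivProdOfLE' hDL Quotient.out hf).symm _ _
    fun q => ?_).symm
  obtain ⟨c, l⟩ := q
  obtain ⟨l, rfl⟩ := QuotientGroup.mk_surjective l
  show (if P c.out then ρ c.out (ρ ((l : L ⧸ D.subgroupOf L).out : L) x) else 0) =
    if P ((c.out * (l : G) : G) : G ⧸ D).out then ρ ((c.out * (l : G) : G) : G ⧸ D).out x else 0
  rw [if_congr ((hPout _).trans (hP _ _ l.2)) rfl rfl]
  congr 1
  have h1 : ρ (((l : L ⧸ D.subgroupOf L).out : L) : G) x = ρ (l : G) x := by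
    refine RelTrace.apply_eq_of_mk_eq ρ hx ?_
    have h := QuotientGroup.out_eq' (l : L ⧸ D.subgroupOf L)
    rw [QuotientGroup.eq, Subgroup.mem_subgroupOf] at h
    rw [QuotientGroup.eq]
    exact h
  rw [h1, ← RelTrace.act_mul, RelTrace.apply_out ρ hx]

variable {p : ℕ} [hp : Fact p.Prime] {M : Ideal AlgInt} [M.IsPrime] [CharP (Block.ResF M) p]

namespace CycData

variable {H : Type u} [Group H] [Fintype H] (K : CycData p M H)
  {V : Type v} [AddCommGroup V] [Module (Block.ResF M) V]
  (op : MonoidAlgebra (Block.ResF M) H →ₐ[Block.ResF M] Module.End (Block.ResF M) V)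

/-- The group acting through the operators. -/
noncomputable def actH : H →* Module.End (Block.ResF M) V :=
  (op : MonoidAlgebra (Block.ResF M) H →* Module.End (Block.ResF M) V).comp
    (MonoidAlgebra.of (Block.ResF M) H)

theorem actH_apply (g : H) : actH op g = op (single g 1) := rfl

theorem commute_of_actH {X : Module.End (Block.ResF M) V} (L : Subgroup H)
    (h : ∀ s ∈ L, actH op s * X = X * actH op s) (a : MonoidAlgebra (Block.ResF M) L) :
    Commute (op (incl L a)) X := by
  induction a using MonoidAlgebra.induction_linear with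
  | zero => simp
  | add a b ha hb => rw [map_add, map_add]; exact ha.add_left hb
  | single g c =>
    have e : incl L (single g c) = c • single (g : H) (1 : Block.ResF M) := by simp [incl]
    rw [e, map_smul]
    exact Commute.smul_left (h g g.2) c

theorem commute_corner {π : Module.End (Block.ResF M) V}
    (hπE : Commute π (op K.epsH)) (hπW : Commute π (op (K.welH 1)))
    (a : MonoidAlgebra (Block.ResF M) K.C1) :
    Commute π (op (K.epsH * incl K.C1 a * K.epsH)) := by
  obtain ⟨c, hc⟩ := K.exists_expandH a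
  rw [hc, map_sum]
  refine Commute.sum_right _ _ _ fun i _ => ?_
  rw [map_smul, ← K.welH_one_pow_val, map_mul, map_pow]
  exact ((hπW.pow_right _).mul_right hπE).smul_right _

/-- A projection under the corner extends to the centralizer. -/
theorem exists_extend {π : Module.End (Block.ResF M) V} (hπE : π * op K.epsH = π)
    (hEπ : op K.epsH * π = π)
    (hcor : ∀ a, Commute π (op (K.epsH * incl K.C1 a * K.epsH))) :
    ∃ π' : Module.End (Block.ResF M) V, (∀ a, Commute (op (incl K.C1 a)) π') ∧
      op K.idemH * π' = π' ∧ op K.epsH * π' * op K.epsH = π := by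
  obtain ⟨N, a, c, hac⟩ := K.exists_cover
  set A : Fin N → MonoidAlgebra (Block.ResF M) H := fun l => K.idemH * incl K.C1 (a l) * K.epsH
  set C : Fin N → MonoidAlgebra (Block.ResF M) H := fun l => K.epsH * incl K.C1 (c l) * K.idemH
  set π' := ∑ l, op (A l) * π * op (C l) with hπ'
  have hb : ∑ l, incl K.C1 (a l) * K.epsH * incl K.C1 (c l) = K.idemH := by
    simp only [epsH, ← map_mul, ← map_sum, hac]
    rfl
  have hAC : ∑ l, A l * C l = K.idemH := by
    have e : ∀ l, A l * C l = K.idemH * (incl K.C1 (a l) * K.epsH * incl K.C1 (c l)) * K.idemH := by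
      intro l
      simp only [A, C, mul_assoc]
      rw [← mul_assoc K.epsH K.epsH, K.epsH_mul_self]
    rw [Finset.sum_congr rfl fun l _ => e l, ← Finset.sum_mul, ← Finset.mul_sum, hb,
      K.idemH_mul_self, K.idemH_mul_self]
  have hbA : ∀ l, K.idemH * A l = A l := fun l => by
    simp only [A, ← mul_assoc, K.idemH_mul_self]
  have hCb : ∀ l, C l * K.idemH = C l := fun l => by simp only [C, mul_assoc, K.idemH_mul_self]
  have h1 : op K.idemH * π' = π' := by
    rw [hπ', Finset.mul_sum]
    exact Finset.sum_congr rfl fun l _ => by rw [← mul_assoc, ← mul_assoc, ← map_mul, hbA]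
  have h2 : π' * op K.idemH = π' := by
    rw [hπ', Finset.sum_mul]
    exact Finset.sum_congr rfl fun l _ => by rw [mul_assoc, ← map_mul, hCb]
  -- the products through the corner
  have hmid : ∀ (m l : Fin N) (s : MonoidAlgebra (Block.ResF M) K.C1),
      Commute π (op (C m * incl K.C1 s * A l)) := by
    intro m l s
    have e : C m * incl K.C1 s * A l = K.epsH *
        incl K.C1 (c m * idemF M K.loc.B.1 * s * idemF M K.loc.B.1 * a l) * K.epsH := by
      simp only [A, C, map_mul, idemH, mul_assoc]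
    rw [e]
    exact hcor _
  clear_value π'
  have hbs : ∀ s : MonoidAlgebra (Block.ResF M) K.C1,
      op (K.idemH * incl K.C1 s) * π' = π' * op (incl K.C1 s * K.idemH) := by
    intro s
    have e1 : K.idemH * incl K.C1 s = (∑ m, A m * C m) * incl K.C1 s := by rw [hAC]
    have e2 : incl K.C1 s * K.idemH = incl K.C1 s * ∑ l, A l * C l := by rw [hAC]
    rw [e1, e2, Finset.sum_mul, map_sum, Finset.mul_sum, map_sum, hπ', Finset.sum_mul_sum,
      Finset.sum_mul_sum]
    refine Finset.sum_congr rfl fun m _ => Finset.sum_congr rfl fun l _ => ?_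
    calc op (A m * C m * incl K.C1 s) * (op (A l) * π * op (C l))
        = op (A m) * (op (C m * incl K.C1 s * A l) * π) * op (C l) := by
          simp only [map_mul, mul_assoc]
      _ = op (A m) * (π * op (C m * incl K.C1 s * A l)) * op (C l) := by rw [(hmid m l s).eq]
      _ = op (A m) * π * op (C m) * op (incl K.C1 s * (A l * C l)) := by
          simp only [map_mul, mul_assoc]
  refine ⟨π', fun s => ?_, h1, ?_⟩
  · show op (incl K.C1 s) * π' = π' * op (incl K.C1 s)
    conv_lhs => rw [← h1, ← mul_assoc, ← map_mul, ← K.idemH_comm, hbs, map_mul, ← mul_assoc]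
    conv_rhs => rw [← h2, mul_assoc, ← map_mul, K.idemH_comm, map_mul, ← mul_assoc]
  · have e : ∀ l, op K.epsH * (op (A l) * π * op (C l)) * op K.epsH =
        π * op (A l * C l) * op K.epsH := by
      intro l
      have e1 : K.epsH * A l = K.epsH * incl K.C1 (a l) * K.epsH := by
        simp only [A, ← mul_assoc, K.epsH_mul_idemH]
      have e2 : op K.epsH * op (A l) * π = π * op (A l) := by
        rw [← map_mul, e1, ← (hcor (a l)).eq, ← e1, map_mul, ← mul_assoc, hπE]
      simp only [← mul_assoc, e2, map_mul]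
    rw [hπ', Finset.mul_sum, Finset.sum_mul, Finset.sum_congr rfl fun l _ => e l, ← Finset.sum_mul,
      ← Finset.mul_sum, ← map_sum, hAC, mul_assoc, ← map_mul, K.idemH_mul_epsH, hπE]

/-- Full traces over the centralizer send the socle into the image of the norm. -/
theorem socle_mem (F : Module.End (Block.ResF M) V) {v : V} (hE : op K.epsH v = v)
    (hW : op (K.welH 1) v = v) :
    op K.epsH ((∑ s : K.C1, RelTrace.conjAct ((actH op).comp K.C1.subtype) s F) v) ∈
      LinearMap.range (op (∑ j, K.welH j)) := by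
  obtain ⟨N, a, c, hac⟩ := K.exists_cover
  choose c' hc' using fun l => Brauer.ProjVec.toF_surjective (M := M) (c l)
  have hwel : ∀ i, op (K.welH i) v = v := by
    intro i
    rw [← K.welH_one_pow_val, map_mul, Module.End.mul_apply, hE, map_pow]
    induction i.val with
    | zero => rfl
    | succ n ih => rw [pow_succ', Module.End.mul_apply, ih, hW]
  set z : Fin N → MonoidAlgebra (Block.localRing M) K.C1 := fun l => K.eps * c' l * K.theta
  have hscal : ∀ l (s : K.C1),
      op (K.epsH * incl K.C1 (c l * single s⁻¹ 1) * K.epsH) v =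
        Block.red M ((z l).coeff s) • v := by
    intro l s
    obtain ⟨d, hd, hsum⟩ := K.exists_expand_theta (c' l) s
    have e : K.epsH * incl K.C1 (c l * single s⁻¹ 1) * K.epsH =
        incl K.C1 (toF M (K.eps * (c' l * single s⁻¹ 1) * K.eps)) := by
      simp [epsH, map_mul, hc']
    rw [e, hd, map_sum, map_sum, map_sum, LinearMap.sum_apply]
    have e2 : ∀ i, op (incl K.C1 (toF M (d i • K.wel i))) v = Block.red M (d i) • v := fun i => by
      rw [Block.mapR_smul, show incl K.C1 (Block.red M (d i) • toF M (K.wel i)) =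
        Block.red M (d i) • K.welH i from MonoidAlgebra.mapDomain_smul _ _ _, map_smul,
        LinearMap.smul_apply, hwel]
    simp only [e2, ← Finset.sum_smul, ← map_sum, hsum]
    rfl
  have hinv : ∀ s : K.C1, actH op (s⁻¹ : K.C1) v =
      ∑ l, Block.red M ((z l).coeff s) • op (incl K.C1 (a l)) v := by
    intro s
    have e : single ((s⁻¹ : K.C1) : H) (1 : Block.ResF M) * K.epsH =
        ∑ l, incl K.C1 (a l) * (K.epsH * incl K.C1 (c l * single s⁻¹ 1) * K.epsH) := by
      have h1 : incl K.C1 (single s⁻¹ (1 : Block.ResF M)) =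
          single ((s⁻¹ : K.C1) : H) (1 : Block.ResF M) := by simp [incl]
      simp only [map_mul, h1]
      rw [Finset.sum_congr rfl fun l _ => show incl K.C1 (a l) *
        (K.epsH * (incl K.C1 (c l) * single ((s⁻¹ : K.C1) : H) 1) * K.epsH) =
        incl K.C1 (a l) * K.epsH * incl K.C1 (c l) * (single ((s⁻¹ : K.C1) : H) 1 * K.epsH) by
          simp only [mul_assoc], ← Finset.sum_mul]
      rw [show ∑ l, incl K.C1 (a l) * K.epsH * incl K.C1 (c l) = K.idemH by
        simp only [epsH, ← map_mul, ← map_sum, hac]; rfl, ← mul_assoc, ← h1, K.idemH_comm,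
        mul_assoc, K.idemH_mul_epsH]
    rw [actH_apply, ← hE, ← Module.End.mul_apply, ← map_mul, e, map_sum, LinearMap.sum_apply, hE]
    refine Finset.sum_congr rfl fun l _ => ?_
    rw [map_mul, Module.End.mul_apply, hscal, map_smul]
  have hX : (∑ s : K.C1, RelTrace.conjAct ((actH op).comp K.C1.subtype) s F) v =
      ∑ l, op (incl K.C1 (toF M (z l))) (F (op (incl K.C1 (a l)) v)) := by
    rw [LinearMap.sum_apply]
    simp only [RelTrace.conjAct_apply, Module.End.mul_apply, MonoidHom.comp_apply,
      Subgroup.coe_subtype]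
    simp only [hinv, map_sum, map_smul]
    rw [Finset.sum_comm]
    refine Finset.sum_congr rfl fun l _ => ?_
    rw [show toF M (z l) = ∑ s : K.C1, Block.red M ((z l).coeff s) •
      single s (1 : Block.ResF M) from Block.groupAlgebra_ext fun g => by
        simp [coeff_sum, Finsupp.single_apply], map_sum, map_sum, LinearMap.sum_apply]
    refine Finset.sum_congr rfl fun s _ => ?_
    rw [show incl K.C1 (Block.red M ((z l).coeff s) • single s (1 : Block.ResF M)) =
      Block.red M ((z l).coeff s) • single (s : H) (1 : Block.ResF M) by simp [incl], map_smul,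
      LinearMap.smul_apply, actH_apply]
  rw [hX, map_sum (op K.epsH)]
  refine sum_mem fun l _ => ?_
  have hz : z l = K.eps * K.theta * c' l := by
    show K.eps * c' l * K.theta = _
    rw [mul_assoc, ← Block.isCentralElt_commute K.theta_central, mul_assoc]
  rw [hz, K.eps_mul_theta, map_mul, map_mul, map_mul, Module.End.mul_apply, Block.mapR_smul,
    show incl K.C1 (Block.red M ⟨K.kappa, K.memLocalRing_kappa.1⟩ • toF M (∑ j, K.wel j)) =
      Block.red M ⟨K.kappa, K.memLocalRing_kappa.1⟩ • incl K.C1 (toF M (∑ j, K.wel j))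
      from MonoidAlgebra.mapDomain_smul _ _ _, map_smul, LinearMap.smul_apply, map_smul,
    ← Module.End.mul_apply, ← map_mul op K.epsH]
  refine Submodule.smul_mem _ _ ?_
  simp only [map_sum (toF M), map_sum (incl K.C1), Finset.mul_sum]
  rw [show ∑ j, K.epsH * incl K.C1 (toF M (K.wel j)) = ∑ j, K.welH j from
    Finset.sum_congr rfl fun j _ => K.epsH_mul_welH j]
  exact ⟨_, rfl⟩

theorem loc_P_eq : (Subgroup.zpowers K.x).subgroupOf K.C1 = K.loc.P := by
  rw [← K.loc_map, Subgroup.subgroupOf, Subgroup.comap_map_eq_self_of_injective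
    K.C1.subtype_injective]

/-- One of two complementary equivariant projections has its socle in the image of the norm. -/
theorem dichotomy
    (hloc : ∀ Φ : Module.End (Block.ResF M) V, (∀ a, Commute (op a) Φ) →
      ∃ c : Block.ResF M, IsNilpotent (Φ - c • (1 : Module.End (Block.ResF M) V)))
    {t : H} (ht : t ∈ K.T) {τ : MonoidAlgebra (Block.ResF M) H}
    (hτE : τ * K.epsH = τ) (hEτ : K.epsH * τ = τ) (hτe : τ ^ Nat.card K.E = K.epsH)
    (hform : ∀ n : ℕ, 1 ≤ n → ∃ a : MonoidAlgebra (Block.ResF M) K.C1,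
      τ ^ n = incl K.C1 a * single (t ^ n) 1)
    (hcov : ∀ t' ∈ K.T, ∃ n < Nat.card K.E,
      (t ^ n)⁻¹ * t' ∈ Subgroup.centralizer (Subgroup.zpowers K.x : Set H))
    (hinj : ∀ n : ℕ, 0 < n → n < Nat.card K.E → t ^ n ∉ K.C1)
    {π : Module.End (Block.ResF M) V} (hππ : π * π = π) (hEπ : op K.epsH * π = π)
    (hπE : π * op K.epsH = π) (hπW : Commute π (op (K.welH 1))) (hπτ : Commute π (op τ)) :
    Strings.Good (op (K.welH 1) - op K.epsH) (op (∑ j, K.welH j)) π ∨
      Strings.Good (op (K.welH 1) - op K.epsH) (op (∑ j, K.welH j)) (op K.epsH - π) := by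
  set e := Nat.card K.E with he
  have hπEc : Commute π (op K.epsH) := by rw [Commute, SemiconjBy, hπE, hEπ]
  have hcor := K.commute_corner op hπEc hπW
  obtain ⟨π', hπ'C, hbπ', hEπ'E⟩ := K.exists_extend op hπE hEπ hcor
  set fH := actH op with hfH
  set ρ := RelTrace.conjAct fH with hρ
  set C1 := K.C1
  set D := Subgroup.zpowers K.x
  have hDC : D ≤ C1 := K.zpowers_le_C1
  -- the element with trace one
  obtain ⟨u, hu, hutr⟩ := K.exists_trace_one
  set φ : MonoidAlgebra (Block.ResF M) C1 →+* Module.End (Block.ResF M) V :=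
    (op : MonoidAlgebra (Block.ResF M) H →+* Module.End (Block.ResF M) V).comp (incl C1) with hφ
  have hφof : ((φ : MonoidAlgebra (Block.ResF M) C1 →* Module.End (Block.ResF M) V).comp
      (MonoidAlgebra.of (Block.ResF M) C1)) = fH.comp C1.subtype :=
    MonoidHom.ext fun s => by simp [hφ, hfH, actH, incl]
  have hs : ∀ s : C1, fH (s : H) = φ (MonoidAlgebra.of (Block.ResF M) C1 s) := fun s => by
    simp [hφ, hfH, actH, incl]
  have hπ's : ∀ s : C1, fH (s : H) * π' = π' * fH (s : H) := fun s => by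
    rw [hs]; exact (hπ'C _).eq
  set β := φ u * π' with hβ
  have hβfix : RelTrace.FixedBy ρ D β := RelTrace.fixedBy_of_commute fun d hd => by
    have h1 : (⟨d, hDC hd⟩ : C1) ∈ K.loc.P := by
      rw [← K.loc_P_eq]; exact hd
    have h2 : fH d * φ u = φ u * fH d := by
      rw [show fH d = φ (MonoidAlgebra.of (Block.ResF M) C1 ⟨d, hDC hd⟩) from hs ⟨d, hDC hd⟩,
        ← map_mul, ← map_mul, (hu _ h1).eq]
    rw [hβ, ← mul_assoc, h2, mul_assoc, hπ's ⟨d, hDC hd⟩, mul_assoc]
  have htr1 : RelTrace.rTr (RelTrace.conjAct (fH.comp C1.subtype)) K.loc.P (φ u) = op K.idemH := by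
    have h := RelTrace.map_rTr φ (MonoidAlgebra.of (Block.ResF M) C1) K.loc.P u
    rw [hφof, hutr] at h
    exact h.symm
  have hβtr : RelTrace.rTr (ρ.comp C1.subtype) (D.subgroupOf C1) β = π' := by
    rw [hρ, RelTrace.conjAct_comp_subtype, K.loc_P_eq, hβ,
      RelTrace.rTr_mul _ _ _ (fun g => hπ's g), htr1, hbπ']
  set Φ := RelTrace.rTr ρ D β with hΦ
  have hΦc : ∀ a, Commute (op a) Φ := by
    intro a
    induction a using MonoidAlgebra.induction_linear with
    | zero => simp
    | add a b ha hb => rw [map_add]; exact ha.add_left hb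
    | single g c =>
      rw [show (single g c : MonoidAlgebra (Block.ResF M) H) = c • single g 1 by simp, map_smul]
      exact Commute.smul_left (RelTrace.commute_rTr hβfix g) c
  -- split along the normalizer of the element of order `p`
  set N1 := Subgroup.normalizer (Subgroup.zpowers K.z : Set H)
  have hC1N1 : C1 ≤ N1 := Subgroup.centralizer_le_normalizer _
  haveI := Fintype.ofFinite (H ⧸ D)
  haveI := Fintype.ofFinite (H ⧸ C1)
  set part := ∑ c ∈ Finset.univ.filter (fun c : H ⧸ C1 => c.out ∈ N1), ρ c.out π' with hpart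
  set R := ∑ c ∈ Finset.univ.filter (fun c : H ⧸ D => ¬ c.out ∈ N1), ρ c.out β with hR
  have hsplit : Φ = part + R := by
    rw [hΦ, RelTrace.rTr_eq_sum, hR, ← Finset.sum_filter_add_sum_filter_not Finset.univ
      (fun c : H ⧸ D => c.out ∈ N1), hpart, RelTrace.sum_filter_trans ρ hDC hβfix (· ∈ N1)
      (fun g l hl => N1.mul_mem_cancel_right (hC1N1 hl)), hβtr]
  have hπ'fix : RelTrace.FixedBy ρ C1 π' :=
    RelTrace.fixedBy_of_commute fun s hs => hπ's ⟨s, hs⟩
  -- the part
  have hval : ∀ n, n < e → op K.epsH * ρ (t ^ n) π' * op K.epsH = π := by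
    intro n hn
    rcases Nat.eq_zero_or_pos n with rfl | hn0
    · rw [pow_zero, map_one, AddMonoid.End.coe_one, id_eq, hEπ'E]
    obtain ⟨a, ha⟩ := hform n hn0
    set X := ρ (t ^ n) π' with hX
    set σ := τ ^ (e - n)
    have hστ : τ ^ n * σ = K.epsH := by rw [← pow_add, Nat.add_sub_cancel' hn.le, hτe]
    obtain ⟨n', rfl⟩ := Nat.exists_eq_succ_of_ne_zero hn0.ne'
    obtain ⟨m', hm'⟩ := Nat.exists_eq_succ_of_ne_zero (show e - n'.succ ≠ 0 by omega)
    have hσE : K.epsH * σ = σ := by
      show K.epsH * τ ^ (e - n'.succ) = τ ^ (e - n'.succ)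
      rw [hm', pow_succ', ← mul_assoc, hEτ]
    have hτnE : τ ^ n'.succ * K.epsH = τ ^ n'.succ := by
      rw [pow_succ, mul_assoc, hτE]
    have hXC : ∀ a, Commute (op (incl C1 a)) X := fun a => commute_of_actH op C1 (fun s hs => by
      refine (RelTrace.conjAct_eq_self_iff fH s X).1 ?_
      rw [hX, ← hρ, ← RelTrace.act_mul]
      refine RelTrace.apply_eq_of_mk_eq ρ hπ'fix ?_
      rw [QuotientGroup.eq]
      have h1 := (Subgroup.mem_normalizer_iff.1
        (inv_mem (pow_mem (K.T_le_normalizer_C1 ht) n'.succ)) (s⁻¹)).1 (inv_mem hs)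
      rw [inv_inv] at h1
      rw [mul_inv_rev]
      exact h1) a
    calc op K.epsH * X * op K.epsH = X * op (K.epsH * τ ^ n'.succ * σ) := by
          rw [show op K.epsH * X = X * op K.epsH from (hXC _).eq, mul_assoc, ← map_mul,
            mul_assoc K.epsH, hστ]
      _ = op (incl C1 a) * (X * op (single (t ^ n'.succ) 1)) * op σ := by
          rw [show K.epsH * τ ^ n'.succ = τ ^ n'.succ by rw [pow_succ', ← mul_assoc, hEτ], ha,
            map_mul, map_mul, ← mul_assoc, ← mul_assoc, ← (hXC a).eq]
          simp only [mul_assoc]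
      _ = op (incl C1 a) * (op (single (t ^ n'.succ) 1) * π') * op σ := by
          rw [hX, hρ, RelTrace.conjAct_apply]
          have h2 : fH (t ^ n'.succ)⁻¹ * op (single (t ^ n'.succ) 1) = 1 :=
            RelTrace.map_inv_mul fH _
          rw [mul_assoc (fH (t ^ n'.succ) * π'), h2, mul_one]
          rfl
      _ = op (τ ^ n'.succ) * π' * op σ := by rw [ha, map_mul]; simp only [mul_assoc]
      _ = op (τ ^ n'.succ) * (op K.epsH * π' * op K.epsH) * op σ := by
          simp only [← mul_assoc, ← map_mul, hτnE]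
          rw [mul_assoc _ (op K.epsH) (op σ), ← map_mul, hσE]
      _ = π := by
          rw [hEπ'E, map_pow, ← (hπτ.pow_right _).eq, mul_assoc, ← map_pow, ← map_mul, hστ, hπE]
  have hzero : ∀ g ∈ N1, (∀ n < e, ((g : H ⧸ C1)) ≠ ((t ^ n : H) : H ⧸ C1)) →
      op K.epsH * ρ g π' = 0 := by
    intro g hg hne
    obtain ⟨a', ha'⟩ := exists_cjRel (S := pairSys M H) g
      (⟨Subgroup.zpowers K.z, K.loc.B⟩ : PairIdx M H)
    have h1 : a'.1 = Subgroup.zpowers K.z := by
      rw [← ha'.1]; exact map_conj_of_mem_normalizer hg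
    obtain ⟨Q, f'⟩ := a'
    simp only at h1
    subst h1
    by_cases hf : f' = K.loc.B
    · exfalso
      subst hf
      have hle : SLE (pairSys M H) p ⟨Subgroup.zpowers K.z, K.loc.B⟩
          ⟨Subgroup.zpowers K.x, K.c⟩ := K.loc_block ▸ K.pr_sle _
      have hzc : ∀ x ∈ Subgroup.zpowers K.x, x * K.z = K.z * x :=
        fun x hx => K.commute x hx _ (K.el_mem _)
      obtain ⟨y, hy, hyT⟩ := BlockHeight.exists_stab_of_cjRel K.maxPair hzc hzc hle hle ha'
      obtain ⟨n, hn, hc⟩ := hcov _ hyT
      refine hne n hn ?_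
      rw [QuotientGroup.eq]
      have h2 : (t ^ n)⁻¹ * y⁻¹ * (t ^ n) ∈ C1 := by
        have h3 := (Subgroup.mem_normalizer_iff.1
          (inv_mem (pow_mem (K.T_le_normalizer_C1 ht) n)) y⁻¹).1 (inv_mem hy)
        rwa [inv_inv] at h3
      have h4 : (t ^ n)⁻¹ * (y * g) ∈ C1 :=
        centralizer_anti (Subgroup.zpowers_le.2 (K.el_mem _)) hc
      have h5 := C1.inv_mem (C1.mul_mem h2 h4)
      rw [show ((t ^ n)⁻¹ * y⁻¹ * t ^ n * ((t ^ n)⁻¹ * (y * g)))⁻¹ = g⁻¹ * t ^ n by group] at h5
      exact h5
    · have h2 : K.idemH * cj g K.idemH = 0 := by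
        have h3 : (pairSys M H (Subgroup.zpowers K.z)).idem f' = cj g K.idemH := ha'.2
        rw [← h3]
        show incl K.C1 (idemF M K.loc.B.1) * incl K.C1 (idemF M f'.1) = 0
        rw [← map_mul, Block.idemF_mul_of_ne K.loc.B.2 f'.2
          (fun h => hf (Subtype.ext h.symm)), map_zero]
      have h6 : ρ g π' = op (cj g K.idemH) * ρ g π' := by
        rw [hρ, RelTrace.conjAct_apply, cj_eq_mul, map_mul, map_mul, ← actH_apply, ← actH_apply,
          ← hfH]
        simp only [mul_assoc]
        rw [← mul_assoc (fH g⁻¹) (fH g), RelTrace.map_inv_mul, one_mul, ← mul_assoc (op K.idemH),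
          hbπ']
      rw [h6, ← K.epsH_mul_idemH, map_mul, mul_assoc, ← mul_assoc (op K.idemH), ← map_mul, h2,
        map_zero, zero_mul, mul_zero]
  have hEpart : op K.epsH * part * op K.epsH = (e : Block.ResF M) • π := by
    set S := Finset.univ.filter (fun c : H ⧸ C1 => c.out ∈ N1)
    set I := (Finset.range e).image (fun n => ((t ^ n : H) : H ⧸ C1)) with hI
    have hmem : ∀ c : H ⧸ C1, c ∈ I → c ∈ S := by
      intro c hc
      obtain ⟨n, -, rfl⟩ := Finset.mem_image.1 hc
      refine Finset.mem_filter.2 ⟨Finset.mem_univ _, ?_⟩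
      have h := QuotientGroup.out_eq' ((t ^ n : H) : H ⧸ C1)
      rw [QuotientGroup.eq] at h
      have htN : t ^ n ∈ N1 := by
        refine pow_mem (Subgroup.mem_normalizer_iff.2 fun g => ?_) n
        have hm : (Subgroup.zpowers K.z).map (MulAut.conj t).toMonoidHom = Subgroup.zpowers K.z := by
          rw [MonoidHom.map_zpowers]
          exact K.zpowers_conj_z ht
        conv_rhs => rw [← hm]
        rw [mem_map_conj_iff]
        simp [mul_assoc]
      rw [← N1.mul_mem_cancel_right (hC1N1 h), mul_inv_cancel_left]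
      exact htN
    rw [hpart, Finset.mul_sum, Finset.sum_mul, ← Finset.sum_subset (fun c hc => hmem c hc)
      fun c hc hcI => ?_, hI, Finset.sum_image, Finset.sum_congr rfl fun n hn => ?_,
      Finset.sum_const, Finset.card_range, Nat.cast_smul_eq_nsmul]
    · rw [RelTrace.apply_out ρ hπ'fix]
      exact hval n (Finset.mem_range.1 hn)
    · intro n hn n' hn' heq
      have hn := Finset.mem_range.1 hn
      have hn' := Finset.mem_range.1 hn'
      rw [QuotientGroup.eq] at heq
      rcases lt_trichotomy n n' with h | h | h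
      · exact absurd (by rwa [show (t ^ n)⁻¹ * t ^ n' = t ^ (n' - n) by
          rw [inv_mul_eq_iff_eq_mul, ← pow_add, Nat.add_sub_cancel' h.le]] at heq)
          (hinj (n' - n) (by omega) (by omega))
      · exact h
      · exact absurd (by
          have h9 := C1.inv_mem heq
          rwa [mul_inv_rev, inv_inv, show (t ^ n')⁻¹ * t ^ n = t ^ (n - n') by
            rw [inv_mul_eq_iff_eq_mul, ← pow_add, Nat.add_sub_cancel' h.le]] at h9)
          (hinj (n - n') (by omega) (by omega))
    · rw [hzero c.out (Finset.mem_filter.1 hc).2 fun n hn h => hcI (Finset.mem_image.2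
        ⟨n, Finset.mem_range.2 hn, by rw [← h, QuotientGroup.out_eq']⟩), zero_mul]
  -- the rest is a full trace
  have hPout : ∀ g : H, (g : H ⧸ D).out ∈ N1 ↔ g ∈ N1 := by
    intro g
    have h := QuotientGroup.out_eq' (g : H ⧸ D)
    rw [QuotientGroup.eq] at h
    conv_rhs => rw [show g = (g : H ⧸ D).out * ((g : H ⧸ D).out⁻¹ * g) by group,
      N1.mul_mem_cancel_right (hC1N1 (hDC h))]
  have hsmul : ∀ (g : H) (c : H ⧸ D), g ∈ N1 → ((g • c).out ∈ N1 ↔ c.out ∈ N1) := by
    intro g c hg
    conv_lhs => rw [← QuotientGroup.out_eq' c, MulAction.Quotient.smul_mk, smul_eq_mul, hPout,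
      N1.mul_mem_cancel_left hg]
  have hRfix : ∀ s : C1, fH (s : H) * R = R * fH (s : H) := fun s => by
    refine (RelTrace.conjAct_eq_self_iff fH _ R).1 ?_
    rw [hR, ← hρ]
    refine RelTrace.apply_sum_cosets ρ hβfix _ fun c => ?_
    simp only [Finset.mem_filter, Finset.mem_univ, true_and]
    rw [hsmul _ c (hC1N1 s.2)]
  obtain ⟨F, hF⟩ := RelTrace.exists_sum_of_free ρ D hβfix
    (Finset.univ.filter (fun c : H ⧸ D => ¬ c.out ∈ N1))
    (fun w hw c hc => by
      simp only [Finset.mem_filter, Finset.mem_univ, true_and] at hc ⊢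
      rwa [hsmul _ c (hC1N1 (hDC hw))])
    (fun w hw c hc hfix => by
      simp only [Finset.mem_filter, Finset.mem_univ, true_and] at hc
      by_contra hw1
      apply hc
      conv_lhs at hfix => rw [← QuotientGroup.out_eq' c]
      conv_rhs at hfix => rw [← QuotientGroup.out_eq' c]
      rw [MulAction.Quotient.smul_mk, smul_eq_mul, QuotientGroup.eq, mul_inv_rev] at hfix
      obtain ⟨j, hj⟩ := K.exists_el hw
      set g := c.out
      have hj0 : j ≠ 0 := fun h => hw1 (by rw [← hj, h, K.el_zero])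
      obtain ⟨j', hj'⟩ := K.exists_el (g := g⁻¹ * w * g) (by
        have := inv_mem hfix
        simpa [mul_assoc] using this)
      obtain ⟨i, hi⟩ := Subgroup.mem_zpowers_iff.1 (K.z_mem_zpowers hj0)
      have hgz : g⁻¹ * K.z * g ∈ Subgroup.zpowers K.x := by
        rw [← hi, hj, show g⁻¹ * w ^ i * g = (g⁻¹ * w * g) ^ i by
          rw [show g⁻¹ * w * g = MulAut.conj g⁻¹ w by simp, ← map_zpow]; simp, ← hj']
        exact zpow_mem (K.el_mem _) _
      obtain ⟨j'', hj''⟩ := K.exists_el hgz
      have hj0' : j'' ≠ 0 := fun h => K.z_ne_one (by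
        rw [h, K.el_zero] at hj''
        simpa [mul_assoc] using congrArg (fun y => g * y * g⁻¹) hj''.symm)
      have hmap : (Subgroup.zpowers K.z).map (MulAut.conj g⁻¹).toMonoidHom =
          Subgroup.zpowers K.z := by
        refine (Subgroup.eq_of_le_of_card_ge ?_
          (le_of_eq (Subgroup.card_map_of_injective (MulAut.conj g⁻¹).injective))).symm
        rw [MonoidHom.map_zpowers, Subgroup.zpowers_le]
        show K.z ∈ Subgroup.zpowers (MulAut.conj g⁻¹ K.z)
        rw [show MulAut.conj g⁻¹ K.z = g⁻¹ * K.z * g by simp, ← hj'']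
        exact K.z_mem_zpowers hj0'
      refine (inv_mem_iff (H := N1)).1 (Subgroup.mem_normalizer_iff.2 fun h => ?_)
      constructor
      · intro hh
        rw [← hmap]
        exact ⟨h, hh, rfl⟩
      · intro hh
        rw [← hmap] at hh
        obtain ⟨h', hh', he⟩ := hh
        exact (MulAut.conj g⁻¹).injective he ▸ hh')
  rw [← hR] at hF
  haveI := Fintype.ofFinite (C1 ⧸ K.loc.P)
  set ρ1 := RelTrace.conjAct (fH.comp C1.subtype)
  have hbR : op K.idemH * R = ∑ s : C1, ρ1 s (φ u * F) := by
    rw [RelTrace.sum_eq_rTr ρ1 K.loc.P, ← htr1,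
      ← RelTrace.rTr_mul (f := fH.comp C1.subtype) K.loc.P (φ u) R (fun g => hRfix g)]
    congr 1
    rw [hF, Finset.mul_sum]
    refine Finset.sum_bij (fun d _ => (⟨⟨(d : H), hDC d.2⟩, by rw [← K.loc_P_eq]; exact d.2⟩ : K.loc.P))
      (fun _ _ => Finset.mem_univ _) (fun a _ b _ h => Subtype.ext (congrArg (fun x : K.loc.P =>
        ((x : C1) : H)) h)) (fun x _ => ⟨⟨((x : C1) : H), by
          have h1 : (x : C1) ∈ D.subgroupOf C1 := by rw [K.loc_P_eq]; exact x.2
          exact h1⟩, Finset.mem_univ _, rfl⟩) fun d _ => ?_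
    have h1 : (⟨(d : H), hDC d.2⟩ : C1) ∈ K.loc.P := by rw [← K.loc_P_eq]; exact d.2
    have h2 : fH d * φ u = φ u * fH d := by
      rw [show fH (d : H) = φ (MonoidAlgebra.of (Block.ResF M) C1 ⟨d, hDC d.2⟩) from
        hs ⟨d, hDC d.2⟩, ← map_mul, ← map_mul, (hu _ h1).eq]
    rw [hρ, RelTrace.conjAct_apply, RelTrace.conjAct_apply]
    show φ u * (fH d * F * fH (d : H)⁻¹) = fH d * (φ u * F) * fH (d : H)⁻¹
    rw [← mul_assoc (fH d) (φ u), h2]
    simp only [mul_assoc]
  -- the socle
  set Y := op (K.welH 1) - op K.epsH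
  set N := op (∑ j, K.welH j)
  have key : ∀ v, op K.epsH v = v → Y v = 0 →
      ∃ n ∈ LinearMap.range N, op K.epsH (Φ v) = (e : Block.ResF M) • π v + n := by
    intro v hv hYv
    have hWv : op (K.welH 1) v = v := by
      rw [LinearMap.sub_apply, hv, sub_eq_zero] at hYv
      exact hYv
    refine ⟨op K.epsH (R v), ?_, ?_⟩
    · rw [← K.epsH_mul_idemH, map_mul, Module.End.mul_apply, ← Module.End.mul_apply (op K.idemH),
        hbR]
      exact K.socle_mem op _ hv hWv
    · rw [hsplit, LinearMap.add_apply, map_add]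
      congr 1
      rw [← LinearMap.smul_apply, ← hEpart, Module.End.mul_apply, Module.End.mul_apply, hv]
  have hΦv : ∀ v, op K.epsH v = v → op K.epsH (Φ v) = Φ v := fun v hv => by
    rw [← Module.End.mul_apply, (hΦc _).eq, Module.End.mul_apply, hv]
  have hΦN : ∀ n ∈ LinearMap.range N, Φ n ∈ LinearMap.range N := by
    rintro _ ⟨w, rfl⟩
    exact ⟨Φ w, by rw [← Module.End.mul_apply, (hΦc _).eq, Module.End.mul_apply]⟩
  have hπN : ∀ n ∈ LinearMap.range N, π n ∈ LinearMap.range N := by
    rintro _ ⟨w, rfl⟩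
    have hc : Commute π N := by
      show Commute π (op (∑ j, K.welH j))
      rw [map_sum]
      refine Commute.sum_right _ _ _ fun i _ => ?_
      rw [← K.welH_one_pow_val, map_mul, map_pow]
      exact (hπW.pow_right _).mul_right hπEc
    exact ⟨π w, by rw [← Module.End.mul_apply, ← hc.eq, Module.End.mul_apply]⟩
  have hek : (e : Block.ResF M) ≠ 0 := by
    rw [Ne, CharP.cast_eq_zero_iff (Block.ResF M) p]
    exact K.not_dvd_card_E
  obtain ⟨c, hc⟩ := hloc Φ hΦc
  by_cases hc0 : c = 0
  · left
    intro w hYw hπw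
    rw [hc0, zero_smul, sub_zero] at hc
    obtain ⟨m, hm⟩ := hc
    have hw : op K.epsH w = w := by rw [← hπw, ← Module.End.mul_apply, hEπ]
    obtain ⟨n1, hn1, h1⟩ := key w hw hYw
    rw [hπw, hΦv w hw] at h1
    have hj : ∀ j : ℕ, ∃ n ∈ LinearMap.range N,
        (Φ ^ j) w = (e : Block.ResF M) ^ j • w + n := by
      intro j
      induction j with
      | zero => exact ⟨0, Submodule.zero_mem _, by simp⟩
      | succ j ih =>
        obtain ⟨n, hn, hj⟩ := ih
        refine ⟨(e : Block.ResF M) ^ j • n1 + Φ n,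
          Submodule.add_mem _ (Submodule.smul_mem _ _ hn1) (hΦN n hn), ?_⟩
        rw [pow_succ', Module.End.mul_apply, hj, map_add, map_smul, h1, smul_add, smul_smul,
          ← pow_succ, add_assoc]
    obtain ⟨n, hn, hmn⟩ := hj m
    rw [hm, LinearMap.zero_apply, eq_comm, add_eq_zero_iff_eq_neg] at hmn
    have h2 : w = ((e : Block.ResF M) ^ m)⁻¹ • -n := by
      rw [← hmn, smul_smul, inv_mul_cancel₀ (pow_ne_zero _ hek), one_smul]
    rw [h2]
    exact Submodule.smul_mem _ _ (Submodule.neg_mem _ hn)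
  · right
    intro w hYw hw'
    have hu1 : IsUnit Φ := by
      have h := IsNilpotent.isUnit_add_left_of_commute hc
        (show IsUnit (c • (1 : Module.End (Block.ResF M) V)) by
          rw [← Algebra.algebraMap_eq_smul_one]; exact (Ne.isUnit hc0).map _)
        ((Commute.one_right _).smul_right c)
      rwa [add_sub_cancel] at h
    obtain ⟨Ψ, hΨ⟩ := hu1
    have hπw : π w = 0 := by
      rw [← hw', LinearMap.sub_apply, map_sub, ← Module.End.mul_apply π, hπE,
        ← Module.End.mul_apply π π, hππ, sub_self]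
    have hw : op K.epsH w = w := by
      rw [LinearMap.sub_apply, hπw, sub_zero] at hw'
      exact hw'
    set w' := (↑Ψ⁻¹ : Module.End (Block.ResF M) V) w
    have hΦw' : Φ w' = w := by
      rw [← hΨ, ← Module.End.mul_apply, Units.mul_inv, Module.End.one_apply]
    have hcomm : ∀ a, Commute (op a) (↑Ψ⁻¹ : Module.End (Block.ResF M) V) := fun a =>
      (hΨ ▸ hΦc a : Commute (op a) ↑Ψ).units_inv_right
    have hw'E : op K.epsH w' = w' := by
      rw [← Module.End.mul_apply, (hcomm _).eq, Module.End.mul_apply, hw]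
    have hw'Y : Y w' = 0 := by
      rw [← Module.End.mul_apply, ((hcomm _).sub_left (hcomm _)).eq, Module.End.mul_apply, hYw,
        map_zero]
    obtain ⟨n, hn, h1⟩ := key w' hw'E hw'Y
    rw [hΦw', hw] at h1
    have h2 : w = n - π n := by
      have h3 : π w = (e : Block.ResF M) • π w' + π n := by
        conv_lhs => rw [h1, map_add, map_smul, ← Module.End.mul_apply, hππ]
      rw [hπw] at h3
      rw [h1, eq_neg_of_add_eq_zero_left h3.symm, neg_add_eq_sub]
    rw [h2]
    exact Submodule.sub_mem _ hn (hπN n hn)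

/-- The socle on the corner is at most one larger than the image of the norm. -/
theorem finrank_socle_le [FiniteDimensional (Block.ResF M) V]
    (hloc : ∀ Φ : Module.End (Block.ResF M) V, (∀ a, Commute (op a) Φ) →
      ∃ c : Block.ResF M, IsNilpotent (Φ - c • (1 : Module.End (Block.ResF M) V))) :
    Module.finrank (Block.ResF M) (LinearMap.range (op K.epsH) ⊓
        LinearMap.ker (op (K.welH 1) - op K.epsH) : Submodule (Block.ResF M) V) ≤
      Module.finrank (Block.ResF M) (LinearMap.range (op (∑ j, K.welH j))) + 1 := by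
  haveI : IsAlgClosed (Block.ResF M) := Brauer.isAlgClosed_resF K.isPModular.2.1
  obtain ⟨t, ht, τ, hEτ, hτE, hτe, hform, hcov, hinj⟩ := K.exists_tau
  set e := Nat.card K.E with he
  have he0 : 0 < e := Nat.card_pos
  set E := op K.epsH
  set W := op (K.welH 1)
  set Y := W - E
  set q := p ^ K.b with hq
  have hq0 : q ≠ 0 := pow_ne_zero _ hp.out.ne_zero
  have hEE : E * E = E := by rw [← map_mul, K.epsH_mul_self]
  have hEW : E * W = W := by rw [← map_mul, K.epsH_mul_welH]
  have hWE : W * E = W := by rw [← map_mul, K.welH_mul_epsH]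
  have hEY : E * Y = Y := by rw [mul_sub, hEW, hEE]
  have hYE : Y * E = Y := by rw [sub_mul, hWE, hEE]
  have hEWi : ∀ i : ℕ, E * (W ^ i * E) = W ^ i * E := by
    intro i
    rw [← map_pow, ← map_mul, K.welH_one_pow, ← map_mul, K.epsH_mul_welH]
  have hpowE : ∀ n : ℕ, Y ^ n * E = (W - 1) ^ n * E := by
    intro n
    induction n with
    | zero => simp
    | succ n ih =>
      have hc : ∀ j : ℕ, E * ((W - 1) ^ j * E) = (W - 1) ^ j * E := by
        intro j
        have h1 : Commute E (W - 1) :=
          (show Commute E W by rw [Commute, SemiconjBy, hEW, hWE]).sub_right (Commute.one_right _)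
        rw [← mul_assoc, (h1.pow_right j).eq, mul_assoc, hEE]
      rw [pow_succ', mul_assoc, ih, sub_mul W E, hc, pow_succ' (W - 1), mul_assoc (W - 1),
        sub_mul W 1, one_mul]
  have hX : (Polynomial.X - 1 : Polynomial (Block.ResF M)) ^ q = Polynomial.X ^ q - 1 := by
    rw [hq, sub_pow_char_pow, one_pow]
  have hX' : (Polynomial.X - 1 : Polynomial (Block.ResF M)) ^ (q - 1) =
      ∑ i ∈ Finset.range q, Polynomial.X ^ i := by
    refine mul_right_cancel₀ (b := Polynomial.X - 1) (Polynomial.X_sub_C_ne_zero 1) ?_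
    rw [← pow_succ, Nat.sub_add_cancel (Nat.one_le_iff_ne_zero.2 hq0), geom_sum_mul, hX]
  have hN : Y ^ (q - 1) * E = op (∑ j, K.welH j) := by
    have h1 := congrArg (fun Q => Polynomial.aeval W Q * E) hX'
    simp only [map_pow, map_sub, map_one, map_sum, Polynomial.aeval_X] at h1
    rw [hpowE, h1, Finset.sum_mul, map_sum]
    refine Finset.sum_bij' (fun i _ => (i : ZMod q)) (fun j _ => j.val)
      (fun _ _ => Finset.mem_univ _) (fun j _ => Finset.mem_range.2 (ZMod.val_lt j))
      (fun i hi => ZMod.val_natCast_of_lt (Finset.mem_range.1 hi))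
      (fun j _ => ZMod.natCast_zmod_val j) fun i _ => ?_
    rw [← map_pow, ← map_mul, K.welH_one_pow]
  have hYq : Y ^ q = 0 := by
    have h1 : Y ^ q * E = Y ^ q := by
      obtain ⟨q', hq'⟩ := Nat.exists_eq_succ_of_ne_zero hq0
      rw [hq', pow_succ, mul_assoc, hYE]
    have h2 := congrArg (fun Q => Polynomial.aeval W Q * E) hX
    simp only [map_pow, map_sub, map_one, Polynomial.aeval_X] at h2
    rw [← h1, hpowE, h2, sub_mul, one_mul, ← map_pow, ← map_mul, K.welH_one_pow, hq,
      ZMod.natCast_self, K.welH_zero, sub_self]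
  -- the twist
  have hte : t ^ e ∈ K.C1 := by
    obtain ⟨n, hn, hc⟩ := hcov _ (K.T.pow_mem ht e)
    have h1 : t ^ (e - n) ∈ K.C1 := by
      have h2 : t ^ (e - n) = (t ^ n)⁻¹ * t ^ e := by
        rw [eq_inv_mul_iff_mul_eq, ← pow_add, Nat.add_sub_cancel' hn.le]
      rw [h2]
      exact centralizer_anti (Subgroup.zpowers_le.2 (K.el_mem _)) hc
    rcases Nat.eq_zero_or_pos n with h0 | h0
    · simpa [h0] using h1
    · exact absurd h1 (hinj (e - n) (by omega) (by omega))
  obtain ⟨a, ha⟩ := hform 1 le_rfl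
  obtain ⟨a', ha'⟩ := hform (2 * e - 1) (by omega)
  rw [pow_one, pow_one] at ha
  have hform2 : ∃ s : MonoidAlgebra (Block.ResF M) K.C1,
      τ * K.welH 1 * τ ^ (2 * e - 1) = K.epsH * incl K.C1 s * K.epsH := by
    refine ⟨a * K.conjC1 ht (toF M (K.wel 1) * a') *
      single ⟨t ^ (2 * e), by rw [two_mul, pow_add]; exact mul_mem hte hte⟩ 1, ?_⟩
    have h1 : τ * K.welH 1 * τ ^ (2 * e - 1) = incl K.C1 (a * K.conjC1 ht (toF M (K.wel 1) * a') *
        single ⟨t ^ (2 * e), by rw [two_mul, pow_add]; exact mul_mem hte hte⟩ 1) := by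
      rw [ha', ha, welH, map_mul (incl K.C1) (a * _), map_mul (incl K.C1) a,
        show incl K.C1 (single (⟨t ^ (2 * e), _⟩ : K.C1) (1 : Block.ResF M)) =
          single (t ^ (2 * e)) 1 by simp [incl],
        show (t : H) ^ (2 * e) = t * t ^ (2 * e - 1) by
          rw [← pow_succ', Nat.sub_add_cancel (by omega)],
        show (single (t * t ^ (2 * e - 1)) (1 : Block.ResF M)) =
          single t 1 * single (t ^ (2 * e - 1)) 1 by rw [single_mul_single, one_mul],
        mul_assoc (incl K.C1 a) (incl K.C1 (K.conjC1 ht _)), ← mul_assoc (incl K.C1 (K.conjC1 ht _)),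
        ← K.single_mul_incl ht, map_mul]
      simp only [mul_assoc]
    have hleft : K.epsH * (τ * K.welH 1 * τ ^ (2 * e - 1)) =
        τ * K.welH 1 * τ ^ (2 * e - 1) := by
      rw [← mul_assoc, ← mul_assoc, hEτ]
    have hright : τ * K.welH 1 * τ ^ (2 * e - 1) * K.epsH =
        τ * K.welH 1 * τ ^ (2 * e - 1) := by
      obtain ⟨j, hj⟩ := Nat.exists_eq_succ_of_ne_zero (show 2 * e - 1 ≠ 0 by omega)
      rw [hj, mul_assoc, pow_succ, mul_assoc _ τ, hτE]
    rw [← h1, hleft, hright]
  obtain ⟨s, hs⟩ := hform2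
  obtain ⟨c, hc⟩ := K.exists_expandH s
  set Q : Polynomial (Block.ResF M) :=
    ∑ i, Polynomial.C (c i) * Polynomial.X ^ (i : ZMod q).val with hQdef
  have hτW : op τ * W = Polynomial.aeval W Q * op τ := by
    have h1 : τ * K.welH 1 = (∑ i, c i • K.welH i) * τ := by
      rw [← hc, ← hs, mul_assoc _ (τ ^ (2 * e - 1)) τ, ← pow_succ,
        Nat.sub_add_cancel (show 1 ≤ 2 * e by omega), pow_mul', hτe, pow_two, K.epsH_mul_self,
        mul_assoc τ, K.welH_mul_epsH]
    have h2 : Polynomial.aeval W Q * E = op (∑ i, c i • K.welH i) := by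
      rw [map_sum, Finset.sum_mul, map_sum]
      refine Finset.sum_congr rfl fun i _ => ?_
      rw [map_mul, Polynomial.aeval_C, map_pow (Polynomial.aeval W), Polynomial.aeval_X,
        ← Algebra.smul_def, smul_mul_assoc, map_smul, ← K.welH_one_pow_val, map_mul, map_pow]
    rw [← map_mul, h1, map_mul, ← h2, mul_assoc, ← map_mul, hEτ]
  have hshift : ∀ R : Polynomial (Block.ResF M),
      Polynomial.aeval W R * E = Polynomial.aeval Y (R.comp (Polynomial.X + 1)) * E := by
    intro R
    induction R using Polynomial.induction_on' with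
    | add a b ha hb => rw [map_add, add_mul, ha, hb, Polynomial.add_comp, map_add, add_mul]
    | monomial i a =>
      rw [Polynomial.aeval_monomial, Polynomial.monomial_comp, map_mul, Polynomial.aeval_C,
        map_pow, map_add, Polynomial.aeval_X, map_one, mul_assoc, mul_assoc]
      congr 1
      induction i with
      | zero => rw [pow_zero, pow_zero]
      | succ i ih =>
        rw [pow_succ' (Y + 1), mul_assoc, ← ih, add_mul, one_mul, sub_mul, hEWi, ← mul_assoc W,
          ← pow_succ', sub_add_cancel]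
  refine (le_of_le_of_eq (Strings.finrank_socle_le (τ := op τ) (q := q) (e := e)
    (P := Q.comp (Polynomial.X + 1) - 1) hq0 ?_ hEE hEY hYE (by rw [← map_mul, hEτ])
    (by rw [← map_mul, hτE]) hYq (by rw [← map_pow, hτe]) ?_ ?_) (by rw [hN]))
  · rw [Ne, CharP.cast_eq_zero_iff (Block.ResF M) p]
    exact K.not_dvd_card_E
  · rw [mul_sub, hτW, ← map_mul, hτE, map_sub, map_one, sub_mul, one_mul]
    congr 1
    conv_lhs => rw [← hEτ, map_mul, ← mul_assoc, hshift, mul_assoc, ← map_mul, hEτ]
  · intro π hππ hEπ hπE hπY hπτ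
    rw [hN]
    have hπW : Commute π W := by
      have h1 : W = Y + E := (sub_add_cancel W E).symm
      rw [h1]
      exact hπY.add_right (show Commute π E by rw [Commute, SemiconjBy, hπE, hEπ])
    exact K.dichotomy op hloc ht hτE hEτ hτe hform hcov hinj hππ hEπ hπE hπW hπτ

end CycData

end Cfsg.Agent.BlockCount
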