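import Cfsg.Agent.BlockCount.CyclicCorner

/-!
A block with cyclic defect group: the inertial group on the corner of the primitive idempotent of
the local block, and the trace of the defect group.
-/

set_option autoImplicit false
set_option linter.style.haveILetI false
set_option linter.unusedSectionVars false

namespace Cfsg.Agent.BlockCount

open MonoidAlgebra Cfsg
open Cfsg.Agent.BrauerPairs Cfsg.Agent.BrauerPairs.Nil
open Cfsg.Agent.Block (toC toF idemF charLin incl)
open Cfsg.Agent.Brauer.ProjVec (ev)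
open scoped ComplexConjugate Classical

universe u

variable {p : ℕ} [hp : Fact p.Prime] {M : Ideal AlgInt} [M.IsPrime] [CharP (Block.ResF M) p]

theorem cj_eq_mul {G : Type u} [Group G] [Fintype G] {k : Type*} [CommSemiring k] (x : G)
    (a : MonoidAlgebra k G) : cj x a = single x (1 : k) * a * single x⁻¹ (1 : k) := by
  ext g
  rw [coeff_cj, MonoidAlgebra.coeff_mul_single_apply, MonoidAlgebra.coeff_single_mul_apply,
    inv_inv, mul_one, one_mul, mul_assoc]

namespace CycData

variable {H : Type u} [Group H] [Fintype H] (K : CycData p M H)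

/-- The idempotent in the residue algebra of the group. -/
noncomputable def epsH : MonoidAlgebra (Block.ResF M) H := incl K.C1 (toF M K.eps)

/-- The image of the defect group in the residue algebra of the group. -/
noncomputable def welH (j : ZMod (p ^ K.b)) : MonoidAlgebra (Block.ResF M) H :=
  incl K.C1 (toF M (K.wel j))

/-- The block idempotent in the residue algebra of the group. -/
noncomputable def idemH : MonoidAlgebra (Block.ResF M) H := incl K.C1 (idemF M K.loc.B.1)

theorem epsH_mul_self : K.epsH * K.epsH = K.epsH := by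
  rw [epsH, ← map_mul, ← map_mul, K.eps_mul_self]

theorem epsH_ne_zero : K.epsH ≠ 0 := fun h =>
  K.eps_prim.2.1 (Block.incl_injective K.C1 (by rw [map_zero]; exact h))

theorem idemH_mul_epsH : K.idemH * K.epsH = K.epsH := by
  rw [idemH, epsH, ← map_mul, K.idemF_mul_eps]

theorem epsH_mul_idemH : K.epsH * K.idemH = K.epsH := by
  rw [idemH, epsH, ← map_mul, K.eps_mul_idemF]

theorem idemH_mul_self : K.idemH * K.idemH = K.idemH := by
  rw [idemH, ← map_mul, Block.idemF_mul_self K.loc.B.2]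

theorem idemH_comm (a : MonoidAlgebra (Block.ResF M) K.C1) :
    K.idemH * incl K.C1 a = incl K.C1 a * K.idemH := by
  rw [idemH, ← map_mul, ← map_mul]
  exact congrArg _ (Block.isCentralElt_commute (Block.idemF_isCentralElt (M := M) K.loc.B.1) a)

theorem welH_mul (i j : ZMod (p ^ K.b)) : K.welH i * K.welH j = K.welH (i + j) := by
  simp only [welH, ← map_mul, K.wel_mul]

theorem welH_zero : K.welH 0 = K.epsH := by rw [welH, K.wel_zero, epsH]

theorem epsH_mul_welH (j : ZMod (p ^ K.b)) : K.epsH * K.welH j = K.welH j := by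
  rw [← K.welH_zero, K.welH_mul, zero_add]

theorem welH_mul_epsH (j : ZMod (p ^ K.b)) : K.welH j * K.epsH = K.welH j := by
  rw [← K.welH_zero, K.welH_mul, add_zero]

theorem welH_one_pow (n : ℕ) : K.welH 1 ^ n * K.epsH = K.welH n := by
  induction n with
  | zero => rw [pow_zero, one_mul, Nat.cast_zero, K.welH_zero]
  | succ n ih => rw [pow_succ', mul_assoc, ih, K.welH_mul, Nat.cast_succ, add_comm]

theorem welH_one_pow_val (i : ZMod (p ^ K.b)) : K.welH 1 ^ i.val * K.epsH = K.welH i := by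
  rw [K.welH_one_pow, ZMod.natCast_zmod_val]

/-- The corner is spanned by the image of the defect group. -/
theorem exists_expandH (a : MonoidAlgebra (Block.ResF M) K.C1) :
    ∃ c : ZMod (p ^ K.b) → Block.ResF M,
      K.epsH * incl K.C1 a * K.epsH = ∑ i, c i • K.welH i := by
  obtain ⟨a', rfl⟩ := Brauer.ProjVec.toF_surjective (M := M) a
  obtain ⟨c, hc, -⟩ := K.exists_expand a'
  refine ⟨fun i => Block.red M (c i), ?_⟩
  rw [epsH, ← map_mul, ← map_mul, ← map_mul, ← map_mul, hc, map_sum, map_sum]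
  refine Finset.sum_congr rfl fun i _ => ?_
  rw [Block.mapR_smul, welH]
  exact MonoidAlgebra.mapDomain_smul _ _ _

/-- The values on the socle. -/
theorem exists_expand_theta (z : MonoidAlgebra (Block.localRing M) K.C1) (s : K.C1) :
    ∃ c : ZMod (p ^ K.b) → Block.localRing M,
      K.eps * (z * single s⁻¹ 1) * K.eps = ∑ i, c i • K.wel i ∧
      ∑ i, c i = ((K.eps * z) * K.theta).coeff s := by
  obtain ⟨c, hc, hsum⟩ := K.exists_expand (z * single s⁻¹ 1)
  refine ⟨c, hc, Subtype.ext (hsum.trans ?_)⟩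
  rw [map_mul (toC M), map_mul (toC M),
    CharAlg.charLin_mul_comm (Char.isCharacter_of_irr K.θ₀.2), ← mul_assoc, K.toC_eps_mul_self,
    ← map_mul, ← mul_assoc, Block.charLin_eq_sum]
  rw [Block.coeff_mul_sum (K.eps * z) K.theta, AddSubmonoidClass.coe_finsetSum]
  simp only [Block.coeff_mapR, MonoidAlgebra.coeff_mul_single_apply, mul_one, inv_inv,
    Subring.coe_subtype]
  refine Fintype.sum_equiv (Equiv.mulRight s) _ _ fun g => ?_
  rw [Equiv.coe_mulRight, Subring.coe_mul, theta, Block.coeff_ofFn]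
  show _ = _ * (K.θ₀ : K.C1 → ℂ) (((g * s)⁻¹ * s)⁻¹)
  refine congrArg (_ * ·) ?_
  have h := Char.irr_isClassFunction K.θ₀.2 g s⁻¹
  rw [← h]
  congr 1
  group

/-- An element with trace equal to the block idempotent. -/
theorem exists_trace_one : ∃ u : MonoidAlgebra (Block.ResF M) K.C1,
    (∀ d ∈ K.loc.P, Commute (MonoidAlgebra.of (Block.ResF M) K.C1 d) u) ∧
      RelTrace.rTr (RelTrace.conjAct (MonoidAlgebra.of (Block.ResF M) K.C1)) K.loc.P u =
        idemF M K.loc.B.1 := by
  obtain ⟨S⟩ := K.loc.nonempty_src K.θ₀_mem (K.height_zero K.θ₀_mem)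
  set f : K.C1 →* MonoidAlgebra (Block.localRing M) K.C1 :=
    MonoidAlgebra.of (Block.localRing M) K.C1 with hf
  have hcomm : ∀ d ∈ K.loc.P, f d * S.i = S.i * f d := fun d hd =>
    commute_single_of_fixed (S.fixed.mono (Subgroup.zpowers_le.2 hd)) 1
  have hfix : RelTrace.FixedBy (RelTrace.conjAct f) K.loc.P S.i :=
    RelTrace.fixedBy_of_commute hcomm
  set W := RelTrace.rTr (RelTrace.conjAct f) K.loc.P S.i with hW
  have hWc : Block.IsCentralElt W := Block.isCentralElt_of_commute fun g => by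
    show Commute W (single g 1)
    exact (RelTrace.commute_rTr hfix g).symm
  haveI := Fintype.ofFinite (K.C1 ⧸ K.loc.P)
  set m := Nat.card (K.C1 ⧸ K.loc.P) with hm
  have hmq : m * p ^ K.b = Nat.card K.C1 := by
    rw [hm, ← K.card_P, ← Subgroup.card_eq_card_quotient_mul_card_subgroup]
  set F₀ := K.loc.F S.i (K.θ₀ : K.C1 → ℂ) (K.pt 0) with hF₀
  have hWval : charLin (K.θ₀ : K.C1 → ℂ) (toC M W) = (m : ℂ) * F₀ := by
    rw [hW, RelTrace.rTr_eq_sum, map_sum, map_sum, hm, Nat.card_eq_fintype_card,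
      ← Finset.card_univ, ← nsmul_eq_mul, ← Finset.sum_const]
    refine Finset.sum_congr rfl fun c _ => ?_
    rw [RelTrace.conjAct_apply, map_mul, CharAlg.charLin_mul_comm (Char.isCharacter_of_irr K.θ₀.2),
      ← map_mul, ← mul_assoc, ← map_mul f, inv_mul_cancel, map_one, one_mul, hF₀, NilData.F,
      K.pt_zero]
    congr 2
    simp [hf, ← MonoidAlgebra.one_def]
  have hFm : MemLocalRing M F₀ := Block.memLocalRing_of_isIntegral
    (Char.isCharacter_isIntegral (K.loc.isCharacter_F S.idem S.fixed K.θ₀) _)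
  have hFu : ¬ MemLocalIdeal M F₀ := K.loc.F_unit S _
  obtain ⟨hθ, hθ0⟩ := BlockVal.irr_one_eq_charDegree K.θ₀
  have hm0 : m ≠ 0 := fun h => Nat.card_pos.ne' (hmq.symm.trans (by rw [h, zero_mul]))
  have hfac : (charDegree (K.θ₀ : K.C1 → ℂ)).factorization p = m.factorization p := by
    have h := congrArg (fun n => n.factorization p) hmq
    simp only [Nat.factorization_mul hm0 (pow_ne_zero _ hp.out.ne_zero), Finsupp.add_apply,
      hp.out.factorization_pow, Finsupp.single_eq_same] at h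
    have := K.factorization_card_C1
    omega
  have hlam : Block.lam M (K.θ₀ : K.C1 → ℂ) (toF M W) ≠ 0 := by
    rw [Block.lam_toF K.θ₀.2 hWc]
    intro h0
    have h1 := (Block.redC_eq_zero_iff (Block.omega_toC_memLocalRing K.θ₀.2 hWc)).1 h0
    refine hFu ?_
    have h2 : F₀ = (K.θ₀ : K.C1 → ℂ) 1 / (m : ℂ) *
        Block.omega (K.θ₀ : K.C1 → ℂ) (toC M W) := by
      rw [Block.omega_apply, hWval]
      have := Char.irr_one_ne_zero K.θ₀.2
      have : (m : ℂ) ≠ 0 := Nat.cast_ne_zero.2 hm0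
      field_simp
    rw [h2]
    refine Block.memLocalIdeal_mul_left ?_ h1
    rw [hθ]
    exact (Block.memLocalRing_natCast_div_iff K.isPModular hθ0 hm0).2 hfac.ge
  obtain ⟨w, hw, hwe⟩ := Block.exists_idemF_mul_eq K.loc.B.2 K.θ₀_mem (hWc.mapR _) hlam
  set z := idemF M K.loc.B.1 * w
  have hz : Block.IsCentralElt z := (Block.idemF_isCentralElt _).mul hw
  have hmap : (((toF M : MonoidAlgebra (Block.localRing M) K.C1 →+*
        MonoidAlgebra (Block.ResF M) K.C1) : MonoidAlgebra (Block.localRing M) K.C1 →*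
        MonoidAlgebra (Block.ResF M) K.C1).comp f) =
      MonoidAlgebra.of (Block.ResF M) K.C1 := MonoidHom.ext fun g => by simp [hf]
  refine ⟨toF M S.i * z, fun d hd => ?_, ?_⟩
  · refine Commute.mul_right ?_ (Block.isCentralElt_commute hz _).symm
    rw [← hmap]
    rw [Commute, SemiconjBy, MonoidHom.comp_apply, MonoidHom.coe_coe, ← map_mul, ← map_mul,
      hcomm d hd]
  · rw [RelTrace.rTr_mul _ _ _ fun g => (Block.isCentralElt_commute hz _).symm]
    have h := RelTrace.map_rTr (toF M) f K.loc.P S.i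
    rw [hmap] at h
    rw [← h, ← hW]
    show toF M W * (idemF M K.loc.B.1 * w) = _
    rw [← mul_assoc, ← Block.isCentralElt_commute (Block.idemF_isCentralElt (M := M) K.loc.B.1)
      (toF M W), ← hwe]

/-- The multiplier homomorphism of the inertial group. -/
noncomputable def multHom : K.T →* (ZMod (p ^ K.b))ˣ where
  toFun t := (K.exists_mul t.2).choose
  map_one' := Units.ext (K.el_injective (by
    have h := (K.exists_mul (1 : K.T).2).choose_spec 1
    rw [mul_one] at h
    refine h.symm.trans ?_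
    simp))
  map_mul' a b := Units.ext (K.el_injective (by
    have h := (K.exists_mul (a * b).2).choose_spec 1
    rw [mul_one] at h
    refine h.symm.trans ?_
    show (a : H) * b * K.el 1 * ((a : H) * b)⁻¹ = _
    rw [show (a : H) * b * K.el 1 * ((a : H) * b)⁻¹ = a * (b * K.el 1 * (b : H)⁻¹) * (a : H)⁻¹ by
      group, (K.exists_mul b.2).choose_spec 1, (K.exists_mul a.2).choose_spec, Units.val_mul,
      mul_one]))

theorem multHom_spec (t : K.T) (j : ZMod (p ^ K.b)) :
    (t : H) * K.el j * (t : H)⁻¹ = K.el ((K.multHom t : ZMod (p ^ K.b)) * j) :=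
  (K.exists_mul t.2).choose_spec j

theorem multHom_range : K.multHom.range = K.E := by
  ext r
  constructor
  · rintro ⟨t, rfl⟩
    exact ⟨t, t.2, K.multHom_spec t⟩
  · rintro ⟨t, ht, htj⟩
    refine ⟨⟨t, ht⟩, Units.ext (K.el_injective ?_)⟩
    have h1 := K.multHom_spec ⟨t, ht⟩ 1
    rw [htj 1, mul_one, mul_one] at h1
    exact h1.symm

theorem multHom_eq_one_iff (t : K.T) :
    K.multHom t = 1 ↔ (t : H) ∈ Subgroup.centralizer (Subgroup.zpowers K.x : Set H) := by
  constructor
  · intro h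
    refine K.fix_centralizes t.2 (j := 1) ?_ ?_
    · haveI : Fact (1 < p ^ K.b) := ⟨K.one_lt⟩
      exact one_ne_zero
    · rw [K.multHom_spec, h, Units.val_one, one_mul]
  · intro h
    refine Units.ext (K.el_injective ?_)
    have h1 := K.multHom_spec t 1
    rw [mul_one] at h1
    rw [← h1, Units.val_one, ← Subgroup.mem_centralizer_iff.1 h _ (K.el_mem 1),
      mul_inv_cancel_right]

theorem relIndex_eq_card_E :
    (Subgroup.centralizer (Subgroup.zpowers K.x : Set H)).relIndex K.T = Nat.card K.E := by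
  rw [← K.multHom_range, Subgroup.relIndex, ← Subgroup.index_ker]
  congr 1
  ext t
  rw [Subgroup.mem_subgroupOf, MonoidHom.mem_ker, K.multHom_eq_one_iff]

theorem card_E_dvd : Nat.card K.E ∣ p - 1 := by
  haveI := K.normal_centralizer
  rw [← K.relIndex_eq_card_E]
  exact (CyclicAct.isCyclic_quotient K.isPGroup (fun h => K.z_ne_one
    (Subgroup.mem_bot.1 (h ▸ K.el_mem _))) K.T_le K.not_dvd_relIndex).2

theorem not_dvd_card_E : ¬ p ∣ Nat.card K.E := fun h => by
  have h1 := Nat.le_of_dvd (Nat.sub_pos_of_lt hp.out.one_lt) (h.trans K.card_E_dvd)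
  have := hp.out.pos
  omega

theorem zpowers_conj_z {t : H} (ht : t ∈ K.T) :
    Subgroup.zpowers (t * K.z * t⁻¹) = Subgroup.zpowers K.z := by
  obtain ⟨r, hr⟩ := K.exists_mul ht
  refine Subgroup.eq_of_le_of_card_ge (Subgroup.zpowers_le.2 ?_) ?_
  · rw [z, hr, show (r : ZMod (p ^ K.b)) * ((p ^ (K.b - 1) : ℕ) : ZMod (p ^ K.b)) =
      (((r : ZMod (p ^ K.b)).val : ℕ) : ZMod (p ^ K.b)) * ((p ^ (K.b - 1) : ℕ) : ZMod (p ^ K.b))
        by rw [ZMod.natCast_zmod_val], ← K.el_pow]
    exact Subgroup.npow_mem_zpowers _ _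
  · rw [Nat.card_zpowers, Nat.card_zpowers]
    exact le_of_eq (MulEquiv.orderOf_eq (MulAut.conj t) K.z).symm

theorem cj_idemH {t : H} (ht : t ∈ K.T) : cj t K.idemH = K.idemH := by
  have hz : K.z ∈ Subgroup.zpowers K.x := K.el_mem _
  have hc := K.cjRel_pr ht hz
  rw [← K.eq_pr ((Subgroup.mem_normalizer_iff.1 (K.T_le ht) K.z).1 hz)
    (a := ⟨Subgroup.zpowers K.z, K.loc.B⟩) (by rw [K.loc_block]; exact K.pr_sle _)
    (K.zpowers_conj_z ht).symm, ← K.loc_block] at hc
  exact hc.2.symm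

/-- Conjugation on the algebra of the centralizer. -/
noncomputable def conjC1 {t : H} (ht : t ∈ K.T) :
    MonoidAlgebra (Block.ResF M) K.C1 ≃ₐ[Block.ResF M] MonoidAlgebra (Block.ResF M) K.C1 :=
  MonoidAlgebra.domCongr (Block.ResF M) (Block.ResF M)
    (conjEquiv t (map_conj_of_mem_normalizer (K.T_le_normalizer_C1 ht)))

theorem incl_conjC1 {t : H} (ht : t ∈ K.T) (a : MonoidAlgebra (Block.ResF M) K.C1) :
    incl K.C1 (K.conjC1 ht a) = single t 1 * incl K.C1 a * single t⁻¹ 1 := by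
  rw [← cj_eq_mul]
  induction a using MonoidAlgebra.induction_linear with
  | zero => simp
  | add a b ha hb => simp only [map_add, ha, hb]
  | single g c => simp [conjC1, cj, incl, conjEquiv]

theorem single_mul_incl {t : H} (ht : t ∈ K.T) (a : MonoidAlgebra (Block.ResF M) K.C1) :
    single t 1 * incl K.C1 a = incl K.C1 (K.conjC1 ht a) * single t (1 : Block.ResF M) := by
  rw [K.incl_conjC1 ht, mul_assoc, single_mul_single, inv_mul_cancel, mul_one, ← one_def, mul_one]

/-- The element of the corner acting as a generator of the inertial quotient. -/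
theorem exists_tau : ∃ t ∈ K.T, ∃ τ : MonoidAlgebra (Block.ResF M) H,
    K.epsH * τ = τ ∧ τ * K.epsH = τ ∧ τ ^ Nat.card K.E = K.epsH ∧
    (∀ n : ℕ, 1 ≤ n → ∃ a : MonoidAlgebra (Block.ResF M) K.C1,
      τ ^ n = incl K.C1 a * single (t ^ n) 1) ∧
    (∀ t' ∈ K.T, ∃ n < Nat.card K.E,
      (t ^ n)⁻¹ * t' ∈ Subgroup.centralizer (Subgroup.zpowers K.x : Set H)) ∧
    ∀ n : ℕ, 0 < n → n < Nat.card K.E → t ^ n ∉ K.C1 := by
  haveI : IsAlgClosed (Block.ResF M) := Brauer.isAlgClosed_resF K.isPModular.2.1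
  haveI : Fact (1 < p ^ K.b) := ⟨K.one_lt⟩
  haveI := K.normal_centralizer
  obtain ⟨hcyc, -⟩ := CyclicAct.isCyclic_quotient K.isPGroup (fun h => K.z_ne_one
    (Subgroup.mem_bot.1 (h ▸ K.el_mem _))) K.T_le K.not_dvd_relIndex
  obtain ⟨n₀, hn₀⟩ := IsCyclic.exists_generator
    (α := K.T ⧸ (Subgroup.centralizer (Subgroup.zpowers K.x : Set H)).subgroupOf K.T)
  obtain ⟨t0, rfl⟩ := QuotientGroup.mk_surjective n₀
  set e := Nat.card K.E with he
  have hker : ∀ s : K.T, s ∈ (Subgroup.centralizer (Subgroup.zpowers K.x : Set H)).subgroupOf K.T →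
      K.multHom s = 1 := fun s hs => (K.multHom_eq_one_iff s).2 (Subgroup.mem_subgroupOf.1 hs)
  have hgen0 : ∀ r ∈ K.E, r ∈ Subgroup.zpowers (K.multHom t0) := by
    intro r hr
    rw [← K.multHom_range] at hr
    obtain ⟨s, rfl⟩ := hr
    obtain ⟨k, hk⟩ := Subgroup.mem_zpowers_iff.1 (hn₀ (QuotientGroup.mk s))
    rw [← QuotientGroup.mk_zpow, QuotientGroup.eq] at hk
    refine Subgroup.mem_zpowers_iff.2 ⟨k, ?_⟩
    have h1 := hker _ hk
    rw [map_mul, map_inv, map_zpow, inv_mul_eq_one] at h1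
    exact h1
  have hE : Subgroup.zpowers (K.multHom t0) = K.E := le_antisymm
    (Subgroup.zpowers_le.2 (K.multHom_range ▸ ⟨t0, rfl⟩)) hgen0
  have horder : orderOf (K.multHom t0) = e := by rw [he, ← hE, Nat.card_zpowers]
  set q := p ^ K.b with hq
  set t : K.T := t0 ^ q with ht
  have hcop : Nat.Coprime e q :=
    ((hp.out.coprime_iff_not_dvd.2 K.not_dvd_card_E).symm).pow_right _
  have hordt : orderOf (K.multHom t) = e := by
    rw [ht, map_pow, Nat.Coprime.orderOf_pow (by rw [horder]; exact hcop), horder]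
  have hEt : Subgroup.zpowers (K.multHom t) = K.E := by
    refine Subgroup.eq_of_le_of_card_ge (Subgroup.zpowers_le.2 (K.multHom_range ▸ ⟨t, rfl⟩)) ?_
    rw [Nat.card_zpowers, hordt]
  have he0 : 0 < e := Nat.card_pos
  -- the first element
  set ε' := K.conjC1 t0.2 (toF M K.eps) with hε'
  have hprim : Brauer.PrimIdem.IsPrim ε' := by
    obtain ⟨h1, h2, h3⟩ := K.eps_prim
    refine ⟨h1.map _, fun h => h2 ((K.conjC1 t0.2).injective (by rw [map_zero]; exact h)),
      fun g hg hgb => ?_⟩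
    have h4 := h3 ((K.conjC1 t0.2).symm g) (hg.map _)
      ⟨(K.conjC1 t0.2).injective (by rw [map_mul, AlgEquiv.apply_symm_apply]; exact hgb.1),
       (K.conjC1 t0.2).injective (by rw [map_mul, AlgEquiv.apply_symm_apply]; exact hgb.2)⟩
    refine h4.imp (fun h => ?_) fun h => ?_
    · rw [← (K.conjC1 t0.2).apply_symm_apply g, h, map_zero]
    · rw [← (K.conjC1 t0.2).apply_symm_apply g, h]
  have hbelow : Brauer.PrimIdem.Below ε' (idemF M K.loc.B.1) := by
    have e1 : K.conjC1 t0.2 (idemF M K.loc.B.1) = idemF M K.loc.B.1 :=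
      Block.incl_injective K.C1 (by
        rw [K.incl_conjC1, ← cj_eq_mul]
        exact K.cj_idemH t0.2)
    constructor
    · rw [← e1, hε', ← map_mul, K.idemF_mul_eps]
    · rw [← e1, hε', ← map_mul, K.eps_mul_idemF]
  obtain ⟨x, y, hx, hy, hxy, hyx⟩ := K.equivalent_eps hprim hbelow
  have hye : y * ε' = y := by
    rw [← hy, mul_assoc _ ε' ε', hprim.1.eq]
  have hey : toF M K.eps * y = y := by
    rw [← hy, ← mul_assoc, ← mul_assoc, K.eps_prim.1.eq]
  have hxe : x * toF M K.eps = x := by rw [← hx, mul_assoc _ (toF M K.eps), K.eps_prim.1.eq]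
  set τ0 := incl K.C1 y * single (t0 : H) (1 : Block.ResF M) with hτ0
  set σ0 := single (t0 : H)⁻¹ (1 : Block.ResF M) * incl K.C1 x with hσ0
  have hετ : K.epsH * τ0 = τ0 := by rw [hτ0, ← mul_assoc, epsH, ← map_mul, hey]
  have hτε : τ0 * K.epsH = τ0 := by
    rw [hτ0, mul_assoc, epsH, K.single_mul_incl t0.2, ← mul_assoc, ← map_mul]
    rw [hye]
  have hτσ : τ0 * σ0 = K.epsH := by
    rw [hτ0, hσ0, ← mul_assoc, mul_assoc (incl K.C1 y), single_mul_single, mul_inv_cancel, mul_one,
      ← one_def, mul_one, ← map_mul, hyx, epsH]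
  have hσε : σ0 * K.epsH = σ0 := by rw [hσ0, mul_assoc, epsH, ← map_mul, hxe]
  have hpowσ : ∀ n, 1 ≤ n → τ0 ^ n * σ0 ^ n = K.epsH := by
    intro n hn
    induction n, hn using Nat.le_induction with
    | base => rw [pow_one, pow_one, hτσ]
    | succ n hn ih =>
      obtain ⟨n', rfl⟩ := Nat.exists_eq_succ_of_ne_zero (show n ≠ 0 by omega)
      rw [pow_succ, pow_succ' σ0, ← mul_assoc, mul_assoc (τ0 ^ _) τ0 σ0, hτσ, pow_succ τ0 n',
        mul_assoc (τ0 ^ n'), hτε, ← pow_succ, ih]
  have hform : ∀ n, 1 ≤ n → ∃ a : MonoidAlgebra (Block.ResF M) K.C1,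
      τ0 ^ n = incl K.C1 a * single ((t0 : H) ^ n) 1 := by
    intro n hn
    induction n, hn using Nat.le_induction with
    | base => exact ⟨y, by rw [pow_one, pow_one, hτ0]⟩
    | succ n hn ih =>
      obtain ⟨a, ha⟩ := ih
      refine ⟨y * K.conjC1 t0.2 a, ?_⟩
      rw [pow_succ' τ0, ha, hτ0, mul_assoc (incl K.C1 y), ← mul_assoc (single (t0 : H) 1),
        K.single_mul_incl t0.2, mul_assoc (incl K.C1 (K.conjC1 t0.2 a)), single_mul_single,
        one_mul, ← mul_assoc, ← map_mul, pow_succ']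
  have heps_pow : ∀ n, K.epsH * τ0 ^ (n + 1) = τ0 ^ (n + 1) ∧
      τ0 ^ (n + 1) * K.epsH = τ0 ^ (n + 1) := fun n =>
    ⟨by rw [pow_succ', ← mul_assoc, hετ], by rw [pow_succ, mul_assoc, hτε]⟩
  -- the power in the corner
  have hte : (t0 : H) ^ e ∈ K.C1 := by
    have h1 : K.multHom (t0 ^ e) = 1 := by rw [map_pow, ← horder, pow_orderOf_eq_one]
    have h2 := (K.multHom_eq_one_iff _).1 h1
    rw [SubgroupClass.coe_pow] at h2
    exact centralizer_anti (Subgroup.zpowers_le.2 (K.el_mem _)) h2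
  obtain ⟨a, ha⟩ := hform e he0
  obtain ⟨e', he'⟩ := Nat.exists_eq_succ_of_ne_zero he0.ne'
  have hcorner : τ0 ^ e = K.epsH * incl K.C1 (a * single ⟨_, hte⟩ 1) * K.epsH := by
    rw [map_mul, show incl K.C1 (single (⟨_, hte⟩ : K.C1) (1 : Block.ResF M)) =
      single ((t0 : H) ^ e) 1 by simp [incl], ← ha, he', (heps_pow e').1, (heps_pow e').2]
  obtain ⟨c, hc⟩ := K.exists_expandH (a * single ⟨_, hte⟩ 1)
  rw [← hcorner] at hc
  -- the power of the corner element
  set Q : Polynomial (Block.ResF M) := ∑ i, Polynomial.C (c i) * Polynomial.X ^ (i : ZMod q).val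
  have hQ : τ0 ^ e = Polynomial.aeval (K.welH 1) Q * K.epsH := by
    rw [hc, map_sum, Finset.sum_mul]
    refine Finset.sum_congr rfl fun i _ => ?_
    rw [map_mul, Polynomial.aeval_C, map_pow, Polynomial.aeval_X, ← Algebra.smul_def,
      smul_mul_assoc, K.welH_one_pow_val]
  have hEw : Commute K.epsH (K.welH 1) := by
    rw [Commute, SemiconjBy, K.epsH_mul_welH, K.welH_mul_epsH]
  have hEQ : ∀ R : Polynomial (Block.ResF M), Commute K.epsH (Polynomial.aeval (K.welH 1) R) := by
    intro R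
    induction R using Polynomial.induction_on' with
    | add a b ha hb => rw [map_add]; exact ha.add_right hb
    | monomial i a =>
      rw [Polynomial.aeval_monomial]
      exact Commute.mul_right (Algebra.commutes a K.epsH).symm (hEw.pow_right i)
  set γ : Block.ResF M := (∑ i, c i) ^ q
  have hγ : τ0 ^ (e * q) = γ • K.epsH := by
    rw [pow_mul, hQ, (hEQ Q).symm.mul_pow, IsIdempotentElem.pow_eq (K.epsH_mul_self)
      (pow_ne_zero _ hp.out.ne_zero), ← map_pow, hq, sum_pow_char_pow, map_sum, Finset.sum_mul]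
    simp only [γ, hq, sum_pow_char_pow, Finset.sum_smul]
    refine Finset.sum_congr rfl fun i _ => ?_
    rw [mul_pow, ← map_pow, map_mul, Polynomial.aeval_C, ← pow_mul,
      map_pow (Polynomial.aeval (K.welH 1)), Polynomial.aeval_X, ← Algebra.smul_def, smul_mul_assoc, K.welH_one_pow, Nat.cast_mul, ZMod.natCast_self,
      mul_zero, K.welH_zero]
  have hγ0 : γ ≠ 0 := by
    intro h0
    have h1 := hpowσ (e * q) (Nat.mul_pos he0 (pow_pos hp.out.pos _))
    rw [hγ, h0, zero_smul, zero_mul] at h1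
    exact K.epsH_ne_zero h1.symm
  obtain ⟨l, hl⟩ := IsAlgClosed.exists_pow_nat_eq γ⁻¹ he0
  obtain ⟨q', hq'⟩ := Nat.exists_eq_succ_of_ne_zero (pow_ne_zero K.b hp.out.ne_zero)
  refine ⟨t, t.2, l • τ0 ^ q, ?_, ?_, ?_, fun n hn => ?_, fun t' ht' => ?_, fun n hn0 hn => ?_⟩
  · rw [mul_smul_comm, hq, hq', (heps_pow q').1]
  · rw [smul_mul_assoc, hq, hq', (heps_pow q').2]
  · rw [smul_pow, ← pow_mul, mul_comm q e, hγ, smul_smul, hl, inv_mul_cancel₀ hγ0, one_smul]
  · obtain ⟨a, ha⟩ := hform (q * n) (Nat.mul_pos (pow_pos hp.out.pos _) hn)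
    refine ⟨l ^ n • a, ?_⟩
    rw [smul_pow, ← pow_mul, ha, ← smul_mul_assoc, ht, SubgroupClass.coe_pow, ← pow_mul]
    congr 1
    exact (MonoidAlgebra.mapDomain_smul _ _ _).symm
  · have h1 : K.multHom ⟨t', ht'⟩ ∈ Subgroup.zpowers (K.multHom t) := by
      rw [hEt, ← K.multHom_range]; exact ⟨_, rfl⟩
    obtain ⟨n, hn, h⟩ := (IsOfFinOrder.mem_zpowers_iff_mem_range_orderOf
      (isOfFinOrder_of_finite _)).1 h1 |> Finset.mem_image.1
    refine ⟨n, by rw [← hordt]; exact Finset.mem_range.1 hn, ?_⟩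
    have h2 : K.multHom ((t ^ n)⁻¹ * ⟨t', ht'⟩) = 1 := by
      rw [map_mul, map_inv, map_pow, h, inv_mul_cancel]
    have h3 := (K.multHom_eq_one_iff _).1 h2
    simpa using h3
  · intro hC
    have hz0 : ((p ^ (K.b - 1) : ℕ) : ZMod (p ^ K.b)) ≠ 0 := fun h =>
      K.z_ne_one (by rw [z, h, el_zero])
    have hfix : (t : H) ^ n * K.z * ((t : H) ^ n)⁻¹ = K.z := by
      rw [← Subgroup.mem_centralizer_iff.1 hC K.z (Subgroup.mem_zpowers _), mul_inv_cancel_right]
    have h1 := K.fix_centralizes (K.T.pow_mem t.2 n) hz0 hfix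
    have h2 : K.multHom (t ^ n) = 1 :=
      (K.multHom_eq_one_iff _).2 (by rw [SubgroupClass.coe_pow]; exact h1)
    rw [map_pow, ← orderOf_dvd_iff_pow_eq_one, hordt] at h2
    exact absurd (Nat.le_of_dvd hn0 h2) (by omega)

end CycData

end Cfsg.Agent.BlockCount
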