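import Cfsg.Agent.Block.Idempotent
import Mathlib.RingTheory.Algebraic.Integral
import Mathlib.RingTheory.Polynomial.Content
import Mathlib.RingTheory.Localization.Integral
import Mathlib.LinearAlgebra.Dimension.Finrank
import Mathlib.LinearAlgebra.FiniteDimensional.Lemmas
import Mathlib.LinearAlgebra.Matrix.NonsingularInverse
import Mathlib.LinearAlgebra.Dual.Lemmas
import Mathlib.FieldTheory.AlgebraicClosure

/-!
The local integers among the algebraic numbers form a valuation ring; dimensions of reductions of
sets of integral vectors.
-/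

set_option autoImplicit false
set_option linter.style.haveILetI false
set_option linter.unusedSectionVars false

namespace Cfsg.Agent.BlockCount

open Cfsg Cfsg.Agent.Block

variable {M : Ideal AlgInt} [M.IsPrime]

/-- A root of a polynomial which is not zero modulo the ideal, or its inverse, is a local
integer. -/
theorem memLocalRing_or_inv_of_relation {x : ℂ} (n : ℕ) (a : ℕ → AlgInt)
    (h0 : ∑ i ∈ Finset.range (n + 1), (a i : ℂ) * x ^ i = 0)
    (hne : ∃ i ≤ n, a i ∉ M) : MemLocalRing M x ∨ MemLocalRing M x⁻¹ := by
  classical
  induction n generalizing a with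
  | zero =>
    obtain ⟨i, hi, hia⟩ := hne
    obtain rfl := Nat.le_zero.1 hi
    simp only [zero_add, Finset.sum_range_one, pow_zero, mul_one] at h0
    exact absurd (by rw [show a 0 = 0 from Subtype.ext h0]; exact M.zero_mem) hia
  | succ n ih =>
    have hint : IsIntegral ℤ ((a (n + 1) : ℂ) * x) := by
      by_cases ha : a (n + 1) = 0
      · rw [ha]; simpa using isIntegral_zero
      set P : Polynomial AlgInt := ∑ i ∈ Finset.range (n + 2), Polynomial.monomial i (a i) with hP
      have hc : P.coeff (n + 1) = a (n + 1) := by
        rw [hP, Polynomial.finsetSum_coeff, Finset.sum_eq_single (n + 1)]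
        · rw [Polynomial.coeff_monomial, if_pos rfl]
        · intro i _ hi
          rw [Polynomial.coeff_monomial, if_neg hi]
        · intro h
          exact absurd (Finset.mem_range.2 (by omega)) h
      have hdeg : P.natDegree = n + 1 := by
        refine le_antisymm (Polynomial.natDegree_sum_le_of_forall_le _ _ fun i hi =>
          (Polynomial.natDegree_monomial_le (a i)).trans (by have := Finset.mem_range.1 hi; omega))
          (Polynomial.le_natDegree_of_ne_zero (by rwa [hc]))
      have heval : Polynomial.aeval x P = 0 := by
        rw [hP, map_sum, ← h0]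
        refine Finset.sum_congr rfl fun i _ => ?_
        rw [Polynomial.aeval_monomial]
        rfl
      have h1 := isIntegral_leadingCoeff_smul P x heval
      rw [Polynomial.leadingCoeff, hdeg, hc] at h1
      haveI : Algebra.IsIntegral ℤ AlgInt := IsIntegralClosure.isIntegral_algebra ℤ ℂ
      have h2 : a (n + 1) • x = (a (n + 1) : ℂ) * x := rfl
      exact h2 ▸ isIntegral_trans (R := ℤ) (A := AlgInt) _ h1
    set c : AlgInt := ⟨(a (n + 1) : ℂ) * x, hint⟩ with hc
    by_cases han : a (n + 1) ∈ M
    swap
    · left
      have hb : (a (n + 1) : ℂ) ≠ 0 := fun h => han (by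
        rw [show a (n + 1) = 0 from Subtype.ext h]; exact M.zero_mem)
      exact ⟨c, a (n + 1), han, by rw [hc]; exact mul_div_cancel_left₀ _ hb⟩
    by_cases hcM : c ∈ M
    swap
    · right
      have hc0 : (c : ℂ) ≠ 0 := fun h => hcM (by
        rw [show c = 0 from Subtype.ext h]; exact M.zero_mem)
      have ha0 : (a (n + 1) : ℂ) ≠ 0 := fun h => hc0 (by rw [hc]; simp [h])
      refine ⟨a (n + 1), c, hcM, ?_⟩
      rw [hc]
      show (a (n + 1) : ℂ) / ((a (n + 1) : ℂ) * x) = x⁻¹
      rw [div_mul_cancel_left₀ ha0]
    refine ih (fun i => if i = n then c + a n else a i) ?_ ?_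
    · rw [Finset.sum_range_succ, if_pos rfl]
      rw [Finset.sum_range_succ, Finset.sum_range_succ] at h0
      rw [Finset.sum_congr rfl fun i hi => by rw [if_neg (Finset.mem_range.1 hi).ne]]
      rw [← h0, hc]
      push_cast
      ring
    · obtain ⟨i, hi, hia⟩ := hne
      rcases eq_or_lt_of_le hi with rfl | hlt
      · exact absurd han hia
      refine ⟨i, by omega, ?_⟩
      by_cases hin : i = n
      · subst hin
        rw [if_pos rfl]
        exact fun h => hia (by simpa using M.sub_mem h hcM)
      · rwa [if_neg hin]

/-- An algebraic number or its inverse is a local integer. -/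
theorem memLocalRing_or_inv {p : ℕ} (hM : IsPModular p M) {x : ℂ} (hx : IsAlgebraic ℚ x) :
    MemLocalRing M x ∨ MemLocalRing M x⁻¹ := by
  obtain ⟨f, hf0, hfx⟩ := (IsFractionRing.isAlgebraic_iff ℤ ℚ ℂ).2 hx
  have hg := f.isPrimitive_primPart
  have hgx : Polynomial.aeval x f.primPart = 0 := Polynomial.aeval_primPart_eq_zero hf0 hfx
  obtain ⟨i, hi⟩ : ∃ i, ¬ (p : ℤ) ∣ f.primPart.coeff i := by
    by_contra h
    push Not at h
    have hu := hg (p : ℤ) ((Polynomial.C_dvd_iff_dvd_coeff _ _).2 h)
    rw [Int.isUnit_iff_natAbs_eq, Int.natAbs_natCast] at hu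
    exact hM.1.ne_one hu
  refine memLocalRing_or_inv_of_relation f.primPart.natDegree
    (fun j => (f.primPart.coeff j : AlgInt)) ?_ ⟨i, ?_, ?_⟩
  · rw [← hgx, Polynomial.aeval_eq_sum_range]
    refine Finset.sum_congr rfl fun j _ => ?_
    simp [zsmul_eq_mul]
  · by_contra h
    exact hi (by rw [Polynomial.coeff_eq_zero_of_natDegree_lt (not_le.1 h)]; exact dvd_zero _)
  · exact fun h => hi ((intCast_mem_iff hM _).1 h)

theorem isAlgebraic_of_memLocalRing {x : ℂ} (hx : MemLocalRing M x) : IsAlgebraic ℚ x := by
  obtain ⟨a, b, -, rfl⟩ := hx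
  have h : ∀ c : AlgInt, IsAlgebraic ℚ (c : ℂ) := fun c =>
    (IsIntegral.tower_top (A := ℚ) (algInt_isIntegral c)).isAlgebraic
  rw [div_eq_mul_inv]
  exact (h a).mul (h b).inv

variable {ι : Type*} [Fintype ι]

/-- The integral vector with its residues. -/
noncomputable def redVec (M : Ideal AlgInt) [M.IsPrime] (v : ι → localRing M) : ι → ResF M :=
  fun i => red M (v i)

/-- The integral vector as a complex vector. -/
noncomputable def complexVec (v : ι → localRing M) : ι → ℂ := fun i => (v i : ℂ)

/-- Vectors independent after reduction are independent. -/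
theorem linearIndependent_of_red {κ : Type*} [Fintype κ] [DecidableEq κ]
    (v : κ → ι → localRing M) (h : LinearIndependent (ResF M) fun r => redVec M (v r)) :
    LinearIndependent ℂ fun r => complexVec (v r) := by
  classical
  -- a left inverse of the reduced matrix
  let A : (κ → ResF M) →ₗ[ResF M] (ι → ResF M) := Fintype.linearCombination (ResF M)
    fun r => redVec M (v r)
  have hA : LinearMap.ker A = ⊥ := by
    refine LinearMap.ker_eq_bot'.2 fun c hc => funext fun r => ?_
    exact Fintype.linearIndependent_iff.1 h c (by simpa [A, Fintype.linearCombination_apply] using hc) r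
  obtain ⟨B, hB⟩ := A.exists_leftInverse_of_injective hA
  choose lift hlift using fun c : ResF M => red_surjective (M := M) c
  let Bm : Matrix κ ι (localRing M) := Matrix.of fun r i => lift (B (Pi.single i 1) r)
  let Am : Matrix ι κ (localRing M) := Matrix.of fun i r => v r i
  have hmod : (Bm * Am).map (red M) = 1 := by
    ext r s
    have h1 := congrFun (LinearMap.congr_fun hB (Pi.single s 1)) r
    simp only [LinearMap.comp_apply, LinearMap.id_apply, A,
      Fintype.linearCombination_apply_single, one_smul] at h1
    rw [Matrix.map_apply, Matrix.mul_apply, map_sum, Matrix.one_apply]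
    simp only [map_mul, Bm, Am, Matrix.of_apply, hlift]
    rw [show (if r = s then (1 : ResF M) else 0) = (Pi.single s 1 : κ → ResF M) r by
      simp [Pi.single_apply], ← h1]
    conv_rhs => rw [show redVec M (v s) = ∑ i, redVec M (v s) i • (Pi.single i 1 : ι → ResF M) from
      funext fun t => by simp [Pi.single_apply], map_sum, Finset.sum_apply]
    refine Finset.sum_congr rfl fun i _ => ?_
    rw [map_smul, Pi.smul_apply, smul_eq_mul, mul_comm]
    rfl
  have hdet : IsUnit (Bm * Am).det := by
    rw [isUnit_iff_red_ne_zero, RingHom.map_det, RingHom.mapMatrix_apply, hmod, Matrix.det_one]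
    exact one_ne_zero
  rw [Fintype.linearIndependent_iff]
  intro c hc
  have hdetC : ((Bm * Am).map (localRing M).subtype).det ≠ 0 := by
    rw [← RingHom.mapMatrix_apply, ← RingHom.map_det]
    exact (hdet.map (localRing M).subtype).ne_zero
  have hAc : (Am.map (localRing M).subtype).mulVec c = 0 := by
    refine funext fun i => ?_
    have := congrFun hc i
    simp only [Finset.sum_apply, Pi.smul_apply, smul_eq_mul, Pi.zero_apply, complexVec] at this
    simp only [Matrix.mulVec, dotProduct, Matrix.map_apply, Am, Matrix.of_apply,
      Subring.coe_subtype, Pi.zero_apply]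
    rw [← this]
    exact Finset.sum_congr rfl fun r _ => mul_comm _ _
  have h2 : ((Bm * Am).map (localRing M).subtype).mulVec c = 0 := by
    rw [Matrix.map_mul, ← Matrix.mulVec_mulVec, hAc, Matrix.mulVec_zero]
  exact fun r => congrFun (Matrix.eq_zero_of_mulVec_eq_zero hdetC h2) r

/-- The span of the reductions is at most as large as the span. -/
theorem finrank_red_le (S : Set (ι → localRing M)) :
    Module.finrank (ResF M) (Submodule.span (ResF M) (redVec M '' S)) ≤
      Module.finrank ℂ (Submodule.span ℂ (complexVec '' S)) := by
  classical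
  obtain ⟨b, hb, hspan, hli⟩ := exists_linearIndependent (ResF M) (redVec M '' S)
  rw [← hspan]
  haveI : Finite b := Set.Finite.to_subtype hli.setFinite
  haveI := Fintype.ofFinite b
  choose v hvS hv using fun x : b => hb x.2
  rw [show Submodule.span (ResF M) b = Submodule.span (ResF M) (Set.range ((↑) : b → ι → ResF M))
    by rw [Subtype.range_coe], finrank_span_eq_card hli]
  have h2 := linearIndependent_of_red v (by simp only [hv]; exact hli)
  rw [← finrank_span_eq_card h2]
  refine Submodule.finrank_mono (Submodule.span_mono ?_)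
  rintro _ ⟨x, rfl⟩
  exact ⟨v x, hvS x, rfl⟩

/-- Entries algebraic over the rationals. -/
def IsAlgVec (v : ι → ℂ) : Prop := ∀ i, IsAlgebraic ℚ (v i)

/-- The reduction of the integral points of a subspace spanned by algebraic vectors is as large as
the subspace. -/
theorem le_finrank_red {p : ℕ} (hM : IsPModular p M) (K : Submodule ℂ (ι → ℂ)) (s : Set (ι → ℂ))
    (hs : ∀ v ∈ s, IsAlgVec v) (hK : K = Submodule.span ℂ s) :
    Module.finrank ℂ K ≤ Module.finrank (ResF M)
      (Submodule.span (ResF M) (redVec M '' {w : ι → localRing M | complexVec w ∈ K})) := by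
  classical
  induction hd : Module.finrank ℂ K using Nat.strong_induction_on generalizing K s with
  | _ d ih =>
  subst hd
  by_cases hz : ∀ v ∈ s, v = 0
  · rw [hK, Submodule.span_eq_bot.2 hz, finrank_bot]
    exact Nat.zero_le _
  push Not at hz
  obtain ⟨v, hvs, hv0⟩ := hz
  -- scale to an entry one and all entries integral
  have key : ∀ T : Finset ι, (∀ i ∈ T, v i = 0) ∨
      ∃ i ∈ T, v i ≠ 0 ∧ ∀ j ∈ T, MemLocalRing M (v j / v i) := by
    intro T
    induction T using Finset.induction with
    | empty => exact Or.inl (by simp)
    | @insert a T haT hT =>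
      rcases hT with hT | ⟨i, hiT, hi0, hi⟩
      · by_cases ha : v a = 0
        · exact Or.inl (fun i hi => (Finset.mem_insert.1 hi).elim (fun e => e ▸ ha) (hT i))
        · refine Or.inr ⟨a, Finset.mem_insert_self _ _, ha, fun j hj => ?_⟩
          rcases Finset.mem_insert.1 hj with rfl | hj
          · rw [div_self ha]; exact (localRing M).one_mem
          · rw [hT j hj, zero_div]; exact (localRing M).zero_mem
      · have halg : IsAlgebraic ℚ (v a / v i) := by
          rw [div_eq_mul_inv]
          exact (hs v hvs a).mul (hs v hvs i).inv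
        rcases memLocalRing_or_inv hM halg with h | h
        · refine Or.inr ⟨i, Finset.mem_insert_of_mem hiT, hi0, fun j hj => ?_⟩
          rcases Finset.mem_insert.1 hj with rfl | hj
          · exact h
          · exact hi j hj
        · by_cases ha : v a = 0
          · refine Or.inr ⟨i, Finset.mem_insert_of_mem hiT, hi0, fun j hj => ?_⟩
            rcases Finset.mem_insert.1 hj with rfl | hj
            · rw [ha, zero_div]; exact (localRing M).zero_mem
            · exact hi j hj
          · refine Or.inr ⟨a, Finset.mem_insert_self _ _, ha, fun j hj => ?_⟩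
            rcases Finset.mem_insert.1 hj with rfl | hj
            · rw [div_self ha]; exact (localRing M).one_mem
            · rw [inv_div] at h
              have h2 := (localRing M).mul_mem (hi j hj) h
              rwa [div_mul_div_cancel₀ hi0] at h2
  obtain ⟨i, -, hi0, hi⟩ := (key Finset.univ).resolve_left
    fun h => hv0 (funext fun j => h j (Finset.mem_univ _))
  set u : ι → localRing M := fun j => ⟨v j / v i, hi j (Finset.mem_univ _)⟩ with hu
  have huK : complexVec u ∈ K := by
    rw [show complexVec u = (v i)⁻¹ • v from funext fun j => by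
      simp [complexVec, u, div_eq_mul_inv, mul_comm], hK]
    exact Submodule.smul_mem _ _ (Submodule.subset_span hvs)
  have hui : u i = 1 := Subtype.ext (div_self hi0)
  set pr : (ι → ℂ) →ₗ[ℂ] (ι → ℂ) :=
    LinearMap.id - LinearMap.smulRight (LinearMap.proj i) (complexVec u) with hpr
  set s' : Set (ι → ℂ) := pr '' s with hs'
  set K' := Submodule.span ℂ s' with hK'
  have hpri : ∀ w, pr w i = 0 := fun w => by
    simp [hpr, complexVec, hui]
  have halg' : ∀ w ∈ s', IsAlgVec w := by
    rintro _ ⟨w, hw, rfl⟩ j
    simp only [hpr, LinearMap.sub_apply, LinearMap.id_apply, LinearMap.smulRight_apply,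
      LinearMap.proj_apply, Pi.sub_apply, Pi.smul_apply, smul_eq_mul]
    exact (hs w hw j).sub ((hs w hw i).mul (isAlgebraic_of_memLocalRing (u j).2))
  have hK'i : ∀ w ∈ K', w i = 0 := by
    intro w hw
    induction hw using Submodule.span_induction with
    | mem x hx => obtain ⟨x, -, rfl⟩ := hx; exact hpri x
    | zero => rfl
    | add x y _ _ hx hy => simp [hx, hy]
    | smul c x _ hx => simp [hx]
  have hK'le : K' ≤ K := by
    refine Submodule.span_le.2 ?_
    rintro _ ⟨w, hw, rfl⟩
    simp only [hpr, LinearMap.sub_apply, LinearMap.id_apply, LinearMap.smulRight_apply]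
    refine K.sub_mem ?_ (K.smul_mem _ huK)
    rw [hK]
    exact Submodule.subset_span hw
  have hKle : K ≤ K' ⊔ Submodule.span ℂ {complexVec u} := by
    rw [hK, Submodule.span_le]
    intro w hw
    have : w = pr w + w i • complexVec u := by simp [hpr]
    rw [this]
    exact Submodule.add_mem_sup (Submodule.subset_span ⟨w, hw, rfl⟩)
      (Submodule.smul_mem _ _ (Submodule.mem_span_singleton_self _))
  have hunot : complexVec u ∉ K' := fun h => by
    have := hK'i _ h
    simp [complexVec, hui] at this
  have hlt : Module.finrank ℂ K' < Module.finrank ℂ K :=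
    Submodule.finrank_lt_finrank_of_lt (lt_of_le_of_ne hK'le fun h => hunot (h ▸ huK))
  have hdim : Module.finrank ℂ K ≤ Module.finrank ℂ K' + 1 := by
    refine (Submodule.finrank_mono hKle).trans ((Submodule.finrank_add_le_finrank_add_finrank _ _).trans ?_)
    exact Nat.add_le_add_left (le_of_eq (finrank_span_singleton fun h => hunot (by rw [h]; exact K'.zero_mem))) _
  have h1 := ih _ hlt K' s' halg' rfl rfl
  have hrlt : Submodule.span (ResF M) (redVec M '' {w : ι → localRing M | complexVec w ∈ K'}) <
      Submodule.span (ResF M) (redVec M '' {w : ι → localRing M | complexVec w ∈ K}) := by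
    refine lt_of_le_of_ne (Submodule.span_mono (Set.image_mono fun w hw => hK'le hw)) fun h => ?_
    have hmem : redVec M u ∈
        Submodule.span (ResF M) (redVec M '' {w : ι → localRing M | complexVec w ∈ K'}) :=
      h ▸ Submodule.subset_span ⟨u, huK, rfl⟩
    have hzero : ∀ x ∈ Submodule.span (ResF M)
        (redVec M '' {w : ι → localRing M | complexVec w ∈ K'}), x i = 0 := by
      intro x hx
      induction hx using Submodule.span_induction with
      | mem x hx =>
        obtain ⟨w, hw, rfl⟩ := hx
        have h0 : w i = 0 := Subtype.ext (hK'i _ hw)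
        simp [redVec, h0]
      | zero => rfl
      | add x y _ _ hx hy => simp [hx, hy]
      | smul c x _ hx => simp [hx]
    have := hzero _ hmem
    rw [redVec, hui, map_one] at this
    exact one_ne_zero this
  have h2 := Submodule.finrank_lt_finrank_of_lt hrlt
  omega

end Cfsg.Agent.BlockCount
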