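import Cfsg.Agent.BlockCount.CharAlgebra
import Cfsg.Agent.BlockCount.LocalIntegers
import Cfsg.Agent.BlockVal.RegGen

/-!
The reduction of the lattice cut out of a projective module by a set of characters: the ranks of the
operators and the endomorphisms.
-/

set_option autoImplicit false
set_option linter.style.haveILetI false
set_option linter.unusedSectionVars false

namespace Cfsg.Agent.BlockCount.Lattice

open MonoidAlgebra Cfsg
open Cfsg.Agent.Block (toC toF charLin)
open scoped ComplexConjugate Classical

universe u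

variable {H : Type u} [Group H] [Fintype H] (M : Ideal AlgInt) [M.IsPrime]

/-- The coordinates in the basis of group elements. -/
noncomputable def coord (R : Type*) [CommSemiring R] (H : Type u) [Fintype H] :
    MonoidAlgebra R H ≃ₗ[R] (H → R) :=
  (coeffLinearEquiv R).trans (Finsupp.linearEquivFunOnFinite R R H)

theorem coord_apply {R : Type*} [CommSemiring R] (a : MonoidAlgebra R H) (g : H) :
    coord R H a g = a.coeff g := rfl

theorem finrank_red_span_le (S : Set (MonoidAlgebra (Block.localRing M) H)) :
    Module.finrank (Block.ResF M) (Submodule.span (Block.ResF M) (toF M '' S)) ≤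
      Module.finrank ℂ (Submodule.span ℂ (toC M '' S)) := by
  have h := finrank_red_le (M := M) ((fun a g => a.coeff g) '' S)
  have e1 : redVec M '' ((fun a g => a.coeff g) '' S) =
      (coord (Block.ResF M) H).toLinearMap '' (toF M '' S) := by
    rw [Set.image_image, Set.image_image]
    exact Set.image_congr fun a _ => funext fun g =>
      (Block.coeff_mapR (Block.red M) a g).symm
  have e2 : complexVec '' ((fun a g => a.coeff g) '' S) =
      (coord ℂ H).toLinearMap '' (toC M '' S) := by
    rw [Set.image_image, Set.image_image]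
    exact Set.image_congr fun a _ => funext fun g =>
      (Block.coeff_mapR (Block.localRing M).subtype a g).symm
  rw [e1, e2, Submodule.span_image, Submodule.span_image, LinearEquiv.finrank_map_eq,
    LinearEquiv.finrank_map_eq] at h
  exact h

theorem le_finrank_red_span {p : ℕ} (hM : IsPModular p M) (W : Submodule ℂ (MonoidAlgebra ℂ H))
    (s : Set (MonoidAlgebra ℂ H)) (hs : ∀ v ∈ s, ∀ g, IsAlgebraic ℚ (v.coeff g))
    (hW : W = Submodule.span ℂ s) :
    Module.finrank ℂ W ≤ Module.finrank (Block.ResF M)
      (Submodule.span (Block.ResF M) (toF M '' {a | toC M a ∈ W})) := by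
  have h := le_finrank_red (M := M) hM (W.map (coord ℂ H).toLinearMap)
    ((coord ℂ H).toLinearMap '' s)
    (fun v hv => by obtain ⟨w, hw, rfl⟩ := hv; exact hs w hw)
    (by rw [hW, Submodule.map_span])
  have e : redVec M '' {w | complexVec w ∈ W.map (coord ℂ H).toLinearMap} =
      (coord (Block.ResF M) H).toLinearMap '' (toF M '' {a | toC M a ∈ W}) := by
    ext v
    constructor
    · rintro ⟨w, ⟨a, ha, haw⟩, rfl⟩
      refine ⟨_, ⟨Block.ofFn w, ?_, rfl⟩, funext fun g => ?_⟩
      · show toC M (Block.ofFn w) ∈ W
        have e0 : toC M (Block.ofFn w) = a := Block.groupAlgebra_ext fun g => by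
          rw [Block.coeff_mapR, Block.coeff_ofFn]
          exact (congrFun haw g).symm
        rw [e0]
        exact ha
      · show (toF M (Block.ofFn w)).coeff g = _
        rw [Block.coeff_mapR, Block.coeff_ofFn]
        rfl
    · rintro ⟨_, ⟨a, ha, rfl⟩, rfl⟩
      exact ⟨fun g => a.coeff g,
        ⟨toC M a, ha, funext fun g => Block.coeff_mapR (Block.localRing M).subtype a g⟩,
        funext fun g => (Block.coeff_mapR (Block.red M) a g).symm⟩
  rw [e, Submodule.span_image, LinearEquiv.finrank_map_eq, LinearEquiv.finrank_map_eq] at h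
  exact h

/-- The idempotent cutting out the lattice. -/
noncomputable def cut (εG : MonoidAlgebra (Block.localRing M) H) (S : Set (IrrCharacter H)) :
    MonoidAlgebra ℂ H :=
  toC M εG * Block.blockIdem S

variable {M} (εG : MonoidAlgebra (Block.localRing M) H) (S : Set (IrrCharacter H))

/-- The elements killing the lattice generator. -/
def JO : Set (MonoidAlgebra (Block.localRing M) H) := {a | toC M a * cut M εG S = 0}

/-- Their reductions. -/
noncomputable def J : Submodule (Block.ResF M) (MonoidAlgebra (Block.ResF M) H) :=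
  Submodule.span (Block.ResF M) (toF M '' JO εG S)

/-- The reduction of the lattice. -/
abbrev V := MonoidAlgebra (Block.ResF M) H ⧸ J εG S

theorem mul_mem_JO (a : MonoidAlgebra (Block.localRing M) H)
    {b : MonoidAlgebra (Block.localRing M) H} (hb : b ∈ JO εG S) : a * b ∈ JO εG S := by
  show toC M (a * b) * cut M εG S = 0
  rw [map_mul, mul_assoc, show toC M b * cut M εG S = 0 from hb, mul_zero]

theorem mul_mem_J (c : MonoidAlgebra (Block.ResF M) H) :
    J εG S ≤ (J εG S).comap (LinearMap.mulLeft (Block.ResF M) c) := by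
  obtain ⟨c', rfl⟩ := Brauer.ProjVec.toF_surjective (M := M) c
  refine Submodule.span_le.2 ?_
  rintro _ ⟨b, hb, rfl⟩
  exact Submodule.subset_span ⟨c' * b, mul_mem_JO εG S c' hb, map_mul (toF M) c' b⟩

/-- The operators. -/
noncomputable def op : MonoidAlgebra (Block.ResF M) H →ₐ[Block.ResF M]
    Module.End (Block.ResF M) (V εG S) :=
  AlgHom.ofLinearMap
    { toFun := fun a => (J εG S).mapQ (J εG S) (LinearMap.mulLeft (Block.ResF M) a) (mul_mem_J εG S a)
      map_add' := fun a b => Submodule.linearMap_qext _ (LinearMap.ext fun x =>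
        congrArg (Submodule.Quotient.mk (p := J εG S)) (add_mul a b x))
      map_smul' := fun c a => Submodule.linearMap_qext _ (LinearMap.ext fun x =>
        congrArg (Submodule.Quotient.mk (p := J εG S)) (smul_mul_assoc c a x)) }
    (Submodule.linearMap_qext _ (LinearMap.ext fun x =>
      congrArg (Submodule.Quotient.mk (p := J εG S)) (one_mul x)))
    (fun a b => Submodule.linearMap_qext _ (LinearMap.ext fun x =>
      congrArg (Submodule.Quotient.mk (p := J εG S)) (mul_assoc a b x)))

theorem op_mk (a x : MonoidAlgebra (Block.ResF M) H) :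
    op εG S a (Submodule.Quotient.mk x) = Submodule.Quotient.mk (a * x) := rfl

instance : FiniteDimensional (Block.ResF M) (MonoidAlgebra (Block.ResF M) H) :=
  Module.Finite.of_surjective (coord (Block.ResF M) H).symm.toLinearMap (LinearEquiv.surjective _)

instance : FiniteDimensional ℂ (MonoidAlgebra ℂ H) :=
  Module.Finite.of_surjective (coord ℂ H).symm.toLinearMap (LinearEquiv.surjective _)

variable {εG S}

theorem cut_mul_self (hε : εG * εG = εG) : cut M εG S * cut M εG S = cut M εG S := by
  have hc : Block.blockIdem S * toC M εG = toC M εG * Block.blockIdem S :=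
    Block.isCentralElt_commute (Block.blockIdem_isCentralElt S) _
  rw [cut, mul_assoc, ← mul_assoc (Block.blockIdem S), hc, mul_assoc (toC M εG) (Block.blockIdem S),
    Block.blockIdem_mul_self, ← mul_assoc, ← map_mul, hε]

theorem charLin_cut (χ : IrrCharacter H) :
    charLin (χ : H → ℂ) (cut M εG S) = if χ ∈ S then Brauer.ProjVec.ev (χ : H → ℂ) εG else 0 := by
  rw [cut, CharAlg.charLin_mul_comm (Char.isCharacter_of_irr χ.2),
    Block.charLin_central_mul χ.2 (Block.blockIdem_isCentralElt S), Block.omega_blockIdem]
  split_ifs <;> simp [Brauer.ProjVec.ev_apply]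

theorem isAlgebraic_coeff_cut (g : H) : IsAlgebraic ℚ ((cut M εG S).coeff g) := by
  have hI : ∀ z : ℂ, IsIntegral ℤ z → IsIntegral ℚ z := fun z hz => hz.tower_top
  rw [isAlgebraic_iff_isIntegral, cut, Block.coeff_mul_sum]
  refine IsIntegral.sum _ fun x _ => IsIntegral.mul ?_ ?_
  · rw [← isAlgebraic_iff_isIntegral, Block.coeff_mapR]
    exact isAlgebraic_of_memLocalRing (M := M) (Subtype.prop _)
  · rw [Block.coeff_blockIdem, Block.blockCoeff_eq_sum]
    refine IsIntegral.mul ?_ (IsIntegral.sum _ fun χ _ => IsIntegral.mul ?_ ?_)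
    · rw [← isAlgebraic_iff_isIntegral]
      exact (isAlgebraic_nat _).inv
    · exact hI _ (Char.isCharacter_isIntegral (Char.isCharacter_of_irr χ.2) 1)
    · rw [← Char.irr_inv χ.2]
      exact hI _ (Char.isCharacter_isIntegral (Char.isCharacter_of_irr χ.2) _)

/-- The dimension of the complex image of a translate. -/
noncomputable def cdim (εG : MonoidAlgebra (Block.localRing M) H) (S : Set (IrrCharacter H))
    (a : MonoidAlgebra ℂ H) : ℕ :=
  Module.finrank ℂ (LinearMap.range
    (LinearMap.mulLeft ℂ a ∘ₗ LinearMap.mulRight ℂ (cut M εG S)))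

theorem cdim_idem (hε : εG * εG = εG) {a : MonoidAlgebra ℂ H} (ha : a * a = a) :
    (cdim εG S a : ℂ) = ∑ χ : IrrCharacter H, charLin (χ : H → ℂ) a *
      if χ ∈ S then Brauer.ProjVec.ev (χ : H → ℂ) εG else 0 := by
  rw [cdim, CharAlg.finrank_range_mul_mul ha (cut_mul_self hε)]
  exact Finset.sum_congr rfl fun χ _ => by rw [charLin_cut]

theorem cdim_mul_le (a b : MonoidAlgebra ℂ H) : cdim εG S (a * b) ≤ cdim εG S b := by
  rw [cdim, cdim, LinearMap.mulLeft_mul, LinearMap.comp_assoc, LinearMap.range_comp]
  exact Submodule.finrank_map_le _ _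

theorem finrank_range_op_add (a : MonoidAlgebra (Block.localRing M) H) :
    Module.finrank (Block.ResF M) (LinearMap.range (op εG S (toF M a))) +
        Module.finrank (Block.ResF M) (J εG S) ≤
      Module.finrank ℂ (LinearMap.range (LinearMap.mulLeft ℂ (toC M a)) ⊔
        LinearMap.ker (LinearMap.mulRight ℂ (cut M εG S)) : Submodule ℂ (MonoidAlgebra ℂ H)) := by
  set S' : Set (MonoidAlgebra (Block.localRing M) H) := Set.range (a * ·) ∪ JO εG S
  set W := Submodule.span (Block.ResF M) (toF M '' S')
  set q := (J εG S).mkQ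
  have hJW : J εG S ≤ W := by
    exact Submodule.span_mono (Set.image_mono Set.subset_union_right)
  have hr : LinearMap.range (op εG S (toF M a)) = LinearMap.range (q.domRestrict W) := by
    rw [LinearMap.range_domRestrict]
    apply le_antisymm
    · rintro _ ⟨v, rfl⟩
      obtain ⟨x, rfl⟩ := Submodule.Quotient.mk_surjective _ v
      obtain ⟨x', rfl⟩ := Brauer.ProjVec.toF_surjective (M := M) x
      exact ⟨toF M (a * x'), Submodule.subset_span ⟨_, Or.inl ⟨x', rfl⟩, rfl⟩, by
        rw [op_mk, ← map_mul]; rfl⟩
    · rw [Submodule.map_span, Submodule.span_le]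
      rintro _ ⟨_, ⟨b, hb | hb, rfl⟩, rfl⟩
      · obtain ⟨x, rfl⟩ := hb
        exact ⟨Submodule.Quotient.mk (toF M x), by rw [op_mk, ← map_mul]; rfl⟩
      · rw [show q (toF M b) = 0 from (Submodule.Quotient.mk_eq_zero _).2
          (Submodule.subset_span ⟨b, hb, rfl⟩)]
        exact Submodule.zero_mem _
  have hk : LinearMap.ker (q.domRestrict W) =
      Submodule.comap W.subtype (J εG S) := by
    ext x
    exact Submodule.Quotient.mk_eq_zero _
  have h := LinearMap.finrank_range_add_finrank_ker (q.domRestrict W)
  rw [← hr, hk, LinearEquiv.finrank_eq (Submodule.comapSubtypeEquivOfLe hJW)] at h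
  rw [h]
  refine (finrank_red_span_le M S').trans (Submodule.finrank_mono (Submodule.span_le.2 ?_))
  rintro _ ⟨b, hb | hb, rfl⟩
  · obtain ⟨x, rfl⟩ := hb
    exact Submodule.mem_sup_left ⟨toC M x, (map_mul (toC M) _ _).symm⟩
  · exact Submodule.mem_sup_right hb

variable {p : ℕ} (hM : IsPModular p M) (hε : εG * εG = εG)
include hM hε

theorem ker_le_finrank_J :
    Module.finrank ℂ (LinearMap.ker (LinearMap.mulRight ℂ (cut M εG S))) ≤
      Module.finrank (Block.ResF M) (J εG S) := by
  set f := cut M εG S with hf
  have hff : f * f = f := cut_mul_self hε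
  refine (le_finrank_red_span M hM _
    (Set.range fun g : H => single g (1 : ℂ) * (1 - f)) ?_ ?_).trans (le_of_eq ?_)
  · rintro _ ⟨g, rfl⟩ x
    simp only [MonoidAlgebra.coeff_single_mul_apply, one_mul, coeff_sub, Finsupp.coe_sub,
      Pi.sub_apply]
    refine IsAlgebraic.sub ?_ (isAlgebraic_coeff_cut _)
    rw [MonoidAlgebra.one_def, coeff_single, Finsupp.single_apply]
    split_ifs
    · exact isAlgebraic_one
    · exact isAlgebraic_zero
  · apply le_antisymm
    · intro x hx
      have hxf : x * f = 0 := hx
      have h1 : x = ∑ g : H, x.coeff g • (single g (1 : ℂ) * (1 - f)) := by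
        conv_lhs => rw [← sub_zero x, ← hxf, ← mul_one x, mul_assoc, one_mul, ← mul_sub,
          show x = ∑ g : H, x.coeff g • single g (1 : ℂ) from Block.groupAlgebra_ext fun g => by
            simp [coeff_sum, Finsupp.single_apply]]
        rw [Finset.sum_mul]
        exact Finset.sum_congr rfl fun g _ => smul_mul_assoc _ _ _
      rw [h1]
      exact Submodule.sum_mem _ fun g _ =>
        Submodule.smul_mem _ _ (Submodule.subset_span ⟨g, rfl⟩)
    · rw [Submodule.span_le]
      rintro _ ⟨g, rfl⟩
      show single g (1 : ℂ) * (1 - f) * f = 0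
      rw [mul_assoc, sub_mul, one_mul, hff, sub_self, mul_zero]
  · rfl

theorem rank_op_le (a : MonoidAlgebra (Block.localRing M) H) :
    Module.finrank (Block.ResF M) (LinearMap.range (op εG S (toF M a))) ≤
      cdim εG S (toC M a) := by
  set R := LinearMap.mulRight ℂ (cut M εG S)
  set W := LinearMap.range (LinearMap.mulLeft ℂ (toC M a)) ⊔ LinearMap.ker R
  have h1 : Module.finrank (Block.ResF M) (LinearMap.range (op εG S (toF M a))) +
      Module.finrank (Block.ResF M) (J εG S) ≤ Module.finrank ℂ W := finrank_range_op_add a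
  have h2 : Module.finrank ℂ (LinearMap.ker R) ≤ Module.finrank (Block.ResF M) (J εG S) :=
    ker_le_finrank_J hM hε
  have h3 := LinearMap.finrank_range_add_finrank_ker (R.domRestrict W)
  rw [LinearMap.ker_domRestrict, LinearEquiv.finrank_eq
    (Submodule.comapSubtypeEquivOfLe (show LinearMap.ker R ≤ W from le_sup_right))] at h3
  have h4 : LinearMap.range (R.domRestrict W) =
      LinearMap.range (LinearMap.mulLeft ℂ (toC M a) ∘ₗ R) := by
    have hz : Submodule.map R (LinearMap.ker R) = ⊥ := Submodule.eq_bot_iff _ |>.2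
      fun _ ⟨y, hy, he⟩ => he ▸ hy
    rw [LinearMap.range_domRestrict, Submodule.map_sup, ← LinearMap.range_comp, hz, sup_bot_eq,
      show R ∘ₗ LinearMap.mulLeft ℂ (toC M a) = LinearMap.mulLeft ℂ (toC M a) ∘ₗ R from
        LinearMap.ext fun x => mul_assoc _ _ _]
  rw [h4] at h3
  have h3' : cdim εG S (toC M a) + Module.finrank ℂ (LinearMap.ker R) = Module.finrank ℂ W := h3
  omega

theorem rank_op_idem {a : MonoidAlgebra (Block.localRing M) H} (ha : a * a = a) :
    Module.finrank (Block.ResF M) (LinearMap.range (op εG S (toF M a))) =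
      cdim εG S (toC M a) := by
  have haC : toC M a * toC M a = toC M a := by rw [← map_mul, ha]
  have hb : (1 - toC M a) * (1 - toC M a) = 1 - toC M a := by
    rw [mul_sub, mul_one, sub_mul, one_mul, haC, sub_self, sub_zero]
  have hadd : cdim εG S (toC M a) + cdim εG S (1 - toC M a) = cdim εG S 1 := by
    have h : ((cdim εG S (toC M a) + cdim εG S (1 - toC M a) : ℕ) : ℂ) = cdim εG S 1 := by
      rw [Nat.cast_add, cdim_idem hε haC, cdim_idem hε hb, cdim_idem hε (mul_one 1),
        ← Finset.sum_add_distrib]
      refine Finset.sum_congr rfl fun χ _ => ?_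
      rw [map_sub]
      ring
    exact_mod_cast h
  have hbL : toC M (1 - a) = 1 - toC M a := by rw [map_sub, map_one]
  have h1 := rank_op_le (S := S) hM hε a
  have h2 := rank_op_le (S := S) hM hε (1 - a)
  rw [hbL] at h2
  set E := op εG S (toF M a)
  have hE : IsIdempotentElem E := by rw [IsIdempotentElem, ← map_mul, ← map_mul, ha]
  have h3 : Module.finrank (Block.ResF M) (V εG S) ≤
      Module.finrank (Block.ResF M) (LinearMap.range E) +
        Module.finrank (Block.ResF M) (LinearMap.range (op εG S (toF M (1 - a)))) := by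
    rw [map_sub (toF M), map_one (toF M), map_sub (op εG S), map_one (op εG S),
      show LinearMap.range (1 - E) = LinearMap.ker E from ?_]
    · exact (LinearMap.finrank_range_add_finrank_ker E).ge
    · refine le_antisymm ?_ fun v hv => ⟨v, ?_⟩
      · rintro _ ⟨v, rfl⟩
        show E (v - E v) = 0
        rw [map_sub, ← Module.End.mul_apply, hE.eq, sub_self]
      · show v - E v = v
        rw [LinearMap.mem_ker.1 hv, sub_zero]
  have h4 : cdim εG S 1 ≤ Module.finrank (Block.ResF M) (V εG S) := by
    have h5 : Module.finrank (Block.ResF M) (V εG S) + Module.finrank (Block.ResF M) (J εG S) =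
        Fintype.card H := by
      rw [Submodule.finrank_quotient_add_finrank, LinearEquiv.finrank_eq (coord (Block.ResF M) H),
        Module.finrank_pi]
    have h6 := LinearMap.finrank_range_add_finrank_ker (LinearMap.mulRight ℂ (cut M εG S))
    rw [LinearEquiv.finrank_eq (coord ℂ H), Module.finrank_pi] at h6
    have h7 : Module.finrank (Block.ResF M) (J εG S) ≤
        Module.finrank ℂ (LinearMap.ker (LinearMap.mulRight ℂ (cut M εG S))) := by
      refine (finrank_red_span_le M _).trans (Submodule.finrank_mono (Submodule.span_le.2 ?_))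
      rintro _ ⟨b, hb, rfl⟩
      exact hb
    rw [cdim, LinearMap.mulLeft_one, LinearMap.id_comp]
    omega
  omega

/-- An endomorphism of the reduction is a scalar up to a nilpotent. -/
theorem exists_scalar (hprim : Brauer.PrimIdem.IsPrim (toF M εG))
    (π : Module.End (Block.ResF M) (V εG S))
    (hπ : ∀ a, Commute (op εG S a) π) :
    ∃ c : Block.ResF M, IsNilpotent (π - c • (1 : Module.End (Block.ResF M) (V εG S))) := by
  haveI : IsAlgClosed (Block.ResF M) := Brauer.isAlgClosed_resF hM.2.1
  set e := toF M εG
  set v0 : V εG S := Submodule.Quotient.mk 1 with hv0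
  have hgen : ∀ v : V εG S, ∃ b, op εG S b v0 = v := by
    intro v
    obtain ⟨b, rfl⟩ := Submodule.Quotient.mk_surjective _ v
    exact ⟨b, by rw [hv0, op_mk, mul_one]⟩
  have he : op εG S e v0 = v0 := by
    rw [hv0, op_mk, Submodule.Quotient.eq, mul_one]
    refine Submodule.subset_span ⟨εG - 1, ?_, by rw [map_sub, map_one]⟩
    show toC M (εG - 1) * cut M εG S = 0
    rw [map_sub, map_one, sub_mul, one_mul, cut, ← mul_assoc, ← map_mul, hε, sub_self]
  obtain ⟨a, ha⟩ := hgen (π v0)
  have hz : op εG S (e * a * e) v0 = π v0 := by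
    rw [map_mul, map_mul, Module.End.mul_apply, he, Module.End.mul_apply, ha,
      ← Module.End.mul_apply, (hπ e).eq, Module.End.mul_apply, he]
  obtain ⟨c, hc⟩ := Brauer.PrimIdem.exists_scalar (Block.ResF M) hprim (z := e * a * e)
    (by rw [← mul_assoc, ← mul_assoc, hprim.1.eq]) (by rw [mul_assoc _ e e, hprim.1.eq])
  refine ⟨c, ?_⟩
  obtain ⟨n, hn⟩ := hc
  refine ⟨n, LinearMap.ext fun v => ?_⟩
  obtain ⟨b, rfl⟩ := hgen v
  have key : ∀ i : ℕ, ((π - c • 1) ^ i) (op εG S b v0) =
      op εG S (b * (e * a * e - c • e) ^ i) v0 := by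
    intro i
    induction i generalizing b with
    | zero => simp
    | succ i ih =>
      rw [pow_succ, Module.End.mul_apply, pow_succ' (e * a * e - c • e), ← mul_assoc b]
      have h1 : (π - c • 1) (op εG S b v0) = op εG S (b * (e * a * e - c • e)) v0 := by
        rw [LinearMap.sub_apply, LinearMap.smul_apply, Module.End.one_apply,
          ← Module.End.mul_apply π, ← (hπ b).eq, Module.End.mul_apply, ← hz, mul_sub,
          mul_smul_comm, map_sub, map_smul, LinearMap.sub_apply, LinearMap.smul_apply,
          map_mul (op εG S) b (e * a * e), map_mul (op εG S) b e, Module.End.mul_apply,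
          Module.End.mul_apply, he]
      rw [h1, ih]
  rw [key, hn, mul_zero, map_zero, LinearMap.zero_apply, LinearMap.zero_apply]

end Cfsg.Agent.BlockCount.Lattice
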