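import Cfsg.Agent.BlockCount.CyclicStructure
import Cfsg.Agent.BrauerPairs.AbelianLocal

/-!
Blocks with cyclic defect group: the data from a defect group, and the final form of the structure.
-/

set_option autoImplicit false
set_option linter.style.haveILetI false
set_option linter.unusedSectionVars false

namespace Cfsg.Agent.BlockCount

open Cfsg
open Cfsg.Agent.BrauerPairs
open scoped Classical

universe u

variable {G : Type u} [Group G] [Fintype G] {p : ℕ} [hp : Fact p.Prime] {M : Ideal AlgInt}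

/-- The stabilizer written with conjugate characters. -/
theorem mem_iff_stabilizesBlock {D : Subgroup G}
    {b : Set (IrrCharacter (Subgroup.centralizer (D : Set G)))} (g : G)
    (hg : g ∈ Subgroup.normalizer (D : Set G)) :
    (∀ θ ∈ b, ∀ θ' : IrrCharacter (Subgroup.centralizer (D : Set G)),
      (∀ h h' : Subgroup.centralizer (D : Set G), (h' : G) = g * h * g⁻¹ →
        (θ' : Subgroup.centralizer (D : Set G) → ℂ) h' =
          (θ : Subgroup.centralizer (D : Set G) → ℂ) h) → θ' ∈ b) ↔
      StabilizesBlock (Subgroup.centralizer (D : Set G)) b g := by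
  have hC := normalizer_le_normalizer_centralizer D hg
  have hmap := map_conj_of_mem_normalizer hC
  constructor
  · intro h
    refine ⟨hC, fun χ hχ => ?_⟩
    have hconj : ∀ k k' : Subgroup.centralizer (D : Set G), (k' : G) = g * k * g⁻¹ →
        (χ : Subgroup.centralizer (D : Set G) → ℂ) ((conjEquiv g hmap).symm k') =
          (χ : Subgroup.centralizer (D : Set G) → ℂ) k := by
      intro k k' hk
      refine congrArg _ (Subtype.ext ?_)
      show g⁻¹ * (k' : G) * g = k
      rw [hk]; group
    exact ⟨⟨_, isIrrCharacter_comp_conjEquiv g hmap χ.2⟩, h χ hχ _ hconj, hconj⟩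
  · rintro ⟨-, h⟩ θ hθ θ' hθ'
    obtain ⟨χ', hχ', hc⟩ := h θ hθ
    have : θ' = χ' := by
      refine Subtype.ext (funext fun k' => ?_)
      have hk := (Subgroup.mem_normalizer_iff.1 (inv_mem hC) (k' : G)).1 k'.2
      rw [inv_inv] at hk
      rw [hθ' ⟨_, hk⟩ k' (by group), hc ⟨_, hk⟩ k' (by group)]
    exact this ▸ hχ'

/-- The data of a block with cyclic defect group. -/
theorem exists_cycData (hM : IsPModular p M) [M.IsPrime] [CharP (Block.ResF M) p] {D : Subgroup G}
    (hD : IsCyclic D) {a : ℕ} (ha : 1 ≤ a) (hDa : Nat.card D = p ^ a)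
    {B : Set (IrrCharacter G)} (hB : IsPBlock M B) (hBD : IsDefectGroup p M B D)
    {b : Set (IrrCharacter (Subgroup.centralizer (D : Set G)))}
    (hind : IsInducedBlock M (Subgroup.centralizer (D : Set G)) b B) {T : Subgroup G}
    (hT : ∀ g : G, g ∈ T ↔ (g ∈ Subgroup.normalizer (D : Set G) ∧
      ∀ θ ∈ b, ∀ θ' : IrrCharacter (Subgroup.centralizer (D : Set G)),
        (∀ h h' : Subgroup.centralizer (D : Set G), (h' : G) = g * h * g⁻¹ →
          (θ' : Subgroup.centralizer (D : Set G) → ℂ) h' =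
            (θ : Subgroup.centralizer (D : Set G) → ℂ) h) → θ' ∈ b)) :
    ∃ K : CycData p M G, K.β.1 = B ∧ K.b = a ∧
      (Subgroup.centralizer (D : Set G)).relIndex T = Nat.card K.E := by
  obtain ⟨x, rfl⟩ : ∃ x : G, Subgroup.zpowers x = D := by
    obtain ⟨⟨x, hx⟩, hgen⟩ := hD.exists_generator
    refine ⟨x, le_antisymm (Subgroup.zpowers_le.2 hx) fun y hy => ?_⟩
    obtain ⟨i, hi⟩ := Subgroup.mem_zpowers_iff.1 (hgen ⟨y, hy⟩)
    exact Subgroup.mem_zpowers_iff.2 ⟨i, by simpa using congrArg Subtype.val hi⟩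
  have hP : IsPGroup p (Subgroup.zpowers x) := Block.isDefectGroup_isPGroup hBD
  have hmax := isMaximalBrauerPair_of_isInducedBlock hM hB hBD hP ⟨b, hind.1⟩ hind
  let K : CycData p M G :=
    ⟨⟨B, hB⟩, x, a, ⟨b, hind.1⟩, hM, hmax, by rw [← Nat.card_zpowers, hDa], by omega⟩
  refine ⟨K, rfl, rfl, ?_⟩
  rw [← K.relIndex_eq_card_E]
  congr 1
  exact eq_stab fun g => (hT g).trans (and_congr_right fun hg => mem_iff_stabilizesBlock g hg)

end Cfsg.Agent.BlockCount
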