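import Cfsg.Agent.BlockCount.CyclicStructure

/-!
A block with cyclic defect group: the number of its members.
-/

set_option autoImplicit false
set_option linter.style.haveILetI false
set_option linter.unusedSectionVars false

namespace Cfsg.Agent.BlockCount

open Cfsg
open scoped Classical

universe u

variable {p : ℕ} [hp : Fact p.Prime] {M : Ideal AlgInt} [M.IsPrime] [CharP (Block.ResF M) p]

namespace CycData

variable {H : Type u} [Group H] [Fintype H] (K : CycData p M H)

/-- The number of members of the block. -/
theorem card_block_eq :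
    Nat.card K.β.1 = Nat.card K.E + (p ^ K.b - 1) / Nat.card K.E := by
  obtain ⟨m, r, y, s, s₀, -, hem, hy, -, -, -, -, -, -, -, hcard, -⟩ := K.exists_coeff_rows
  have h1 := Finset.card_filter_add_card_filter_not
    (s := (Finset.univ : Finset {χ : IrrCharacter H // χ ∈ K.β.1})) (fun x => ∀ i, y i ≠ x)
  rw [show (Finset.univ.filter fun x : {χ : IrrCharacter H // χ ∈ K.β.1} => ¬ ∀ i, y i ≠ x) =
      Finset.univ.image y by ext x; simp [eq_comm],
    Finset.card_image_of_injective _ hy, Finset.card_univ, Fintype.card_fin, hcard,
    Finset.card_univ] at h1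
  have h2 : Nat.card K.β.1 = Fintype.card {χ : IrrCharacter H // χ ∈ K.β.1} :=
    Nat.card_eq_fintype_card
  have h3 : p ^ K.b - 1 = Nat.card K.E * m := by omega
  rw [h2, ← h1, h3, Nat.mul_div_cancel_left _ Nat.card_pos]

end CycData

end Cfsg.Agent.BlockCount
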