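import Cfsg.Agent.BlockCount.CyclicDichotomy
import Cfsg.Agent.BlockCount.CyclicLattice

/-!
A block with cyclic defect group: for a projective indecomposable and any set of characters the
multiplicities of the local characters differ by at most one.
-/

set_option autoImplicit false
set_option linter.style.haveILetI false
set_option linter.unusedSectionVars false

namespace Cfsg.Agent.BlockCount

open MonoidAlgebra Cfsg
open Cfsg.Agent.BrauerPairs Cfsg.Agent.BrauerPairs.Nil
open Cfsg.Agent.Block (toC toF charLin incl)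
open Cfsg.Agent.Brauer.ProjVec (ev)
open Cfsg.Agent.BlkChar.Contrib (mult restrict_eq)
open scoped ComplexConjugate Classical

universe u

variable {p : ℕ} [hp : Fact p.Prime] {M : Ideal AlgInt} [M.IsPrime] [CharP (Block.ResF M) p]

theorem mapR_incl {G : Type u} [Group G] {R S : Type*} [CommRing R] [CommRing S] (φ : R →+* S)
    (L : Subgroup G) (a : MonoidAlgebra R L) :
    Block.mapR φ (incl L a) = incl L (Block.mapR φ a) := by
  induction a using MonoidAlgebra.induction_linear with
  | zero => simp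
  | add a b ha hb => simp only [map_add, ha, hb]
  | single g c => simp [incl]

namespace CycData

variable {H : Type u} [Group H] [Fintype H] (K : CycData p M H)

/-- The projection on the local character of parameter `i`. -/
noncomputable def proj (i : ZMod (p ^ K.b)) : MonoidAlgebra ℂ K.C1 :=
  ((p ^ K.b : ℕ) : ℂ)⁻¹ • ∑ j, (ZMod.stdAddChar (-(i * j)) : ℂ) • toC M (K.wel j)

theorem eps_proj_eps (i : ZMod (p ^ K.b)) :
    toC M K.eps * K.proj i * toC M K.eps = K.proj i := by
  simp only [proj, mul_smul_comm, smul_mul_assoc, Finset.mul_sum, Finset.sum_mul, K.toC_wel]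

theorem charLin_proj (i : ZMod (p ^ K.b)) (η : IrrCharacter K.C1) :
    charLin (η : K.C1 → ℂ) (K.proj i) =
      if η ∈ K.loc.B.1 ∧ K.expo η K.θ₀ = i then 1 else 0 := by
  by_cases hη : η ∈ K.loc.B.1
  · have hq : ((p ^ K.b : ℕ) : ℂ) ≠ 0 := Nat.cast_ne_zero.2 (pow_ne_zero _ hp.out.ne_zero)
    simp only [proj, map_smul, map_sum, smul_eq_mul, K.charLin_wel _ hη, ← AddChar.map_add_eq_mul]
    rw [Finset.sum_congr rfl fun j _ => by
      rw [show -(i * j) + j * K.expo η K.θ₀ = j * (K.expo η K.θ₀ - i) by ring],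
      CyclicColumns.sum_stdAddChar]
    simp only [hη, true_and, sub_eq_zero]
    split_ifs with h
    · exact inv_mul_cancel₀ hq
    · exact mul_zero _
  · rw [K.charLin_corner_of_notMem hη (K.eps_proj_eps i), if_neg fun h => hη h.1]

theorem eps_mul_proj (i : ZMod (p ^ K.b)) : toC M K.eps * K.proj i = K.proj i := by
  rw [← K.eps_proj_eps i, ← mul_assoc, ← mul_assoc, K.toC_eps_mul_self]

theorem proj_mul_eps (i : ZMod (p ^ K.b)) : K.proj i * toC M K.eps = K.proj i := by
  rw [← K.eps_proj_eps i, mul_assoc _ (toC M K.eps), K.toC_eps_mul_self]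

theorem proj_mul_self (i : ZMod (p ^ K.b)) : K.proj i * K.proj i = K.proj i := by
  refine K.corner_ext ?_ (K.eps_proj_eps i) fun η hη => ?_
  · rw [← mul_assoc, K.eps_mul_proj, mul_assoc, K.proj_mul_eps]
  · rw [K.charLin_mul hη (K.eps_proj_eps i) (K.eps_proj_eps i), K.charLin_proj]
    split_ifs <;> simp

theorem charLin_incl (χ : IrrCharacter H) (a : MonoidAlgebra ℂ K.C1) :
    charLin (χ : H → ℂ) (incl K.C1 a) =
      ∑ η : IrrCharacter K.C1, (mult K.C1 χ η : ℂ) * charLin (η : K.C1 → ℂ) a := by
  induction a using MonoidAlgebra.induction_linear with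
  | zero => simp
  | add a b ha hb => simp only [map_add, ha, hb, mul_add, Finset.sum_add_distrib]
  | single g c =>
    rw [show incl K.C1 (single g c) = single (g : H) c by simp [incl]]
    simp only [Block.charLin_single]
    rw [restrict_eq χ g, Finset.mul_sum]
    exact Finset.sum_congr rfl fun η _ => by ring

theorem charLin_incl_proj (χ : IrrCharacter H) (i : ZMod (p ^ K.b)) :
    charLin (χ : H → ℂ) (incl K.C1 (K.proj i)) = (K.coeffA χ i : ℂ) := by
  rw [K.charLin_incl, coeffA, Int.cast_sum, Finset.sum_filter]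
  refine Finset.sum_congr rfl fun η _ => ?_
  rw [K.charLin_proj]
  by_cases h1 : η ∈ K.loc.B.1
  · by_cases h2 : K.expo η K.θ₀ = i <;> simp [h1, h2]
  · simp [h1]

/-- The multiplicities of the local characters differ by at most one. -/
theorem spread {εG : MonoidAlgebra (Block.localRing M) H} (hε : εG * εG = εG)
    (hprim : Brauer.PrimIdem.IsPrim (toF M εG)) (d : IrrCharacter H → ℕ)
    (hd : ∀ χ : IrrCharacter H, ev (χ : H → ℂ) εG = d χ) (S : Finset (IrrCharacter H))
    (i l : ZMod (p ^ K.b)) :
    ∑ χ ∈ S, (d χ : ℤ) * K.coeffA χ i ≤ ∑ χ ∈ S, (d χ : ℤ) * K.coeffA χ l + 1 := by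
  have hM := K.isPModular
  set S' : Set (IrrCharacter H) := ↑S
  have hm : ∀ j, (Lattice.cdim εG S' (incl K.C1 (K.proj j)) : ℤ) =
      ∑ χ ∈ S, (d χ : ℤ) * K.coeffA χ j := by
    intro j
    apply Int.cast_injective (α := ℂ)
    push_cast
    rw [Lattice.cdim_idem hε (by rw [← map_mul, K.proj_mul_self]),
      ← Finset.sum_subset (Finset.subset_univ S)
        fun χ _ hχ => by rw [if_neg (by simpa [S'] using hχ), mul_zero]]
    refine Finset.sum_congr rfl fun χ hχ => ?_
    rw [if_pos (by simpa [S'] using hχ), K.charLin_incl_proj, hd, mul_comm]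
  -- the roots of unity
  have hpow : ∀ c : ZMod (p ^ K.b), (ZMod.stdAddChar c : ℂ) ^ (p ^ K.b) = 1 := fun c => by
    rw [← AddChar.map_nsmul_eq_pow, nsmul_eq_mul, ZMod.natCast_self, zero_mul,
      AddChar.map_zero_eq_one]
  let ζ : ZMod (p ^ K.b) → Block.localRing M := fun c =>
    ⟨ZMod.stdAddChar c, Block.memLocalRing_of_pow_eq_one (pow_ne_zero _ hp.out.ne_zero) (hpow c)⟩
  have hζ : ∀ c, Block.red M (ζ c) = 1 := fun c =>
    Block.red_eq_one_of_pow_prime_pow hM (k := K.b) (Subtype.ext (by
      rw [SubmonoidClass.coe_pow]; exact hpow c))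
  -- the norm
  set bl := incl K.C1 (∑ j, ζ (-(l * j)) • K.wel j) with hbl
  have hblF : toF M bl = ∑ j, K.welH j := by
    rw [hbl, mapR_incl, map_sum, map_sum]
    refine Finset.sum_congr rfl fun j _ => ?_
    rw [Block.mapR_smul, hζ, one_smul]
    rfl
  have hblC : toC M bl = (((p ^ K.b) : ℕ) : ℂ) • (1 : MonoidAlgebra ℂ H) * incl K.C1 (K.proj l) := by
    have h1 : toC M (∑ j, ζ (-(l * j)) • K.wel j) = (((p ^ K.b) : ℕ) : ℂ) • K.proj l := by
      rw [proj, smul_smul, mul_inv_cancel₀ (Nat.cast_ne_zero.2 (pow_ne_zero _ hp.out.ne_zero)),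
        one_smul, map_sum]
      exact Finset.sum_congr rfl fun j _ => Block.mapR_smul _ _ _
    rw [hbl, mapR_incl, h1, smul_mul_assoc, one_mul]
    exact MonoidAlgebra.mapDomain_smul _ _ _
  have hN : Module.finrank (Block.ResF M)
      (LinearMap.range (Lattice.op εG S' (∑ j, K.welH j))) ≤
        Lattice.cdim εG S' (incl K.C1 (K.proj l)) := by
    rw [← hblF]
    refine (Lattice.rank_op_le hM hε bl).trans ?_
    rw [hblC]
    exact Lattice.cdim_mul_le _ _
  -- the socle
  set ai := incl K.C1 (K.wel 1 - ζ i • K.eps) with hai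
  have haiF : toF M ai = K.welH 1 - K.epsH := by
    rw [hai, mapR_incl, map_sub, map_sub, Block.mapR_smul, hζ, one_smul]
    rfl
  set εd := toC M K.eps - K.proj i with hεd
  have hεd2 : εd * εd = εd := by
    rw [hεd, mul_sub, sub_mul, sub_mul, K.toC_eps_mul_self, K.eps_mul_proj, K.proj_mul_eps,
      K.proj_mul_self, sub_self, sub_zero]
  have hfac : toC M (K.wel 1 - ζ i • K.eps) = toC M (K.wel 1 - ζ i • K.eps) * εd := by
    have hcor : toC M K.eps * toC M (K.wel 1 - ζ i • K.eps) * toC M K.eps =
        toC M (K.wel 1 - ζ i • K.eps) := by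
      rw [← map_mul, ← map_mul]
      congr 1
      simp only [mul_sub, sub_mul, mul_smul_comm, smul_mul_assoc, K.eps_wel_eps, K.eps_mul_self]
    have h0 : toC M (K.wel 1 - ζ i • K.eps) * K.proj i = 0 := by
      refine K.corner_ext ?_ (by simp) fun η hη => ?_
      · rw [← hcor, mul_assoc _ (toC M K.eps) (K.proj i), K.eps_mul_proj, ← mul_assoc, ← mul_assoc,
          K.toC_eps_mul_self, mul_assoc _ (K.proj i), K.proj_mul_eps]
      · rw [K.charLin_mul hη hcor (K.eps_proj_eps i), K.charLin_proj, map_zero, map_sub,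
          Block.mapR_smul, map_sub, map_smul, K.charLin_wel 1 hη, K.charLin_eps, if_pos hη]
        split_ifs with h
        · simp [h.2, ζ]
        · exact mul_zero _
    have h1 : toC M (K.wel 1 - ζ i • K.eps) * toC M K.eps = toC M (K.wel 1 - ζ i • K.eps) := by
      rw [← hcor, mul_assoc, K.toC_eps_mul_self]
    rw [hεd, mul_sub, h0, sub_zero, h1]
  set εH := toC M (incl K.C1 K.eps) with hεH
  have hεHeq : εH = incl K.C1 (toC M K.eps) := mapR_incl _ _ _
  have hεH2 : εH * εH = εH := by rw [hεHeq, ← map_mul, K.toC_eps_mul_self]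
  have hadd : Lattice.cdim εG S' εH = Lattice.cdim εG S' (incl K.C1 (K.proj i)) +
      Lattice.cdim εG S' (incl K.C1 εd) := by
    have h : (Lattice.cdim εG S' εH : ℂ) = ((Lattice.cdim εG S' (incl K.C1 (K.proj i)) +
        Lattice.cdim εG S' (incl K.C1 εd) : ℕ) : ℂ) := by
      rw [Nat.cast_add, Lattice.cdim_idem hε hεH2,
        Lattice.cdim_idem hε (by rw [← map_mul, K.proj_mul_self]),
        Lattice.cdim_idem hε (by rw [← map_mul, hεd2]), ← Finset.sum_add_distrib, hεHeq, hεd]
      refine Finset.sum_congr rfl fun χ _ => ?_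
      rw [map_sub, map_sub]
      ring
    exact_mod_cast h
  have hεF : toF M (incl K.C1 K.eps) = K.epsH := mapR_incl _ _ _
  have hidem : incl K.C1 K.eps * incl K.C1 K.eps = incl K.C1 K.eps := by
    rw [← map_mul, K.eps_mul_self]
  have hrE := Lattice.rank_op_idem (S := S') hM hε hidem
  rw [hεF, ← hεH] at hrE
  set op := Lattice.op εG S' with hop
  have hrY : Module.finrank (Block.ResF M)
      (LinearMap.range (op (K.welH 1) - op K.epsH)) ≤ Lattice.cdim εG S' (incl K.C1 εd) := by
    rw [← map_sub, ← haiF]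
    refine (Lattice.rank_op_le hM hε ai).trans ?_
    rw [hai, mapR_incl, hfac, map_mul]
    exact Lattice.cdim_mul_le _ _
  set Y := op (K.welH 1) - op K.epsH
  set U := LinearMap.range (op K.epsH)
  have hdim := LinearMap.finrank_range_add_finrank_ker (Y.domRestrict U)
  have hr : Module.finrank (Block.ResF M) (LinearMap.range (Y.domRestrict U)) ≤
      Module.finrank (Block.ResF M) (LinearMap.range Y) :=
    Submodule.finrank_mono (fun x ⟨w, hw⟩ => ⟨w.1, hw⟩)
  have hk : Module.finrank (Block.ResF M) (LinearMap.ker (Y.domRestrict U)) ≤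
      Module.finrank (Block.ResF M)
        (U ⊓ LinearMap.ker Y : Submodule (Block.ResF M) (Lattice.V εG S')) := by
    refine LinearMap.finrank_le_finrank_of_injective
      (f := (U.subtype ∘ₗ (LinearMap.ker (Y.domRestrict U)).subtype).codRestrict
        (U ⊓ LinearMap.ker Y) fun w => ⟨w.1.2, w.2⟩) ?_
    intro a b h
    have h1 := congrArg Subtype.val h
    exact Subtype.ext (Subtype.ext h1)
  have hmain : Module.finrank (Block.ResF M)
      (U ⊓ LinearMap.ker Y : Submodule (Block.ResF M) (Lattice.V εG S')) ≤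
        Module.finrank (Block.ResF M) (LinearMap.range (op (∑ j, K.welH j))) + 1 :=
    K.finrank_socle_le op fun Φ hΦ => Lattice.exists_scalar hM hε hprim Φ hΦ
  have h1 := hm i
  have h2 := hm l
  rw [← h1, ← h2]
  have : Lattice.cdim εG S' (incl K.C1 (K.proj i)) ≤
      Lattice.cdim εG S' (incl K.C1 (K.proj l)) + 1 := by
    have e1 : Module.finrank (Block.ResF M) U = Lattice.cdim εG S' εH := hrE
    omega
  exact_mod_cast this

end CycData

end Cfsg.Agent.BlockCount
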