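import Cfsg.Agent.BlockCount.CyclicSpread
import Cfsg.Agent.BlockCount.CyclicOrbits
import Cfsg.Prelude.Def_BlockRank

/-!
A block with cyclic defect group: the generalized decomposition matrix, the relation on regular
elements, the congruences of the degrees and the regular rank.
-/

set_option autoImplicit false
set_option linter.style.haveILetI false
set_option linter.unusedSectionVars false

namespace Cfsg.Agent.BlockCount

open MonoidAlgebra Cfsg
open Cfsg.Agent.BrauerPairs Cfsg.Agent.BrauerPairs.Nil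
open Cfsg.Agent.Block (toC toF charLin)
open Cfsg.Agent.BlkChar.Cyclo
open Cfsg.Agent.Brauer.ProjVec (ev)
open scoped ComplexConjugate Classical

universe u

/-- The rows of a matrix with Gram matrix `1 + e J` which has enough orthogonal vectors with small
spread: one row for each column and `e` constant rows. -/
theorem exists_rows {X : Type u} [Fintype X] {m : ℕ} (hm : 0 < m) (a : X → Fin m → ℤ) {e : ℕ}
    (hgram : ∀ i l, ∑ x, a x i * a x l = (if i = l then 1 else 0) + (e : ℤ))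
    (hrow : ∀ x, ∃ i, a x i ≠ 0)
    (hpim : ∀ x, ∃ d : X → ℤ, 0 < d x ∧ (∀ x', 0 ≤ d x') ∧ (∀ i, ∑ x', d x' * a x' i = 0) ∧
      ∀ S : Finset X, (∀ i, |∑ x' ∈ S, d x' * a x' i| ≤ 1) ∧
        ∀ i l, |∑ x' ∈ S, d x' * a x' i - ∑ x' ∈ S, d x' * a x' l| ≤ 1) :
    ∃ (y : Fin m → X) (s : X → ℤ), Function.Injective y ∧ (∀ x, s x = 1 ∨ s x = -1) ∧
      (∀ x, (∀ i, y i ≠ x) → ∀ q, a x q = s x) ∧
      (∀ i q, a (y i) q = if i = q then s (y i) else 0) ∧
      (Finset.univ.filter fun x => ∀ i, y i ≠ x).card = e := by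
  -- the sign of a row
  have hsgn : ∀ x, ∃ σ : ℤ, (σ = 1 ∨ σ = -1) ∧ ∀ i, a x i = 0 ∨ a x i = σ := by
    intro x
    obtain ⟨d, hd, -, -, hS⟩ := hpim x
    obtain ⟨h1, h2⟩ := hS {x}
    simp only [Finset.sum_singleton, ← mul_sub] at h1 h2
    have b1 : ∀ i, -1 ≤ a x i ∧ a x i ≤ 1 := fun i => by
      have h := abs_le.1 (h1 i)
      constructor <;> nlinarith [h.1, h.2]
    have b2 : ∀ i l, -1 ≤ a x i - a x l ∧ a x i - a x l ≤ 1 := fun i l => by
      have h := abs_le.1 (h2 i l)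
      constructor <;> nlinarith [h.1, h.2]
    obtain ⟨i₀, hi₀⟩ := hrow x
    refine ⟨a x i₀, ?_, fun i => ?_⟩
    · have := b1 i₀; omega
    · have := b1 i₀; have := b1 i; have := b2 i i₀; omega
  choose s hs hval using hsgn
  have hs0 : ∀ x, s x ≠ 0 := fun x => by have := hs x; omega
  -- counting the constant rows
  have hcount : ∀ y : Fin m → X, Function.Injective y →
      (∀ x, (∀ i, y i ≠ x) → ∀ q, a x q = s x) →
      (∀ i q, a (y i) q = if i = q then s (y i) else 0) →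
      (Finset.univ.filter fun x => ∀ i, y i ≠ x).card = e := by
    intro y hy hK hY
    have h := hgram ⟨0, hm⟩ ⟨0, hm⟩
    rw [if_pos rfl, ← Finset.sum_filter_add_sum_filter_not Finset.univ (fun x => ∀ i, y i ≠ x)] at h
    have hsq : ∀ x, s x * s x = 1 := fun x => by rcases hs x with h | h <;> rw [h] <;> rfl
    rw [Finset.sum_congr rfl fun x hx => by rw [hK x (Finset.mem_filter.1 hx).2, hsq],
      Finset.sum_const, nsmul_eq_mul, mul_one,
      show (Finset.univ.filter fun x => ¬ ∀ i, y i ≠ x) = Finset.univ.image y by ext x; simp [eq_comm],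
      Finset.sum_image fun i _ l _ h => hy h] at h
    rw [Finset.sum_eq_single (⟨0, hm⟩ : Fin m)
      (fun i _ hi => by rw [hY, if_neg hi, mul_zero]) (by simp), hY, if_pos rfl, hsq] at h
    omega
  suffices H : ∃ y : Fin m → X, Function.Injective y ∧
      (∀ x, (∀ i, y i ≠ x) → ∀ q, a x q = s x) ∧
      (∀ i q, a (y i) q = if i = q then s (y i) else 0) by
    obtain ⟨y, hy, hK, hY⟩ := H
    exact ⟨y, s, hy, hs, hK, hY, hcount y hy hK hY⟩
  rcases Nat.lt_or_ge m 2 with h1 | h2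
  · -- one column
    obtain rfl : m = 1 := by omega
    have hall : ∀ x q, a x q = s x := fun x q => by
      obtain ⟨i, hi⟩ := hrow x
      rw [Subsingleton.elim q i]
      exact (hval x i).resolve_left hi
    obtain ⟨x₀⟩ : Nonempty X := by
      by_contra hne
      haveI := not_nonempty_iff.1 hne
      have h := hgram 0 0
      simp at h
      omega
    refine ⟨fun _ => x₀, fun i l _ => Subsingleton.elim i l, fun x _ q => hall x q, fun i q => ?_⟩
    rw [if_pos (Subsingleton.elim i q), hall]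
  obtain ⟨y, hy, hdiff⟩ := exists_special (a := a) (e := (e : ℤ)) (fun i l => by convert hgram i l) (by rw [Fintype.card_fin]; exact h2)
  have hK : ∀ x, (∀ i, y i ≠ x) → ∀ q, a x q = s x := by
    intro x hx q
    obtain ⟨i, hi⟩ := hrow x
    have h : a x q = a x i := by
      by_contra hne
      have hqi : q ≠ i := fun h => hne (by rw [h])
      rcases (hdiff hqi x).1 hne with h | h
      · exact hx q h.symm
      · exact hx i h.symm
    rw [h]
    exact (hval x i).resolve_left hi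
  have hne : ∀ i l, i ≠ l → a (y i) i ≠ a (y i) l := fun i l h => (hdiff h _).2 (Or.inl rfl)
  have hoff : ∀ i l n, l ≠ i → n ≠ i → a (y i) l = a (y i) n := by
    intro i l n hl hn
    by_cases hln : l = n
    · rw [hln]
    by_contra hne'
    rcases (hdiff hln _).1 hne' with h | h
    · exact hl (hy h).symm
    · exact hn (hy h).symm
  have htype : ∀ i, (a (y i) i = s (y i) ∧ ∀ l, l ≠ i → a (y i) l = 0) ∨
      (a (y i) i = 0 ∧ ∀ l, l ≠ i → a (y i) l = s (y i)) := by
    intro i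
    rcases hval (y i) i with h | h
    · exact Or.inr ⟨h, fun l hl => (hval _ l).resolve_left fun h' => hne i l (Ne.symm hl) (by rw [h, h'])⟩
    · exact Or.inl ⟨h, fun l hl => (hval _ l).resolve_right fun h' => hne i l (Ne.symm hl) (by rw [h, h'])⟩
  by_cases hA : ∀ i, a (y i) i = s (y i)
  · refine ⟨y, hy, hK, fun i q => ?_⟩
    by_cases hiq : i = q
    · subst hiq; rw [if_pos rfl, hA]
    · rw [if_neg hiq]
      exact ((htype i).resolve_right fun h => hs0 _ ((hA i).symm.trans h.1)).2 q (Ne.symm hiq)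
  -- all of them are of the second kind
  have hB : ∀ i, a (y i) i = 0 ∧ ∀ l, l ≠ i → a (y i) l = s (y i) := by
    push Not at hA
    obtain ⟨i₁, hi₁⟩ := hA
    have hB1 := (htype i₁).resolve_left fun h => hi₁ h.1
    intro i
    by_cases hi : i = i₁
    · rw [hi]; exact hB1
    refine (htype i).resolve_left fun hA' => ?_
    have h1 := hgram i i
    have h2 := hgram i₁ i₁
    rw [if_pos rfl] at h1 h2
    have h3 : ∑ x, (a x i * a x i - a x i₁ * a x i₁) = 0 := by
      rw [Finset.sum_sub_distrib, h1, h2, sub_self]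
    rw [Finset.sum_eq_add (y i) (y i₁) (hy.ne hi) (fun x _ hx => by
      rw [show a x i = a x i₁ from by
        by_contra hne'
        rcases (hdiff hi x).1 hne' with h | h
        · exact hx.1 h
        · exact hx.2 h, sub_self]) (by simp) (by simp), hA'.1, hA'.2 _ (Ne.symm hi), hB1.1,
      hB1.2 i hi] at h3
    rcases hs (y i) with h | h <;> rcases hs (y i₁) with h' | h' <;> rw [h, h'] at h3 <;>
      norm_num at h3
  rcases h2.lt_or_eq with h3 | h2'
  · -- impossible with three or more columns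
    exfalso
    obtain ⟨d, hd, hd0, horth, hS⟩ := hpim (y ⟨0, hm⟩)
    set i := (⟨0, hm⟩ : Fin m)
    have hzero : ∀ l, l ≠ i → d (y l) = 0 := by
      intro l hl
      by_contra hdl
      have hdl' : 1 ≤ d (y l) := by have := hd0 (y l); omega
      obtain ⟨n, hn⟩ : ((Finset.univ.erase i).erase l).Nonempty := by
        rw [← Finset.card_pos, Finset.card_erase_of_mem (by simp [hl]),
          Finset.card_erase_of_mem (Finset.mem_univ _), Finset.card_univ, Fintype.card_fin]
        omega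
      simp only [Finset.mem_erase, Finset.mem_univ, and_true] at hn
      obtain ⟨g1, g2⟩ := hS {y i, y l}
      have e := fun q => Finset.sum_pair (f := fun x => d x * a x q) (hy.ne hl.symm)
      have t1 := abs_le.1 (g1 n)
      have t2 := abs_le.1 (g2 i l)
      rw [e, (hB i).2 n hn.2, (hB l).2 n hn.1] at t1
      rw [e, e, (hB i).1, (hB i).2 l hl, (hB l).1, (hB l).2 i hl.symm] at t2
      rcases hs (y i) with h | h <;> rcases hs (y l) with h' | h' <;> rw [h, h'] at t1 t2 <;> omega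
    obtain ⟨l, hl⟩ : ∃ l, l ≠ i := Fintype.exists_ne_of_one_lt_card (by rw [Fintype.card_fin]; omega) i
    have h4 : ∑ x, (d x * a x i - d x * a x l) = 0 := by
      rw [Finset.sum_sub_distrib, horth, horth, sub_self]
    rw [Finset.sum_eq_add (y i) (y l) (hy.ne hl.symm) (fun x _ hx => by
      rw [show a x i = a x l from by
        by_contra hne'
        rcases (hdiff hl.symm x).1 hne' with h | h
        · exact hx.1 h
        · exact hx.2 h, sub_self]) (by simp) (by simp), hzero l hl, (hB i).1, (hB i).2 l hl] at h4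
    simp only [zero_mul, sub_self, add_zero, mul_zero, zero_sub, neg_eq_zero, mul_eq_zero] at h4
    rcases h4 with h | h
    · omega
    · exact hs0 _ h
  · -- two columns: exchange them
    obtain rfl : m = 2 := h2'.symm
    let σ : Fin 2 → Fin 2 := fun i => i.rev
    refine ⟨y ∘ σ, hy.comp Fin.rev_injective, fun x hx q => hK x (fun i h => hx i.rev (by
      simp [σ, h])) q, fun i q => ?_⟩
    by_cases hiq : i = q
    · subst hiq
      rw [if_pos rfl]
      exact (hB _).2 i (by revert i; decide)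
    · rw [if_neg hiq]
      have : i.rev = q := by
        revert hiq
        revert i q
        decide
      show a (y i.rev) q = 0
      rw [← this]
      exact (hB _).1

variable {p : ℕ} [hp : Fact p.Prime] {M : Ideal AlgInt} [M.IsPrime] [CharP (Block.ResF M) p]

namespace CycData

variable {H : Type u} [Group H] [Fintype H] (K : CycData p M H)

theorem dvd_of_vanish {w : IrrCharacter H → ℤ}
    (hw : ∀ g : H, p ∣ orderOf g →
      ∑ ξ ∈ Finset.univ.filter (· ∈ K.β.1), (w ξ : ℂ) * (ξ : H → ℂ) g = 0) :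
    (p : ℤ) ^ (Nat.card H).factorization p ∣
      ∑ ξ ∈ Finset.univ.filter (· ∈ K.β.1), w ξ * (charDegree (ξ : H → ℂ) : ℤ) := by
  set F : H → ℂ := ∑ ξ ∈ Finset.univ.filter (· ∈ K.β.1), (w ξ : ℂ) • (ξ : H → ℂ) with hF
  have hFg : ∀ g, F g = ∑ ξ ∈ Finset.univ.filter (· ∈ K.β.1), (w ξ : ℂ) * (ξ : H → ℂ) g :=
    fun g => by simp [hF, Finset.sum_apply]
  have h := Brauer.memLocalRing_div_pPart_of_vanish_singular K.isPModular F
    (fun g x => by simp only [hFg, Char.irr_isClassFunction (Subtype.prop _) g x])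
    (fun χ => by
      rw [hF, Char.classInner_sum_left]
      refine (Block.localRing M).sum_mem fun ξ _ => ?_
      rw [Char.classInner_smul_left, Char.classInner_irrCharacter]
      split_ifs
      · rw [mul_one]; exact intCast_mem (Block.localRing M) _
      · rw [mul_zero]; exact (Block.localRing M).zero_mem)
    (fun g hg => by rw [hFg]; exact hw g hg)
  set n := (Nat.card H).factorization p
  set z := ∑ ξ ∈ Finset.univ.filter (· ∈ K.β.1), w ξ * (charDegree (ξ : H → ℂ) : ℤ) with hz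
  have hF1 : F 1 = (z : ℂ) := by
    rw [hFg, hz, Int.cast_sum]
    refine Finset.sum_congr rfl fun ξ _ => ?_
    rw [(BlockVal.irr_one_eq_charDegree ξ).1]
    push_cast
    rfl
  rw [hF1] at h
  by_cases hz0 : z.natAbs = 0
  · rw [Int.natAbs_eq_zero.1 hz0]; exact dvd_zero _
  have h2 : MemLocalRing M ((z.natAbs : ℂ) / ((p ^ n : ℕ) : ℂ)) := by
    rcases Int.natAbs_eq z with he | he
    · rwa [show (z.natAbs : ℂ) = (z : ℂ) by
        rw [← Int.cast_natCast z.natAbs]; exact congrArg _ he.symm]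
    · rw [show (z.natAbs : ℂ) = -(z : ℂ) by
        rw [← Int.cast_natCast z.natAbs, ← Int.cast_neg]; exact congrArg _ (by omega), neg_div]
      exact (Block.localRing M).neg_mem h
  have h3 := (Block.memLocalRing_natCast_div_iff K.isPModular hz0
    (pow_ne_zero _ hp.out.ne_zero)).1 h2
  rw [hp.out.factorization_pow, Finsupp.single_eq_same] at h3
  have h4 := (hp.out.pow_dvd_iff_le_factorization hz0).2 h3
  exact Int.dvd_natAbs.1 (by exact_mod_cast h4)

/-- The rows of the generalized decomposition numbers. -/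
theorem exists_coeff_rows : ∃ (m : ℕ) (r : Fin m → ZMod (p ^ K.b))
    (y : Fin m → {χ : IrrCharacter H // χ ∈ K.β.1}) (s : {χ : IrrCharacter H // χ ∈ K.β.1} → ℤ)
    (s₀ : ℤ),
    0 < m ∧ Nat.card K.E * m + 1 = p ^ K.b ∧ Function.Injective y ∧
    (∀ x, s x = 1 ∨ s x = -1) ∧ (∀ q, s (y q) = s₀) ∧ (s₀ = 1 ∨ s₀ = -1) ∧
    (∀ q, r q ≠ 0) ∧
    (∀ j : ZMod (p ^ K.b), j ≠ 0 → ∃! q, (∃ ε ∈ K.E, (ε : ZMod (p ^ K.b)) * r q = j) ∧
      ∀ x : {χ : IrrCharacter H // χ ∈ K.β.1}, K.coeff₀ x.1 j = K.coeff₀ x.1 (r q)) ∧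
    (∀ x, (∀ i, y i ≠ x) → ∀ q, K.coeff₀ x.1 (r q) = s x) ∧
    (∀ i q, K.coeff₀ (y i).1 (r q) = if i = q then s₀ else 0) ∧
    (Finset.univ.filter fun x => ∀ i, y i ≠ x).card = Nat.card K.E ∧
    (∀ q q', charDegree ((y q).1 : H → ℂ) = charDegree ((y q').1 : H → ℂ)) ∧
    (∀ v : IrrCharacter H → ℂ, (∀ g : H, p ∣ orderOf g →
        ∑ ξ ∈ Finset.univ.filter (fun χ : IrrCharacter H => χ ∈ K.β.1), v ξ * (ξ : H → ℂ) g = 0) →
      ∀ q, ∑ ξ : {χ : IrrCharacter H // χ ∈ K.β.1}, v ξ.1 * (K.coeff₀ ξ.1 (r q) : ℂ) = 0) ∧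
    ∀ v : IrrCharacter H → ℂ,
      (∀ q, ∑ ξ : {χ : IrrCharacter H // χ ∈ K.β.1}, v ξ.1 * (K.coeff₀ ξ.1 (r q) : ℂ) = 0) →
      ∀ g : H, p ∣ orderOf g →
        ∑ ξ ∈ Finset.univ.filter (fun χ : IrrCharacter H => χ ∈ K.β.1), v ξ * (ξ : H → ℂ) g = 0 := by
  haveI : Fact (1 < p ^ K.b) := ⟨K.one_lt⟩
  set X := {χ : IrrCharacter H // χ ∈ K.β.1}
  set B := Finset.univ.filter (fun χ : IrrCharacter H => χ ∈ K.β.1) with hBdef
  have hXsum : ∀ {A : Type} [AddCommMonoid A] (f : IrrCharacter H → A),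
      ∑ χ ∈ B, f χ = ∑ ξ : X, f ξ.1 :=
    fun f => Finset.sum_subtype _ (by simp [hBdef]) f
  obtain ⟨m, r, hm, hem, hrow, hgram, hzero, hr0, hcover⟩ := CyclicColumns.exists_orbit_matrix
    (X := X) K.E K.one_lt (fun r hr l hl h => K.free hr hl h)
    (fun ξ => K.coeff₀ ξ.1) (fun ξ => by simp [coeff₀])
    (fun ξ r hr j hj => K.cev_inv ξ.1 hr hj)
    (fun j hj => by
      rw [← hXsum (fun χ => cev (K.coeff₀ χ) j * conj (cev (K.coeff₀ χ) j)), hBdef,
        Finset.sum_filter_of_ne fun χ _ h => by_contra fun h' => h (by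
          rw [K.cev_eq_zero h' hj, zero_mul]), K.sum_cev_self hj])
    (fun j j' hj hj' hn => by
      rw [← hXsum (fun χ => cev (K.coeff₀ χ) j * conj (cev (K.coeff₀ χ) j')), hBdef,
        Finset.sum_filter_of_ne fun χ _ h => by_contra fun h' => h (by
          rw [K.cev_eq_zero h' hj, zero_mul]), K.sum_cev_orth hj hj' hn])
    (fun ξ => ⟨1, one_ne_zero, K.cev_ne_zero ξ.2 one_ne_zero⟩)
  set a : X → Fin m → ℤ := fun ξ q => K.coeff₀ ξ.1 (r q) with ha
  -- orthogonality
  have hofv : ∀ v : IrrCharacter H → ℂ, (∀ g : H, p ∣ orderOf g →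
      ∑ ξ ∈ B, v ξ * (ξ : H → ℂ) g = 0) → ∀ q, ∑ ξ : X, v ξ.1 * (a ξ q : ℂ) = 0 := by
    intro v hv
    refine (hzero fun ξ => v ξ.1).2 fun j hj => ?_
    rw [← hXsum (fun χ => v χ * cev (K.coeff₀ χ) j)]
    exact K.sum_cev_eq_zero v hv hj
  have htov : ∀ v : IrrCharacter H → ℂ, (∀ q, ∑ ξ : X, v ξ.1 * (a ξ q : ℂ) = 0) →
      ∀ g : H, p ∣ orderOf g → ∑ ξ ∈ B, v ξ * (ξ : H → ℂ) g = 0 := by
    intro v hv g hg
    refine K.sum_eq_zero_of_cev v (fun j hj => ?_) g hg
    rw [hXsum (fun χ => v χ * cev (K.coeff₀ χ) j)]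
    exact (hzero fun ξ => v ξ.1).1 hv j hj
  have hweak : ∀ g : H, ¬ p ∣ orderOf g → ∀ h : H, p ∣ orderOf h →
      ∑ ξ ∈ B, conj ((ξ : H → ℂ) g) * (ξ : H → ℂ) h = 0 := by
    intro g hg h hh
    have h1 := Brauer.weakOrth_of_integral K.isPModular K.β.1
      (Block.blockCoeff_memLocalRing K.β.2) hg hh
    rw [finsum_mem_eq_toFinset_sum] at h1
    have h2 := congrArg conj h1
    rw [map_sum, map_zero, show K.β.1.toFinset = B by ext; simp [hBdef]] at h2
    rw [← h2]
    exact Finset.sum_congr rfl fun ξ _ => by rw [map_mul, Complex.conj_conj]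
  -- the projective indecomposables
  obtain ⟨r', d, ε, hε, hprim, hev, hout, -, -, mj, hmj, hdeg⟩ :=
    Brauer.ProjVec.exists_system K.isPModular K.β.2
  have hpim : ∀ ξ : X, ∃ d' : X → ℤ, 0 < d' ξ ∧ (∀ x', 0 ≤ d' x') ∧
      (∀ i, ∑ x', d' x' * a x' i = 0) ∧
      ∀ S : Finset X, (∀ i, |∑ x' ∈ S, d' x' * a x' i| ≤ 1) ∧
        ∀ i l, |∑ x' ∈ S, d' x' * a x' i - ∑ x' ∈ S, d' x' * a x' l| ≤ 1 := by
    intro ξ
    obtain ⟨j, hj⟩ : ∃ j, d j ξ.1 ≠ 0 := by
      by_contra hcon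
      push Not at hcon
      refine Char.irr_one_ne_zero ξ.1.2 ?_
      rw [hdeg ξ.1 ξ.2]
      exact Finset.sum_eq_zero fun j _ => by rw [hcon j]; simp
    refine ⟨fun x' => (d j x'.1 : ℤ), ?_, fun x' => Int.natCast_nonneg _, fun i => ?_, fun S => ?_⟩
    · show (0 : ℤ) < (d j ξ.1 : ℤ)
      exact_mod_cast Nat.pos_of_ne_zero hj
    · apply Int.cast_injective (α := ℂ)
      push_cast
      refine hofv (fun χ => (d j χ : ℂ)) (fun g hg => ?_) i
      have h1 := congrArg conj (CharAlg.sum_ev_mul_eq_zero K.isPModular (hε j).eq hg)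
      rw [map_sum, map_zero] at h1
      rw [← h1, hBdef, Finset.sum_filter]
      refine Finset.sum_congr rfl fun χ _ => ?_
      rw [map_mul, Complex.conj_conj, hev, map_natCast]
      split_ifs with hχ
      · rfl
      · rw [hout j χ hχ, Nat.cast_zero, zero_mul]
    · set S' : Finset (IrrCharacter H) := S.map (Function.Embedding.subtype _)
      set sf : ZMod (p ^ K.b) → ℤ := fun c => ∑ χ ∈ S', (d j χ : ℤ) * K.coeffA χ c
      have hsp : ∀ c c', sf c ≤ sf c' + 1 := fun c c' =>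
        K.spread (hε j).eq (hprim j).1 (d j) (hev j) S' c c'
      have hq : ∀ i, ∑ x' ∈ S, (d j x'.1 : ℤ) * a x' i = sf (r i) - sf 0 := by
        intro i
        simp only [sf, S', Finset.sum_map, Function.Embedding.coe_subtype, ← Finset.sum_sub_distrib,
          ← mul_sub]
        rfl
      refine ⟨fun i => ?_, fun i l => ?_⟩
      · rw [hq, abs_le]
        have := hsp (r i) 0; have := hsp 0 (r i)
        omega
      · rw [hq, hq, abs_le]
        have := hsp (r i) (r l); have := hsp (r l) (r i)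
        omega
  obtain ⟨y, s, hy, hs, hK, hY, hcard⟩ := exists_rows hm a hgram hrow hpim
  set Kx := Finset.univ.filter (fun ξ : X => ∀ i, y i ≠ ξ) with hKx
  have hcard' : Kx.card = Nat.card K.E := by rw [← hcard, hKx]; congr 1; ext; simp
  -- the equation of a column
  have hcol : ∀ (v : X → ℂ) q, ∑ ξ, v ξ * (a ξ q : ℂ) =
      v (y q) * (s (y q) : ℂ) + ∑ ξ ∈ Kx, v ξ * (s ξ : ℂ) := by
    intro v q
    rw [← Finset.sum_filter_add_sum_filter_not Finset.univ (fun ξ : X => ∀ i, y i ≠ ξ), add_comm,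
      show (Finset.univ.filter fun ξ : X => ¬ ∀ i, y i ≠ ξ) = Finset.univ.image y by
        ext x; simp [eq_comm], Finset.sum_image fun i _ l _ h => hy h]
    congr 1
    · rw [Finset.sum_eq_single q (fun i _ hi => by rw [hY, if_neg hi]; simp) (by simp), hY,
        if_pos rfl]
    · exact Finset.sum_congr rfl fun ξ hξ => by rw [hK ξ (Finset.mem_filter.1 hξ).2]
  set q₀ : Fin m := ⟨0, hm⟩
  set s₀ := s (y q₀)
  -- the degrees of the exceptional characters
  have hdegY : ∀ q, s (y q) = s₀ ∧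
      charDegree ((y q).1 : H → ℂ) = charDegree ((y q₀).1 : H → ℂ) := by
    intro q
    have h := fun q => hofv (fun χ => conj ((χ : H → ℂ) 1))
      (hweak 1 (by simpa using hp.out.one_lt.ne')) q
    have h1 := h q
    have h2 := h q₀
    rw [hcol (fun ξ : X => conj ((ξ.1 : H → ℂ) 1))] at h1 h2
    simp only [(BlockVal.irr_one_eq_charDegree (y q).1).1,
      (BlockVal.irr_one_eq_charDegree (y q₀).1).1, map_natCast] at h1 h2
    have h3 : (charDegree ((y q).1 : H → ℂ) : ℤ) * s (y q) =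
        (charDegree ((y q₀).1 : H → ℂ) : ℤ) * s₀ := by
      apply Int.cast_injective (α := ℂ)
      push_cast
      linear_combination h1 - h2
    have p1 : 0 < charDegree ((y q).1 : H → ℂ) :=
      Nat.pos_of_ne_zero (BlockVal.irr_one_eq_charDegree (y q).1).2
    have p2 : 0 < charDegree ((y q₀).1 : H → ℂ) :=
      Nat.pos_of_ne_zero (BlockVal.irr_one_eq_charDegree (y q₀).1).2
    rcases hs (y q) with e1 | e1 <;> rcases hs (y q₀) with e2 | e2 <;>
      (have e3 : s₀ = _ := e2; rw [e1, e3] at h3; rw [e1, e3]; constructor <;> omega)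
  refine ⟨m, r, y, s, s₀, hm, hem, hy, hs, fun q => (hdegY q).1, hs _, hr0, hcover, hK,
    fun i q => ?_, ?_, fun q q' => (hdegY q).2.trans (hdegY q').2.symm, hofv, htov⟩
  · show a (y i) q = _
    rw [hY, (hdegY i).1]
  · rw [← hcard]; congr 1; ext; simp

/-- The structure of a block with cyclic defect group. -/
theorem exists_structure : ∃ (m : ℕ) (y : Fin m → IrrCharacter H) (s : IrrCharacter H → ℤ) (s₀ : ℤ),
    0 < m ∧ Nat.card K.E * m + 1 = p ^ K.b ∧ Function.Injective y ∧ (∀ i, y i ∈ K.β.1) ∧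
    (∀ χ, s χ = 1 ∨ s χ = -1) ∧ (s₀ = 1 ∨ s₀ = -1) ∧
    Nat.card {χ : IrrCharacter H | χ ∈ K.β.1 ∧ ∀ i, y i ≠ χ} = Nat.card K.E ∧
    (∀ i (g : H), ¬ p ∣ orderOf g → (s₀ : ℂ) * (y i : H → ℂ) g +
      ∑ χ ∈ Finset.univ.filter (fun χ => χ ∈ K.β.1 ∧ ∀ i, y i ≠ χ),
        (s χ : ℂ) * (χ : H → ℂ) g = 0) ∧
    (∀ χ ∈ K.β.1, (∀ i, y i ≠ χ) → ∀ χ' ∈ K.β.1, (∀ i, y i ≠ χ') →
      (p : ℤ) ^ (Nat.card H).factorization p ∣
        s χ * (charDegree (χ : H → ℂ) : ℤ) - s χ' * (charDegree (χ' : H → ℂ) : ℤ)) ∧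
    (∀ χ ∈ K.β.1, (∀ i, y i ≠ χ) → ∀ i,
      (p : ℤ) ^ (Nat.card H).factorization p ∣
        s χ * (charDegree (χ : H → ℂ) : ℤ) - (m : ℤ) * s₀ * (charDegree (y i : H → ℂ) : ℤ)) ∧
    blockRank p K.β.1 = Nat.card K.E := by
  let X := {χ : IrrCharacter H // χ ∈ K.β.1}
  obtain ⟨m, r, y, s, s₀, hm, hem, hy, hs, hsY, hs₀, -, -, hK, hY, hcard, hdY, hofv', htov'⟩ :=
    K.exists_coeff_rows
  set B := Finset.univ.filter (fun χ : IrrCharacter H => χ ∈ K.β.1) with hBdef
  let a : X → Fin m → ℤ := fun ξ q => K.coeff₀ ξ.1 (r q)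
  have hofv : ∀ v : IrrCharacter H → ℂ, (∀ g : H, p ∣ orderOf g →
      ∑ ξ ∈ B, v ξ * (ξ : H → ℂ) g = 0) → ∀ q, ∑ ξ : X, v ξ.1 * (a ξ q : ℂ) = 0 := hofv'
  have htov : ∀ v : IrrCharacter H → ℂ, (∀ q, ∑ ξ : X, v ξ.1 * (a ξ q : ℂ) = 0) →
      ∀ g : H, p ∣ orderOf g → ∑ ξ ∈ B, v ξ * (ξ : H → ℂ) g = 0 := htov'
  replace hK : ∀ x : X, (∀ i, y i ≠ x) → ∀ q, a x q = s x := hK
  replace hY : ∀ i q, a (y i) q = if i = q then s₀ else 0 := hY
  have hweak : ∀ g : H, ¬ p ∣ orderOf g → ∀ h : H, p ∣ orderOf h →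
      ∑ ξ ∈ B, conj ((ξ : H → ℂ) g) * (ξ : H → ℂ) h = 0 := by
    intro g hg h hh
    have h1 := Brauer.weakOrth_of_integral K.isPModular K.β.1
      (Block.blockCoeff_memLocalRing K.β.2) hg hh
    rw [finsum_mem_eq_toFinset_sum] at h1
    have h2 := congrArg conj h1
    rw [map_sum, map_zero, show K.β.1.toFinset = B by ext; simp [hBdef]] at h2
    rw [← h2]
    exact Finset.sum_congr rfl fun ξ _ => by rw [map_mul, Complex.conj_conj]
  set Kx := Finset.univ.filter (fun ξ : X => ∀ i, y i ≠ ξ) with hKx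
  have hcard' : Kx.card = Nat.card K.E := by rw [← hcard, hKx]
  -- the equation of a column
  have hcol : ∀ (v : X → ℂ) q, ∑ ξ, v ξ * (a ξ q : ℂ) =
      v (y q) * (s (y q) : ℂ) + ∑ ξ ∈ Kx, v ξ * (s ξ : ℂ) := by
    intro v q
    rw [← Finset.sum_filter_add_sum_filter_not Finset.univ (fun ξ : X => ∀ i, y i ≠ ξ), add_comm,
      show (Finset.univ.filter fun ξ : X => ¬ ∀ i, y i ≠ ξ) = Finset.univ.image y by
        ext x; simp [eq_comm], Finset.sum_image fun i _ l _ h => hy h]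
    congr 1
    · rw [Finset.sum_eq_single q (fun i _ hi => by rw [hY, if_neg hi]; simp) (by simp), hY,
        if_pos rfl, hsY q]
    · exact Finset.sum_congr rfl fun ξ hξ => by rw [hK ξ (Finset.mem_filter.1 hξ).2]
  set q₀ : Fin m := ⟨0, hm⟩
  have hdegY : ∀ q, s (y q) = s₀ ∧
      charDegree ((y q).1 : H → ℂ) = charDegree ((y q₀).1 : H → ℂ) :=
    fun q => ⟨hsY q, hdY q q₀⟩
  set s' : IrrCharacter H → ℤ := fun χ => if h : χ ∈ K.β.1 then s ⟨χ, h⟩ else 1
  have hs' : ∀ ξ : X, s' ξ.1 = s ξ := fun ξ => dif_pos ξ.2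
  set y' : Fin m → IrrCharacter H := fun i => (y i).1
  have hmemK : ∀ ξ : X, ξ ∈ Kx ↔ ∀ i, y' i ≠ ξ.1 := fun ξ => by
    simp only [hKx, y', Finset.mem_filter, Finset.mem_univ, true_and]
    exact ⟨fun h i hi => h i (Subtype.ext hi), fun h i hi => h i (congrArg Subtype.val hi)⟩
  -- the relation on regular elements
  have hrel : ∀ i (g : H), ¬ p ∣ orderOf g → (s₀ : ℂ) * (y' i : H → ℂ) g +
      ∑ ξ ∈ Kx, (s ξ : ℂ) * (ξ.1 : H → ℂ) g = 0 := by
    intro i g hg
    have h := hofv (fun χ => conj ((χ : H → ℂ) g)) (hweak g hg) i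
    rw [hcol (fun ξ : X => conj ((ξ.1 : H → ℂ) g)), (hdegY i).1] at h
    have h2 := congrArg conj h
    simp only [map_add, map_mul, map_sum, Complex.conj_conj, map_intCast, map_zero] at h2
    refine Eq.trans ?_ h2
    rw [mul_comm (s₀ : ℂ)]
    congr 1
    exact Finset.sum_congr rfl fun ξ _ => mul_comm _ _
  have hKsum : ∀ (f : IrrCharacter H → ℂ),
      ∑ χ ∈ Finset.univ.filter (fun χ => χ ∈ K.β.1 ∧ ∀ i, y' i ≠ χ), f χ =
        ∑ ξ ∈ Kx, f ξ.1 := by
    intro f
    refine Finset.sum_bij' (fun χ hχ => (⟨χ, (Finset.mem_filter.1 hχ).2.1⟩ : X)) (fun ξ _ => ξ.1)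
      (fun χ hχ => (hmemK _).2 (Finset.mem_filter.1 hχ).2.2)
      (fun ξ hξ => Finset.mem_filter.2 ⟨Finset.mem_univ _, ξ.2, (hmemK ξ).1 hξ⟩)
      (fun _ _ => rfl) (fun _ _ => rfl) fun _ _ => rfl
  -- vanishing combinations
  let w1 : X → IrrCharacter H → ℤ := fun ξ χ =>
    (if χ = ξ.1 then s ξ else 0) - ∑ l, if χ = y' l then s₀ else 0
  have hw1 : ∀ ξ ∈ Kx, ∀ g : H, p ∣ orderOf g →
      ∑ χ ∈ B, (w1 ξ χ : ℂ) * (χ : H → ℂ) g = 0 := by
    intro ξ hξ
    refine htov _ fun q => ?_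
    rw [hcol (fun x : X => (w1 ξ x.1 : ℂ))]
    have e1 : w1 ξ (y q).1 = -s₀ := by
      simp only [w1]
      rw [if_neg fun h => (hmemK ξ).1 hξ q h, Finset.sum_eq_single q
        (fun l _ hl => if_neg fun h => hl (hy (Subtype.ext h)).symm) (by simp), if_pos rfl, zero_sub]
    have e2 : ∀ x ∈ Kx, w1 ξ x.1 = if x = ξ then s ξ else 0 := by
      intro x hx
      simp only [w1]
      rw [Finset.sum_eq_zero fun l _ => if_neg fun h => (hmemK x).1 hx l h.symm, sub_zero]
      exact if_congr ⟨fun h => Subtype.ext h, fun h => congrArg Subtype.val h⟩ rfl rfl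
    rw [e1, (hdegY q).1, Finset.sum_congr rfl fun x hx => by rw [e2 x hx],
      Finset.sum_eq_single ξ (fun x _ hx => by rw [if_neg hx]; simp) (fun h => absurd hξ h),
      if_pos rfl]
    rcases hs ξ with h | h <;> rcases hs₀ with h' | h' <;> simp [h, h']
  have hcong : ∀ ξ ∈ Kx, (p : ℤ) ^ (Nat.card H).factorization p ∣
      s ξ * (charDegree (ξ.1 : H → ℂ) : ℤ) -
        (m : ℤ) * s₀ * (charDegree (y' q₀ : H → ℂ) : ℤ) := by
    intro ξ hξ
    have h := K.dvd_of_vanish (hw1 ξ hξ)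
    have e : ∑ χ ∈ B, w1 ξ χ * (charDegree (χ : H → ℂ) : ℤ) =
        s ξ * (charDegree (ξ.1 : H → ℂ) : ℤ) -
          (m : ℤ) * s₀ * (charDegree (y' q₀ : H → ℂ) : ℤ) := by
      simp only [w1, sub_mul, Finset.sum_mul, ite_mul, zero_mul, Finset.sum_sub_distrib]
      rw [Finset.sum_ite_eq', if_pos (by simp [hBdef, ξ.2]), Finset.sum_comm,
        Finset.sum_congr rfl fun l _ => by
          rw [Finset.sum_ite_eq', if_pos (by simp [hBdef, y', (y l).2]),
            show charDegree (y' l : H → ℂ) = charDegree (y' q₀ : H → ℂ) from (hdegY l).2],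
        Finset.sum_const, Finset.card_univ, Fintype.card_fin, nsmul_eq_mul, mul_assoc]
    rwa [← hBdef, e] at h
  refine ⟨m, y', s', s₀, hm, hem, Subtype.val_injective.comp hy, fun i => (y i).2, fun χ => ?_,
    hs₀, ?_, fun i g hg => ?_, fun χ hχ hχy χ' hχ' hχ'y => ?_, fun χ hχ hχy i => ?_, ?_⟩
  · simp only [s']
    split_ifs
    · exact hs _
    · exact Or.inl rfl
  · rw [← hcard', ← Nat.card_eq_finsetCard]
    exact Nat.card_congr
      { toFun := fun χ => ⟨⟨χ.1, χ.2.1⟩, (hmemK _).2 χ.2.2⟩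
        invFun := fun ξ => ⟨ξ.1.1, ξ.1.2, (hmemK _).1 ξ.2⟩
        left_inv := fun χ => rfl
        right_inv := fun ξ => rfl }
  · rw [hKsum (fun χ => (s' χ : ℂ) * (χ : H → ℂ) g)]
    simp only [hs']
    exact hrel i g hg
  · have h1 := hcong ⟨χ, hχ⟩ ((hmemK _).2 hχy)
    have h2 := hcong ⟨χ', hχ'⟩ ((hmemK _).2 hχ'y)
    rw [show s' χ = s ⟨χ, hχ⟩ from dif_pos hχ, show s' χ' = s ⟨χ', hχ'⟩ from dif_pos hχ']
    simpa using Int.dvd_sub h1 h2
  · rw [show s' χ = s ⟨χ, hχ⟩ from dif_pos hχ,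
      show charDegree (y' i : H → ℂ) = charDegree (y' q₀ : H → ℂ) from (hdegY i).2]
    exact hcong ⟨χ, hχ⟩ ((hmemK _).2 hχy)
  · -- the rank
    rw [← hcard', blockRank]
    set f : Kx → (H → ℂ) := fun ξ => pRegularPart p (ξ.1.1 : H → ℂ)
    have hreg : ∀ (χ : IrrCharacter H) (g : H), pRegularPart p (χ : H → ℂ) g =
        if ¬ p ∣ orderOf g then (χ : H → ℂ) g else 0 := fun χ g => by
      unfold pRegularPart IsPRegular
      split_ifs <;> rfl
    have hspan : Submodule.span ℂ ((fun χ : IrrCharacter H => pRegularPart p (χ : H → ℂ)) '' K.β.1)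
        = Submodule.span ℂ (Set.range f) := by
      refine le_antisymm (Submodule.span_le.2 ?_) (Submodule.span_mono ?_)
      · rintro _ ⟨χ, hχ, rfl⟩
        by_cases hk : (⟨χ, hχ⟩ : X) ∈ Kx
        · exact Submodule.subset_span ⟨⟨_, hk⟩, rfl⟩
        · simp only [hKx, Finset.mem_filter, Finset.mem_univ, true_and, not_forall, not_not] at hk
          obtain ⟨i, hi⟩ := hk
          have e : pRegularPart p (χ : H → ℂ) =
              ∑ ξ : Kx, (-(s₀ : ℂ) * (s ξ.1 : ℂ)) • f ξ := by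
            funext g
            rw [Finset.sum_apply]
            simp only [Pi.smul_apply, smul_eq_mul, f, hreg]
            by_cases hg : p ∣ orderOf g
            · simp [hg]
            · simp only [hg, not_false_eq_true, if_true]
              have h := hrel i g hg
              rw [show (y' i : H → ℂ) = (χ : H → ℂ) by simp [y', hi]] at h
              rw [← Finset.sum_coe_sort Kx] at h
              have hs00 : (s₀ : ℂ) * (s₀ : ℂ) = 1 := by
                rcases hs₀ with h' | h' <;> simp [h']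
              simp only [mul_assoc, ← Finset.mul_sum]
              linear_combination (s₀ : ℂ) * h - (χ : H → ℂ) g * hs00
          rw [SetLike.mem_coe, show (fun χ : IrrCharacter H => pRegularPart p (χ : H → ℂ)) χ = _
            from e]
          exact Submodule.sum_mem _ fun ξ _ =>
            Submodule.smul_mem _ _ (Submodule.subset_span ⟨ξ, rfl⟩)
      · rintro _ ⟨ξ, rfl⟩
        exact ⟨ξ.1.1, ξ.1.2, rfl⟩
    rw [hspan, finrank_span_eq_card, Fintype.card_coe]
    rw [Fintype.linearIndependent_iff]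
    intro c hc ξ₀
    set F : H → ℂ := ∑ ξ : Kx, c ξ • (ξ.1.1 : H → ℂ)
    set G : H → ℂ := ∑ χ ∈ B, (w1 ξ₀.1 χ : ℂ) • (χ : H → ℂ)
    have h0 : classInner F G = 0 := by
      rw [classInner]
      refine mul_eq_zero_of_right _ (Finset.sum_eq_zero fun g _ => ?_)
      by_cases hg : p ∣ orderOf g
      · rw [show G g = 0 by
          simp only [G, Finset.sum_apply, Pi.smul_apply, smul_eq_mul]
          exact hw1 ξ₀.1 ξ₀.2 g hg, map_zero, mul_zero]
      · have h := congrFun hc g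
        simp only [Finset.sum_apply, Pi.smul_apply, smul_eq_mul, f, hreg, hg, not_false_eq_true,
          if_true, Pi.zero_apply] at h
        rw [show F g = 0 by simpa [F, Finset.sum_apply] using h, zero_mul]
    have h1 : classInner F G = c ξ₀ * (s ξ₀.1 : ℂ) := by
      simp only [F, G, Char.classInner_sum_left, Char.classInner_smul_left,
        Char.classInner_sum_right, Char.classInner_smul_right, Char.classInner_irrCharacter,
        map_intCast, mul_ite, mul_one, mul_zero, Finset.mul_sum]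
      rw [Finset.sum_comm, Finset.sum_eq_single ξ₀]
      · rw [Finset.sum_ite_eq, if_pos (by simp [hBdef, ξ₀.1.2])]
        simp only [w1, Finset.sum_eq_zero fun l (_ : l ∈ (Finset.univ : Finset (Fin m))) =>
          (if_neg fun h => (hmemK ξ₀.1).1 ξ₀.2 l h.symm : (if ξ₀.1.1 = y' l then s₀ else 0) = 0),
          if_true, sub_zero]
        exact mul_comm _ _
      · intro ξ _ hne
        rw [Finset.sum_ite_eq, if_pos (by simp [hBdef, ξ.1.2])]
        simp only [w1, Finset.sum_eq_zero fun l (_ : l ∈ (Finset.univ : Finset (Fin m))) =>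
          (if_neg fun h => (hmemK ξ.1).1 ξ.2 l h.symm : (if ξ.1.1 = y' l then s₀ else 0) = 0),
          if_neg (fun h : ξ.1.1 = ξ₀.1.1 => hne (Subtype.ext (Subtype.ext h))), sub_zero,
          Int.cast_zero, mul_zero, zero_mul]
      · simp
    rw [h1] at h0
    refine (mul_eq_zero.1 h0).resolve_right (Int.cast_ne_zero.2 ?_)
    rcases hs ξ₀.1 with h | h <;> simp [h]

end CycData

end Cfsg.Agent.BlockCount
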